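import Mathlib

/-!
# S5514-TRANS (helper70, piece for helper10): transport of a list of representatives of the
conjugacy classes of subgroups of a given order along a group isomorphism.
-/

set_option autoImplicit false

namespace Cfsg.Agent.H70.SubClassesTransport

theorem map_conj_map {G H : Type*} [Group G] [Group H] (e : G ≃* H) (X : Subgroup G) (g : G) :
    (X.map e.toMonoidHom).map (MulAut.conj (e g)).toMonoidHom =
      (X.map (MulAut.conj g).toMonoidHom).map e.toMonoidHom := by
  rw [Subgroup.map_map, Subgroup.map_map]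
  congr 1
  ext x
  simp only [MonoidHom.comp_apply, MulEquiv.coe_toMonoidHom, MulAut.conj_apply, map_mul, map_inv]

theorem card_map_equiv {G H : Type*} [Group G] [Group H] (e : G ≃* H) (X : Subgroup G) :
    Nat.card (X.map e.toMonoidHom) = Nat.card X :=
  (Nat.card_congr (X.equivMapOfInjective e.toMonoidHom e.injective).toEquiv).symm

theorem sub_classes_transport {G H : Type*} [Group G] [Group H] (e : G ≃* H) (n k : ℕ)
    (h : ∃ Y : Fin n → Subgroup G, (∀ i, Nat.card (Y i) = k) ∧ (∀ i j, (∃ g : G, (Y i).map (MulAut.conj g).toMonoidHom = Y j) → i = j) ∧ (∀ X : Subgroup G, Nat.card X = k → ∃ i, ∃ g : G, X.map (MulAut.conj g).toMonoidHom = Y i)) :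
    ∃ Y : Fin n → Subgroup H, (∀ i, Nat.card (Y i) = k) ∧ (∀ i j, (∃ g : H, (Y i).map (MulAut.conj g).toMonoidHom = Y j) → i = j) ∧ (∀ X : Subgroup H, Nat.card X = k → ∃ i, ∃ g : H, X.map (MulAut.conj g).toMonoidHom = Y i) := by
  obtain ⟨Y, hY1, hY2, hY3⟩ := h
  refine ⟨fun i => (Y i).map e.toMonoidHom, ?_, ?_, ?_⟩
  · intro i
    rw [card_map_equiv]
    exact hY1 i
  · rintro i j ⟨g', hg'⟩
    apply hY2 i j
    refine ⟨e.symm g', ?_⟩
    have h1 := map_conj_map e (Y i) (e.symm g')
    rw [MulEquiv.apply_symm_apply, hg'] at h1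
    exact (Subgroup.map_injective e.injective h1).symm
  · intro X hX
    have hX0 : Nat.card (X.map e.symm.toMonoidHom) = k := by
      rw [card_map_equiv]
      exact hX
    obtain ⟨i, g, hg⟩ := hY3 _ hX0
    refine ⟨i, e g, ?_⟩
    have hXe : X = (X.map e.symm.toMonoidHom).map e.toMonoidHom := by
      rw [Subgroup.map_map]
      have hid : e.toMonoidHom.comp e.symm.toMonoidHom = MonoidHom.id H := by
        ext x
        simp
      rw [hid, Subgroup.map_id]
    have h1 := map_conj_map e (X.map e.symm.toMonoidHom) g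
    rw [← hXe, hg] at h1
    exact h1

end Cfsg.Agent.H70.SubClassesTransport
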