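import Mathlib
import Cfsg.Agent.H58.BG10Defs2
import Cfsg.Agent.H58.BG96
import Cfsg.Agent.H31.BG8a
import Cfsg.Agent.H1.CoprimeSylow
import Cfsg.Agent.S1443

/-!
# Bender–Glauberman 10.3 (S1406) from the Uniqueness Theorem and 10.2 (helper70)
-/

set_option autoImplicit false

namespace Cfsg.Agent.H70.BG10

open Cfsg Subgroup Cfsg.Agent.H58.BG10

universe u

variable {G : Type u} [Group G]

/-- the image in `G` of a normal subgroup of `M` is normalized by `M` -/
theorem le_normalizer_map_subtype (M : Subgroup G) (N : Subgroup M) [hN : N.Normal] :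
    M ≤ normalizer ((N.map M.subtype : Subgroup G) : Set G) := by
  intro m hm
  rw [Subgroup.mem_normalizer_iff]
  intro h
  constructor
  · rintro ⟨n, hn, rfl⟩
    exact ⟨⟨m, hm⟩ * n * ⟨m, hm⟩⁻¹, hN.conj_mem n hn ⟨m, hm⟩, rfl⟩
  · rintro ⟨n, hn, hn'⟩
    refine ⟨⟨m, hm⟩⁻¹ * n * ⟨m, hm⟩, ?_, ?_⟩
    · have h1 := hN.conj_mem n hn ⟨m, hm⟩⁻¹
      rwa [inv_inv] at h1
    · have h2 : (M.subtype n : G) = m * h * m⁻¹ := hn'
      show m⁻¹ * (M.subtype n : G) * m = h
      rw [h2]
      group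

/-- adjoining a commuting element of order dividing `p` to an elementary abelian `p`-group -/
theorem sup_zpowers_elementary {p : ℕ} {B : Subgroup G} (hB : IsElementaryAbelian p B) {u : G}
    (hu : ∀ b ∈ B, u * b = b * u) (hup : u ^ p = 1) :
    IsElementaryAbelian p (B ⊔ zpowers u) := by
  have hcl : B ⊔ zpowers u = closure ((B : Set G) ∪ {u}) := by
    rw [Subgroup.closure_union, Subgroup.closure_eq, Subgroup.zpowers_eq_closure]
  have hcomm : ∀ x ∈ ((B : Set G) ∪ {u}), ∀ y ∈ ((B : Set G) ∪ {u}), x * y = y * x := by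
    rintro x (hx | hx) y (hy | hy)
    · exact congrArg Subtype.val (hB.1.is_comm.comm ⟨x, hx⟩ ⟨y, hy⟩)
    · rw [Set.mem_singleton_iff] at hy; subst hy; exact (hu x hx).symm
    · rw [Set.mem_singleton_iff] at hx; subst hx; exact hu y hy
    · rw [Set.mem_singleton_iff] at hx hy; subst hx; subst hy; rfl
  have hC : IsMulCommutative (closure ((B : Set G) ∪ {u})) :=
    Subgroup.isMulCommutative_closure hcomm
  rw [hcl]
  refine ⟨hC, ?_⟩
  intro a ha
  induction ha using Subgroup.closure_induction with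
  | mem x hx =>
    rcases hx with hx | hx
    · exact hB.2 x hx
    · rw [Set.mem_singleton_iff] at hx; rw [hx]; exact hup
  | one => exact one_pow p
  | mul x y hx hy ihx ihy =>
    have hxy : Commute x y := congrArg Subtype.val (hC.is_comm.comm ⟨x, hx⟩ ⟨y, hy⟩)
    rw [hxy.mul_pow, ihx, ihy, one_mul]
  | inv x hx ih => rw [inv_pow, ih, inv_one]

/-- a Sylow `p`-subgroup of a subgroup `K` of `p'`-index in `M` has the `p`-rank of `M` -/
theorem not_pRankLE_sylow_of_hall [Finite G] {p : ℕ} [Fact p.Prime] {M K : Subgroup G}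
    (hKM : K ≤ M) (hidx : ¬ p ∣ K.relIndex M) (P : Sylow p K) (k : ℕ)
    (h : ¬ PRankLE p k ↥M) : ¬ PRankLE p k ↥((P : Subgroup K).map K.subtype) := by
  have hp : p.Prime := Fact.out
  set P' : Subgroup G := (P : Subgroup K).map K.subtype with hP'
  have hP'K : P' ≤ K := Subgroup.map_subtype_le _
  have hP'M : P' ≤ M := hP'K.trans hKM
  have hcardK : Nat.card P' = p ^ (Nat.card K).factorization p :=
    Cfsg.Agent.H1.sylow_map_card p K P
  have hfac : (Nat.card K).factorization p = (Nat.card M).factorization p := by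
    have h1 : K.relIndex M * Nat.card K = Nat.card M := by
      rw [Subgroup.relIndex, ← Cfsg.Agent.H1.card_subgroupOf_of_le hKM]
      exact Subgroup.index_mul_card _
    have h0 : K.relIndex M ≠ 0 := fun h0 => hidx (by rw [h0]; exact dvd_zero p)
    rw [← h1, Nat.factorization_mul h0 Nat.card_pos.ne', Finsupp.add_apply,
      Nat.factorization_eq_zero_of_not_dvd hidx, zero_add]
  have hcardM : Nat.card P' = p ^ (Nat.card M).factorization p := by rw [hcardK, hfac]
  obtain ⟨E, hEM, hEc, hEe, hEcard⟩ := Cfsg.Agent.H31.T2.exists_elementary_of_not_pRankLE h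
  have hEp : IsPGroup p E := Cfsg.Agent.H31.T2.isPGroup_of_exponent hEe
  obtain ⟨Q, hQ⟩ := (hEp.comap_subtype (K := M)).exists_le_sylow
  set Q' : Subgroup G := (Q : Subgroup M).map M.subtype with hQ'
  have hEQ' : E ≤ Q' := by
    have hQ2 : E.subgroupOf M ≤ (Q : Subgroup M) := hQ
    have h2 := Subgroup.map_mono (f := M.subtype) hQ2
    rwa [Subgroup.map_subgroupOf_eq_of_le hEM] at h2
  obtain ⟨m, hm, hconj⟩ := Cfsg.Agent.H1.sylow_conj_internal p M Q' P'
    (Subgroup.map_subtype_le _) hP'M (Cfsg.Agent.H1.sylow_map_card p M Q) hcardM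
  set E' : Subgroup G := E.map (MulAut.conj m).toMonoidHom with hE'
  have hE'P' : E' ≤ P' := by
    rintro x ⟨e, he, rfl⟩
    rw [← hconj]
    exact Subgroup.smul_mem_pointwise_smul e (MulAut.conj m) Q' (hEQ' he)
  have hE'EA : IsElementaryAbelian p E' := by
    refine ⟨⟨⟨?_⟩⟩, ?_⟩
    · rintro ⟨_, a, ha, rfl⟩ ⟨_, b, hb, rfl⟩
      apply Subtype.ext
      show (MulAut.conj m) a * (MulAut.conj m) b = (MulAut.conj m) b * (MulAut.conj m) a
      rw [← map_mul, ← map_mul, hEc a ha b hb]
    · rintro _ ⟨a, ha, rfl⟩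
      show (MulAut.conj m) a ^ p = 1
      rw [← map_pow, hEe a ha, map_one]
  have hE'card : Nat.card E' = Nat.card E :=
    Subgroup.card_map_of_injective (MulAut.conj m).injective
  exact Cfsg.Agent.H31.BG8.not_pRankLE_of_le hE'P' hE'EA (by rw [hE'card]; exact hEcard)

/-- B&G 10.3 -/
theorem bg103 [Finite G] (hG : IsMinSimpleOddOrder G) (h96 : St1403 G) (h102 : St1405 G) :
    St1406 G := by
  intro M hM X hXM hXα hrk
  obtain ⟨p, hp, B, hBle, hBcomm, hBexp, hBcard⟩ :=
    Cfsg.Agent.H31.T2.exists_elementary_of_not_rankLE hrk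
  have : Fact p.Prime := ⟨hp⟩
  have hBMα : B ≤ alphaCore M := hBle.trans inf_le_left
  have hBCX : B ≤ centralizer (X : Set G) := hBle.trans inf_le_right
  obtain ⟨⟨hMαM, hMαπ, hMαidx⟩, -, -, -, -⟩ := h102 M hM
  have hMtop : M ≠ ⊤ := hM.1
  have hBEA : IsElementaryAbelian p B :=
    ⟨⟨⟨fun a b => Subtype.ext (hBcomm a a.2 b b.2)⟩⟩, hBexp⟩
  have hBp : IsPGroup p B := Cfsg.Agent.H31.T2.isPGroup_of_exponent hBexp
  obtain ⟨kB, hkB⟩ := IsPGroup.iff_card.mp hBp
  have hkB2 : 2 ≤ kB := by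
    by_contra hlt
    have h1 : kB ≤ 1 := by omega
    have h2 := Nat.pow_le_pow_right hp.pos h1
    rw [hkB] at hBcard
    omega
  have hpB : p ∣ Nat.card B := by
    rw [hkB]
    exact dvd_pow_self p (by omega)
  have hpα : p ∈ alpha M := hMαπ p hp (hpB.trans (Subgroup.card_dvd_of_le hBMα))
  have hp2 : p ≠ 2 :=
    Cfsg.Agent.H31.BG9.ne_two_of_dvd hG (hpB.trans (Subgroup.card_subgroup_dvd_card B))
  have hcopX : (Nat.card X).Coprime (Nat.card (alphaCore M)) := by
    apply Nat.coprime_of_dvd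
    intro q hq hqX hqM
    exact hXα q hq hqX (hMαπ q hq hqM)
  have hXp : (Nat.card X).Coprime p := by
    apply Nat.Coprime.symm
    rw [Nat.Prime.coprime_iff_not_dvd hp]
    intro h
    exact hXα p hp h hpα
  have hXnorm : X ≤ normalizer ((alphaCore M : Subgroup G) : Set G) :=
    hXM.trans (le_normalizer_map_subtype M _)
  have hsolv : Group.IsSolvable (alphaCore M) :=
    hG.2.2.2 _ (fun h => hMtop (top_le_iff.mp (h ▸ hMαM)))
  have hXcB : ∀ x ∈ X, ∀ b ∈ B, x * b = b * x := fun x hx b hb =>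
    Subgroup.mem_centralizer_iff.mp (hBCX hb) x hx
  have hXB : X ≤ normalizer (B : Set G) := by
    intro x hx
    rw [Subgroup.mem_normalizer_iff]
    intro b
    constructor
    · intro hb
      have h1 : x * b * x⁻¹ = b := by rw [hXcB x hx b hb]; group
      rw [h1]; exact hb
    · intro hb
      have hc := hXcB x hx _ hb
      have h2 : x * (x * b * x⁻¹) = x * b := by rw [hc]; group
      have h3 := mul_left_cancel h2
      rw [← h3]; exact hb
  obtain ⟨P, hBP, hXP⟩ := Cfsg.Agent.H1.coprime_invariant_pgroup_le_sylow X (alphaCore M)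
    hXnorm hcopX (Or.inr hsolv) p B hBMα hBp hXB
  have hP'Mα : (P : Subgroup (alphaCore M)).map (alphaCore M).subtype ≤ alphaCore M :=
    Subgroup.map_subtype_le _
  have hP'p : IsPGroup p ((P : Subgroup (alphaCore M)).map (alphaCore M).subtype) :=
    P.isPGroup'.map _
  have hP'rk : ¬ PRankLE p 2 ↥((P : Subgroup (alphaCore M)).map (alphaCore M).subtype) :=
    not_pRankLE_sylow_of_hall hMαM (hMαidx p hp hpα) P 2 hpα.2
  have hKtop : M ⊓ centralizer (X : Set G) ≠ ⊤ :=
    fun h => hMtop (top_le_iff.mp (h ▸ inf_le_left))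
  have hBK : B ≤ M ⊓ centralizer (X : Set G) := le_inf (hBMα.trans hMαM) hBCX
  have hrk1 : ¬ RankLE 1 ↥(M ⊓ centralizer (X : Set G)) := fun h =>
    Cfsg.Agent.H31.BG8.not_pRankLE_of_le hBK hBEA hBcard (h p hp)
  by_cases hcent : X ≤ centralizer
      (((P : Subgroup (alphaCore M)).map (alphaCore M).subtype : Subgroup G) : Set G)
  · have hP'K : (P : Subgroup (alphaCore M)).map (alphaCore M).subtype ≤
        M ⊓ centralizer (X : Set G) := by
      refine le_inf (hP'Mα.trans hMαM) ?_
      intro y hy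
      rw [Subgroup.mem_centralizer_iff]
      intro x hx
      exact (Subgroup.mem_centralizer_iff.mp (hcent hx) y hy).symm
    have hrk2 : ¬ RankLE 2 ↥(M ⊓ centralizer (X : Set G)) := by
      intro h
      obtain ⟨E, hEP', hEc, hEe, hEcard⟩ :=
        Cfsg.Agent.H31.T2.exists_elementary_of_not_pRankLE hP'rk
      exact Cfsg.Agent.H31.BG8.not_pRankLE_of_le (hEP'.trans hP'K)
        ⟨⟨⟨fun a b => Subtype.ext (hEc a a.2 b b.2)⟩⟩, hEe⟩ hEcard (h p hp)
    exact h96 _ hKtop hrk1 (Or.inl hrk2)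
  · have hex : ∃ u ∈ (P : Subgroup (alphaCore M)).map (alphaCore M).subtype ⊓
        centralizer (B : Set G), orderOf u = p ∧ ¬ X ≤ centralizer ({u} : Set G) := by
      by_contra hcon
      push Not at hcon
      exact hcent (Cfsg.Agent.S1443.result p hp2 _ B X hP'p hBP hBEA hXP hXp hcon)
    obtain ⟨u, hu, hup, huX⟩ := hex
    have huB : u ∉ B := by
      intro h
      apply huX
      intro x hx
      rw [Subgroup.mem_centralizer_iff]
      intro y hy
      rw [Set.mem_singleton_iff] at hy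
      subst hy
      exact (hXcB x hx y h).symm
    have hucomm : ∀ b ∈ B, u * b = b * u := fun b hb =>
      (Subgroup.mem_centralizer_iff.mp hu.2 b hb).symm
    have hupow : u ^ p = 1 := by rw [← hup]; exact pow_orderOf_eq_one u
    have hB2 := sup_zpowers_elementary hBEA hucomm hupow
    have hB2lt : B < B ⊔ zpowers u :=
      lt_of_le_of_ne le_sup_left
        (fun h => huB (h ▸ (le_sup_right : zpowers u ≤ B ⊔ zpowers u) (mem_zpowers u)))
    have hB2card : p ^ 2 < Nat.card ↥(B ⊔ zpowers u) := by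
      have h1 : Nat.card B < Nat.card ↥(B ⊔ zpowers u) := by
        by_contra hge
        push Not at hge
        exact hB2lt.ne (Subgroup.eq_of_le_of_card_ge hB2lt.le hge)
      have h2 := Nat.pow_le_pow_right hp.pos hkB2
      rw [hkB] at h1
      omega
    have hB2C : B ⊔ zpowers u ≤ centralizer (B : Set G) := by
      refine sup_le ?_ ?_
      · intro b hb
        rw [Subgroup.mem_centralizer_iff]
        intro c hc
        exact hBcomm c hc b hb
      · rw [Subgroup.zpowers_le]
        exact hu.2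
    have hrkC : ¬ RankLE 2 ↥(centralizer (B : Set G)) := fun h =>
      Cfsg.Agent.H31.BG8.not_pRankLE_of_le hB2C hB2 hB2card (h p hp)
    have hBtop : B ≠ ⊤ := fun h => hMtop (top_le_iff.mp (h ▸ (hBMα.trans hMαM)))
    have hrkB : ¬ RankLE 1 ↥B := fun h =>
      Cfsg.Agent.H31.BG8.not_pRankLE_of_le le_rfl hBEA hBcard (h p hp)
    have hBU := h96 B hBtop hrkB (Or.inr hrkC)
    exact Cfsg.Agent.H58.BG96.inUniqueMaximal_of_le hBK hKtop hBU

end Cfsg.Agent.H70.BG10
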