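import Mathlib
import Cfsg.Prelude.Def_Blocks
import Cfsg.Agent.H44.SL2OddF
import Cfsg.Agent.H82.Irr

/-!
# Counting the irreducible characters of `SL₂(q)`, `q` odd, of degree prime to `ℓ` (helper70)
-/

set_option autoImplicit false

namespace Cfsg.Agent.H70.McK

/-- number of irreducible characters of `SL₂(F)` of given natural degree -/
theorem sl2_degree_count_nat {F : Type*} [Field F] [Fintype F] (hodd : Odd (Fintype.card F))
    [Fintype (Cfsg.IrrCharacter (Matrix.SpecialLinearGroup (Fin 2) F))]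
    (k : ℕ) (hk : Fintype.card F = 2 * k + 1) (hk1 : 1 ≤ k) (d : ℕ) :
    (Finset.univ.filter (fun χ : Cfsg.IrrCharacter (Matrix.SpecialLinearGroup (Fin 2) F) =>
        Cfsg.charDegree χ.1 = d)).card =
      (if 2 * k = d then k else 0) + (if k = d then 2 else 0) + (if 1 = d then 1 else 0) +
      (if 2 * k + 1 = d then 1 else 0) + (if k + 1 = d then 2 else 0) +
      (if 2 * k + 2 = d then k - 1 else 0) := by
  classical
  let : Fintype (Matrix.SpecialLinearGroup (Fin 2) F) := Fintype.ofFinite _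
  let : Fintype (MulChar F ℂ) := Fintype.ofFinite _
  obtain ⟨α₀, ξ₁, ξ₂, D⟩ := Cfsg.Agent.H44.exists_quadDecomp hodd
  have h := Cfsg.Agent.H44.SL2_odd_degree_count hodd D (d : ℂ)
  have e1 : ((Fintype.card F : ℂ) - 1) / 2 = ((k : ℕ) : ℂ) := by
    rw [hk]; push_cast; ring
  have e2 : ((Fintype.card F : ℂ) + 1) / 2 = ((k + 1 : ℕ) : ℂ) := by
    rw [hk]; push_cast; ring
  have e3 : ((Fintype.card F : ℂ) - 3) / 2 = ((k - 1 : ℕ) : ℂ) := by
    rw [hk, Nat.cast_sub hk1]; push_cast; ring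
  have e4 : (Fintype.card F : ℂ) - 1 = ((2 * k : ℕ) : ℂ) := by
    rw [hk]; push_cast; ring
  have e5 : (Fintype.card F : ℂ) + 1 = ((2 * k + 2 : ℕ) : ℂ) := by
    rw [hk]; push_cast; ring
  have e6 : (Fintype.card F : ℂ) = ((2 * k + 1 : ℕ) : ℂ) := by
    rw [hk]
  have e7 : (1 : ℂ) = ((1 : ℕ) : ℂ) := by push_cast; rfl
  rw [e1, e2, e3, e4, e5, e6] at h
  have h' : (∑ χ : Cfsg.IrrCharacter (Matrix.SpecialLinearGroup (Fin 2) F),
      if χ.1 1 = (d : ℂ) then (1 : ℂ) else 0) =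
      (((Finset.univ.filter (fun χ : Cfsg.IrrCharacter (Matrix.SpecialLinearGroup (Fin 2) F) =>
        Cfsg.charDegree χ.1 = d)).card : ℕ) : ℂ) := by
    rw [Finset.card_filter]
    push_cast
    refine Finset.sum_congr rfl fun χ _ => ?_
    rw [Cfsg.Agent.H82.irr_one_eq_charDegree χ]
    simp only [Nat.cast_inj]
  rw [h'] at h
  have h2 : (((Finset.univ.filter (fun χ : Cfsg.IrrCharacter (Matrix.SpecialLinearGroup (Fin 2) F) =>
        Cfsg.charDegree χ.1 = d)).card : ℕ) : ℂ) =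
      (((if 2 * k = d then k else 0) + (if k = d then 2 else 0) + (if 1 = d then 1 else 0) +
      (if 2 * k + 1 = d then 1 else 0) + (if k + 1 = d then 2 else 0) +
      (if 2 * k + 2 = d then k - 1 else 0) : ℕ) : ℂ) := by
    rw [h]
    have e8 : ((1 : ℂ) = (d : ℂ)) ↔ (1 = d) := by
      rw [e7]; exact Nat.cast_inj
    simp only [Nat.cast_inj, e8]
    push_cast
    split_ifs <;> ring
  exact_mod_cast h2

theorem mckay_sl2_count {F : Type*} [Field F] [Fintype F] (hodd : Odd (Fintype.card F)) (ℓ : ℕ)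
    [Fact ℓ.Prime] :
    Nat.card {χ : Cfsg.IrrCharacter (Matrix.SpecialLinearGroup (Fin 2) F) //
        ¬ ℓ ∣ Cfsg.charDegree (χ : Matrix.SpecialLinearGroup (Fin 2) F → ℂ)} =
      (if ℓ ∣ Fintype.card F - 1 then 0 else (Fintype.card F - 1) / 2) +
      (if ℓ ∣ (Fintype.card F - 1) / 2 then 0 else 2) + 1 +
      (if ℓ ∣ Fintype.card F then 0 else 1) +
      (if ℓ ∣ (Fintype.card F + 1) / 2 then 0 else 2) +
      (if ℓ ∣ Fintype.card F + 1 then 0 else (Fintype.card F - 3) / 2) := by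
  classical
  let : Fintype (Matrix.SpecialLinearGroup (Fin 2) F) := Fintype.ofFinite _
  let : Fintype (Cfsg.IrrCharacter (Matrix.SpecialLinearGroup (Fin 2) F)) :=
    Cfsg.Agent.H4.fintypeIrr _
  obtain ⟨k, hk⟩ := id hodd
  have hk1 : 1 ≤ k := by
    have := Fintype.one_lt_card (α := F)
    omega
  have hN := sl2_degree_count_nat hodd k hk hk1
  have hℓ : ¬ ℓ ∣ 1 := by
    intro h
    exact (Fact.out : ℓ.Prime).one_lt.ne' (Nat.dvd_one.mp h)
  -- degrees lie in a range
  have hrange : ∀ χ : Cfsg.IrrCharacter (Matrix.SpecialLinearGroup (Fin 2) F),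
      Cfsg.charDegree χ.1 ∈ Finset.range (2 * k + 3) := by
    intro χ
    rw [Finset.mem_range]
    by_contra hlt
    have h1 := hN (Cfsg.charDegree χ.1)
    have hpos : 0 < (Finset.univ.filter
        (fun χ' : Cfsg.IrrCharacter (Matrix.SpecialLinearGroup (Fin 2) F) =>
        Cfsg.charDegree χ'.1 = Cfsg.charDegree χ.1)).card :=
      Finset.card_pos.mpr ⟨χ, by simp⟩
    rw [h1] at hpos
    rw [if_neg (by omega), if_neg (by omega), if_neg (by omega), if_neg (by omega),
      if_neg (by omega), if_neg (by omega)] at hpos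
    omega
  rw [Nat.card_eq_fintype_card, Fintype.card_subtype, Finset.card_filter]
  rw [← Finset.sum_fiberwise_of_maps_to (g := fun χ : Cfsg.IrrCharacter
    (Matrix.SpecialLinearGroup (Fin 2) F) => Cfsg.charDegree χ.1)
    (t := Finset.range (2 * k + 3)) (fun χ _ => hrange χ)]
  have hinner : ∀ d ∈ Finset.range (2 * k + 3),
      (∑ χ ∈ Finset.univ.filter (fun χ : Cfsg.IrrCharacter
        (Matrix.SpecialLinearGroup (Fin 2) F) => Cfsg.charDegree χ.1 = d),
        (if ¬ ℓ ∣ Cfsg.charDegree χ.1 then 1 else 0)) =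
      ((if 2 * k = d then k else 0) + (if k = d then 2 else 0) + (if 1 = d then 1 else 0) +
      (if 2 * k + 1 = d then 1 else 0) + (if k + 1 = d then 2 else 0) +
      (if 2 * k + 2 = d then k - 1 else 0)) * (if ¬ ℓ ∣ d then 1 else 0) := by
    intro d _
    rw [← hN d, Finset.card_eq_sum_ones, Finset.sum_mul]
    refine Finset.sum_congr rfl fun χ hχ => ?_
    rw [(Finset.mem_filter.mp hχ).2, one_mul]
  rw [Finset.sum_congr rfl hinner]
  simp only [add_mul, ite_mul, zero_mul, Finset.sum_add_distrib, Finset.sum_ite_eq,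
    Finset.mem_range]
  rw [hk]
  have a1 : 2 * k + 1 - 1 = 2 * k := by omega
  have a2 : (2 * k + 1 - 1) / 2 = k := by omega
  have a3 : (2 * k + 1 + 1) / 2 = k + 1 := by omega
  have a4 : (2 * k + 1 - 3) / 2 = k - 1 := by omega
  have a5 : 2 * k + 1 + 1 = 2 * k + 2 := by omega
  rw [a2, a3, a4, a1, a5]
  rw [if_pos (by omega : 2 * k < 2 * k + 3), if_pos (by omega : k < 2 * k + 3),
    if_pos (by omega : 1 < 2 * k + 3), if_pos (by omega : 2 * k + 1 < 2 * k + 3),
    if_pos (by omega : k + 1 < 2 * k + 3), if_pos (by omega : 2 * k + 2 < 2 * k + 3)]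
  rw [if_pos hℓ]
  by_cases c1 : ℓ ∣ 2 * k <;> by_cases c2 : ℓ ∣ k <;> by_cases c3 : ℓ ∣ 2 * k + 1 <;>
    by_cases c4 : ℓ ∣ k + 1 <;> by_cases c5 : ℓ ∣ 2 * k + 2 <;>
    simp [c1, c2, c3, c4, c5]

end Cfsg.Agent.H70.McK
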