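import Cfsg.Agent.H66.SpDefs
import Cfsg.Agent.H14.Thompson

/-!
# SP-JEQ (helper66's project S2944)

If `S` is a Sylow 2-subgroup of `N` with `J(S) = J(T)` and `J(T^g) ≤ N`, then `J(T^g) = J(T^m)`
for some `m ∈ N`.
-/

set_option autoImplicit false
open Cfsg

namespace Cfsg.Agent.H70.Sp

open Cfsg.Agent.H66.Sp

universe u

variable {G : Type u} [Group G]

/-- `A` is an elementary abelian 2-subgroup of largest order of `P` (both inside `G`). -/
def IsMaxEA (P A : Subgroup G) : Prop :=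
  A ≤ P ∧ IsElementaryAbelian 2 A ∧
    ∀ B : Subgroup G, B ≤ P → IsElementaryAbelian 2 B → Nat.card B ≤ Nat.card A

theorem isMaxEA_map_subtype [Finite G] (P : Subgroup G) {A' : Subgroup P}
    (hA' : A' ∈ maxElementaryAbelianSubgroups 2 P) : IsMaxEA P (A'.map P.subtype) := by
  refine ⟨Subgroup.map_subtype_le _, Cfsg.Agent.H14.elemAb_map' hA'.1 _, ?_⟩
  intro B hBP hB
  have h2 := hA'.2 (B.subgroupOf P)
    (Cfsg.Agent.H14.elemAb_comap' hB P.subtype P.subtype_injective)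
  rw [Nat.card_congr (Subgroup.subgroupOfEquivOfLe hBP).toEquiv] at h2
  rw [Subgroup.card_subtype]
  exact h2

theorem subgroupOf_mem_of_isMaxEA [Finite G] (P : Subgroup G) {A : Subgroup G}
    (hA : IsMaxEA P A) : A.subgroupOf P ∈ maxElementaryAbelianSubgroups 2 P := by
  refine ⟨Cfsg.Agent.H14.elemAb_comap' hA.2.1 P.subtype P.subtype_injective, ?_⟩
  intro B hB
  have h1 := hA.2.2 (B.map P.subtype) (Subgroup.map_subtype_le _)
    (Cfsg.Agent.H14.elemAb_map' hB _)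
  rw [Subgroup.card_subtype] at h1
  rw [Nat.card_congr (Subgroup.subgroupOfEquivOfLe hA.1).toEquiv]
  exact h1

theorem isMaxEA_le_thompson [Finite G] (P : Subgroup G) {A : Subgroup G} (hA : IsMaxEA P A) :
    A ≤ thompsonSubgroupOf 2 P := by
  have h2 : A.subgroupOf P ≤ thompsonSubgroup 2 P := le_sSup (subgroupOf_mem_of_isMaxEA P hA)
  have h3 := Subgroup.map_mono (f := P.subtype) h2
  rw [Subgroup.map_subgroupOf_eq_of_le hA.1] at h3
  exact h3

theorem thompson_le_of_isMaxEA [Finite G] (P X : Subgroup G)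
    (h : ∀ A, IsMaxEA P A → A ≤ X) : thompsonSubgroupOf 2 P ≤ X := by
  unfold thompsonSubgroupOf thompsonSubgroup
  rw [Subgroup.map_le_iff_le_comap]
  apply sSup_le
  intro A' hA'
  rw [← Subgroup.map_le_iff_le_comap]
  exact h _ (isMaxEA_map_subtype P hA')

theorem exists_isMaxEA [Finite G] (P : Subgroup G) : ∃ A, IsMaxEA P A := by
  obtain ⟨A', hA'⟩ := Cfsg.Agent.H14.maxElementaryAbelian_nonempty (G := P) 2
  exact ⟨_, isMaxEA_map_subtype P hA'⟩

theorem isMaxEA_of_thompson_eq [Finite G] {T S : Subgroup G}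
    (hJ : thompsonSubgroupOf 2 S = thompsonSubgroupOf 2 T) {A : Subgroup G}
    (hA : IsMaxEA T A) : IsMaxEA S A := by
  have hJS : thompsonSubgroupOf 2 T ≤ S := by
    rw [← hJ]; exact Cfsg.Agent.H14.thompsonSubgroupOf_le 2 S
  have hJT : thompsonSubgroupOf 2 S ≤ T := by
    rw [hJ]; exact Cfsg.Agent.H14.thompsonSubgroupOf_le 2 T
  obtain ⟨AS, hASm⟩ := exists_isMaxEA S
  refine ⟨(isMaxEA_le_thompson T hA).trans hJS, hA.2.1, ?_⟩
  intro B hBS hB
  exact (hASm.2.2 B hBS hB).trans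
    (hA.2.2 AS ((isMaxEA_le_thompson S hASm).trans hJT) hASm.2.1)

theorem map_conj_conj (K : Subgroup G) (a b : G) :
    (K.map (MulAut.conj a).toMonoidHom).map (MulAut.conj b).toMonoidHom =
      K.map (MulAut.conj (b * a)).toMonoidHom := by
  rw [Subgroup.map_map]
  congr 1
  ext x
  simp [MulAut.conj_apply, mul_assoc]

theorem map_conj_one (K : Subgroup G) : K.map (MulAut.conj (1 : G)).toMonoidHom = K := by
  ext x
  simp [MulAut.conj_apply]

theorem isMaxEA_conj_inv [Finite G] (T A : Subgroup G) (c : G)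
    (hA : IsMaxEA (T.map (MulAut.conj c).toMonoidHom) A) :
    IsMaxEA T (A.map (MulAut.conj c⁻¹).toMonoidHom) := by
  refine ⟨?_, Cfsg.Agent.H14.elemAb_map' hA.2.1 _, ?_⟩
  · have h1 := Subgroup.map_mono (f := (MulAut.conj c⁻¹).toMonoidHom) hA.1
    rw [map_conj_conj, inv_mul_cancel, map_conj_one] at h1
    exact h1
  · intro B hBT hB
    have h1 := hA.2.2 (B.map (MulAut.conj c).toMonoidHom) (Subgroup.map_mono hBT)
      (Cfsg.Agent.H14.elemAb_map' hB _)
    rw [Subgroup.card_map_of_injective (MulAut.conj c).injective] at h1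
    rw [Subgroup.card_map_of_injective (MulAut.conj c⁻¹).injective]
    exact h1

/-- Sylow's theorem inside `N`. -/
theorem exists_conj_le_of_sylowIn [Finite G] (S N P : Subgroup G) (hS : IsSylowTwoIn S N)
    (hP : IsPGroup 2 ↥P) (hPN : P ≤ N) :
    ∃ m ∈ N, P ≤ S.map (MulAut.conj m).toMonoidHom := by
  have : Fact (Nat.Prime 2) := ⟨Nat.prime_two⟩
  obtain ⟨hSN, hS2, hSodd⟩ := hS
  have hS' : IsPGroup 2 ↥(S.subgroupOf N) :=
    IsPGroup.of_injective hS2 (S.subgroupOfEquivOfLe hSN).toMonoidHom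
      (S.subgroupOfEquivOfLe hSN).injective
  have hidx : ¬ 2 ∣ (S.subgroupOf N).index := by
    rw [← even_iff_two_dvd, Nat.not_even_iff_odd]; exact hSodd
  have hP' : IsPGroup 2 ↥(P.subgroupOf N) :=
    IsPGroup.of_injective hP (P.subgroupOfEquivOfLe hPN).toMonoidHom
      (P.subgroupOfEquivOfLe hPN).injective
  obtain ⟨Q, hQ⟩ := hP'.exists_le_sylow
  obtain ⟨n, hn⟩ := MulAction.exists_smul_eq ↥N (hS'.toSylow hidx) Q
  refine ⟨(n : G), n.2, ?_⟩
  intro x hx
  have hxQ : (⟨x, hPN hx⟩ : ↥N) ∈ (Q : Subgroup ↥N) :=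
    hQ (by rw [Subgroup.mem_subgroupOf]; exact hx)
  rw [← hn, Sylow.coe_subgroup_smul, Subgroup.mem_smul_pointwise_iff_exists] at hxQ
  obtain ⟨s, hs, hsx⟩ := hxQ
  rw [IsPGroup.toSylow_coe, Subgroup.mem_subgroupOf] at hs
  refine ⟨(s : G), hs, ?_⟩
  have := congrArg Subtype.val hsx
  simpa [MulAut.smul_def, MulAut.conj_apply] using this

theorem jEq (h : StConjG.{u}) : StJEq.{u} := by
  intro G _ _ T S N g hT hS hJ hJ'
  have hP : IsPGroup 2 ↥(thompsonSubgroupOf 2 (T.map (MulAut.conj g).toMonoidHom)) := by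
    have h1 : IsPGroup 2 ↥(T.map (MulAut.conj g).toMonoidHom) := hT.map _
    exact h1.to_le (Cfsg.Agent.H14.thompsonSubgroupOf_le 2 _)
  obtain ⟨m, hmN, hm⟩ := exists_conj_le_of_sylowIn S N _ hS hP hJ'
  refine ⟨m, hmN, ?_⟩
  -- `J(T^c) ≤ S` for `c = m⁻¹ g`
  have hc1 : thompsonSubgroupOf 2 (T.map (MulAut.conj (m⁻¹ * g)).toMonoidHom) ≤ S := by
    have h1 := Subgroup.map_mono (f := (MulAut.conj m⁻¹).toMonoidHom) hm
    rw [Cfsg.Agent.H14.thompsonSubgroupOf_conj, map_conj_conj, map_conj_conj, inv_mul_cancel,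
      map_conj_one] at h1
    exact h1
  -- `J(T^c) ≤ J(S)`
  have hc2 : thompsonSubgroupOf 2 (T.map (MulAut.conj (m⁻¹ * g)).toMonoidHom) ≤
      thompsonSubgroupOf 2 S := by
    apply thompson_le_of_isMaxEA
    intro A hA
    apply isMaxEA_le_thompson
    have hA1 : IsMaxEA S (A.map (MulAut.conj (m⁻¹ * g)⁻¹).toMonoidHom) :=
      isMaxEA_of_thompson_eq hJ (isMaxEA_conj_inv T A (m⁻¹ * g) hA)
    refine ⟨(isMaxEA_le_thompson _ hA).trans hc1, hA.2.1, ?_⟩
    intro B hBS hB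
    have h2 := hA1.2.2 B hBS hB
    rwa [Subgroup.card_map_of_injective (MulAut.conj (m⁻¹ * g)⁻¹).injective] at h2
  -- equality by cardinality
  have hc3 : thompsonSubgroupOf 2 (T.map (MulAut.conj (m⁻¹ * g)).toMonoidHom) =
      thompsonSubgroupOf 2 S := by
    apply Subgroup.eq_of_le_of_card_ge hc2
    have e : Nat.card ↥(thompsonSubgroupOf 2 (T.map (MulAut.conj (m⁻¹ * g)).toMonoidHom)) =
        Nat.card ↥(thompsonSubgroupOf 2 S) := by
      rw [hJ, ← Cfsg.Agent.H14.thompsonSubgroupOf_conj,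
        Subgroup.card_map_of_injective (MulAut.conj (m⁻¹ * g)).injective]
    exact e.ge
  rw [← Cfsg.Agent.H14.thompsonSubgroupOf_conj 2 m T, ← hJ, ← hc3,
    Cfsg.Agent.H14.thompsonSubgroupOf_conj, map_conj_conj, mul_inv_cancel_left]

example (h : StConjG.{u}) : StJEq.{u} := jEq h

end Cfsg.Agent.H70.Sp
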