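import Mathlib
import Cfsg.Agent.H42.UnDefs
import Cfsg.Agent.H42.UnBase

/-!
# S5954, piece UN-NDCNT: if `r` divides the number of nondegenerate `m`-spaces of the standard
hermitian space of dimension `n` then `cu q r ∣ j` for some `n - m < j ≤ n`
-/

set_option autoImplicit false

namespace Cfsg.Agent.H70.Un

open Cfsg.Agent.H45 Cfsg.Agent.H42.Spd Cfsg.Agent.H42.Un Module

universe u

/-- UN-NDCNT -/
theorem uNdCnt (hFr : StUFrames.{u,u}) (hFib : StUFib.{u}) (hOrd : StUOrd) : StUNdCnt.{u} := by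
  intro F _ _ q hF n m r hr hr2 hrF hmn hdvd
  obtain ⟨σ, hσ⟩ := Cfsg.Agent.H7.exists_frobQ hF
  have hiso := uiso_std_one hF σ hσ n
  have hfin : Module.finrank F (Fin n → F) = n := Module.finrank_fin_fun F
  have h1 := hFr F q σ (Fin n → F) (hermB σ n) hF hσ hiso m (by rw [hfin]; exact hmn)
  have h2 := hFib F q σ hF hσ n m
  rw [h2, hfin] at h1
  have h3 : r ∣ ∏ j ∈ Finset.range m,
      (if Even (n - j) then q ^ (n - j - 1) * (q ^ (n - j) - 1)
        else q ^ (n - j - 1) * (q ^ (n - j) + 1)) := by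
    rw [← h1]
    exact Dvd.dvd.mul_right hdvd _
  obtain ⟨j, hj, hjd⟩ := (Prime.dvd_finsetProd_iff hr.prime _).1 h3
  rw [Finset.mem_range] at hj
  -- `r` does not divide `q`
  have hrq : ¬ r ∣ q := by
    intro hrq
    apply hrF
    obtain ⟨p, k, hp, hc, hqk⟩ := Cfsg.Agent.H7.exists_char_pow hF
    rw [hqk] at hrq
    have hrp : r = p := (Nat.prime_dvd_prime_iff_eq hr hp).1 (hr.dvd_of_dvd_pow hrq)
    rw [hrp]
    exact CharP.cast_eq_zero F p
  have hk : r ∣ (if Even (n - j) then q ^ (n - j) - 1 else q ^ (n - j) + 1) := by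
    by_cases hev : Even (n - j)
    · rw [if_pos hev] at hjd ⊢
      rcases (Nat.Prime.dvd_mul hr).1 hjd with h | h
      · exact absurd (hr.dvd_of_dvd_pow h) hrq
      · exact h
    · rw [if_neg hev] at hjd ⊢
      rcases (Nat.Prime.dvd_mul hr).1 hjd with h | h
      · exact absurd (hr.dvd_of_dvd_pow h) hrq
      · exact h
  exact ⟨n - j, by omega, by omega, hOrd q r (n - j) hr hr2 hrq (by omega) hk⟩

example (hFr : StUFrames.{u,u}) (hFib : StUFib.{u}) (hOrd : StUOrd) :
    Cfsg.Agent.H42.Un.StUNdCnt.{u} := uNdCnt hFr hFib hOrd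

end Cfsg.Agent.H70.Un
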