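import Mathlib
import Cfsg.Agent.H38.BG161Defs

/-!
# S1421-SCALAR (B&G Lemma 16.1, Case B, hypothesis (I)): every element of `E` normalizes every
subgroup of order `p` of `A`
-/

set_option autoImplicit false

namespace Cfsg.Agent.H70.BG161

open Cfsg Subgroup Cfsg.Agent.H58.BG10 Cfsg.Agent.H58.BG12 Cfsg.Agent.H38.BG161

universe u

variable {G : Type u} [Group G]

/-- in a finite group, an element conjugating a subgroup into itself normalizes it -/
theorem mem_normalizer_of_conj_mem [Finite G] (X : Subgroup G) (g : G)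
    (h : ∀ x ∈ X, g * x * g⁻¹ ∈ X) : g ∈ normalizer (X : Set G) := by
  rw [mem_normalizer_iff]
  have hinj : Function.Injective (fun x : X => (⟨g * x * g⁻¹, h x x.2⟩ : X)) := by
    intro a b hab
    have h1 : g * (a : G) * g⁻¹ = g * (b : G) * g⁻¹ := congrArg Subtype.val hab
    exact Subtype.ext (mul_left_cancel (mul_right_cancel h1))
  have hsurj := Finite.surjective_of_injective hinj
  intro y
  constructor
  · exact h y
  · intro hy
    obtain ⟨x, hx⟩ := hsurj ⟨g * y * g⁻¹, hy⟩
    have h1 : g * (x : G) * g⁻¹ = g * y * g⁻¹ := congrArg Subtype.val hx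
    have hxy : (x : G) = y := mul_left_cancel (mul_right_cancel h1)
    rw [← hxy]
    exact x.2

/-- a subgroup containing the elements of prime power order of `E` contains `E` -/
theorem mem_of_prime_powers [Finite G] (N E : Subgroup G)
    (hpp : ∀ e ∈ E, ∀ q : ℕ, q.Prime → ∀ k : ℕ, orderOf e = q ^ k → e ∈ N) :
    ∀ e ∈ E, e ∈ N := by
  have key : ∀ n : ℕ, ∀ e ∈ E, orderOf e = n → e ∈ N := by
    intro n
    induction n using Nat.strong_induction_on with
    | _ n ih =>
      intro e he hn
      have hnpos : 0 < n := by rw [← hn]; exact orderOf_pos e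
      by_cases hn1 : n = 1
      · rw [hn1, orderOf_eq_one_iff] at hn
        rw [hn]; exact one_mem _
      · have hq : (n.minFac).Prime := Nat.minFac_prime hn1
        obtain ⟨k, m, hqm, hnkm⟩ :=
          Nat.exists_eq_pow_mul_and_not_dvd (n := n) (by omega) n.minFac hq.ne_one
        set q := n.minFac with hqdef
        have hm0 : m ≠ 0 := by
          rintro rfl
          rw [mul_zero] at hnkm
          omega
        have hqk0 : q ^ k ≠ 0 := pow_ne_zero k hq.ne_zero
        have h1 : orderOf (e ^ m) = q ^ k := by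
          rw [orderOf_pow_of_dvd hm0 (by rw [hn, hnkm]; exact dvd_mul_left m _), hn, hnkm]
          exact Nat.mul_div_cancel _ (Nat.pos_of_ne_zero hm0)
        have h2 : orderOf (e ^ (q ^ k)) = m := by
          rw [orderOf_pow_of_dvd hqk0 (by rw [hn, hnkm]; exact dvd_mul_right _ m), hn, hnkm]
          exact Nat.mul_div_cancel_left _ (Nat.pos_of_ne_zero hqk0)
        have hemN : e ^ m ∈ N := hpp (e ^ m) (pow_mem he m) q hq k h1
        have hk1 : 1 ≤ k := by
          by_contra hk
          have hk0 : k = 0 := by omega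
          rw [hk0, pow_zero, one_mul] at hnkm
          rw [← hnkm] at hqm
          exact hqm (Nat.minFac_dvd n)
        have hmlt : m < n := by
          rw [hnkm]
          have : 2 ≤ q ^ k := le_trans hq.two_le (Nat.le_self_pow (by omega) q)
          nlinarith [Nat.pos_of_ne_zero hm0]
        have heqN : e ^ (q ^ k) ∈ N := ih m hmlt (e ^ (q ^ k)) (pow_mem he _) h2
        have hcop : Nat.Coprime (q ^ k) m :=
          Nat.Coprime.pow_left k ((Nat.Prime.coprime_iff_not_dvd hq).2 hqm)
        have hcop' : IsCoprime ((q ^ k : ℕ) : ℤ) (m : ℤ) := Nat.isCoprime_iff_coprime.2 hcop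
        obtain ⟨a, b, hab⟩ := hcop'
        have he1 : e = (e ^ (q ^ k)) ^ a * (e ^ m) ^ b := by
          rw [← zpow_natCast e (q ^ k), ← zpow_natCast e m, ← zpow_mul, ← zpow_mul, ← zpow_add,
            mul_comm ((q ^ k : ℕ) : ℤ) a, mul_comm (m : ℤ) b, hab, zpow_one]
        rw [he1]
        exact mul_mem (zpow_mem heqN a) (zpow_mem hemN b)
  intro e he
  exact key _ e he rfl

/-- SCALAR -/
theorem scalar [Finite G] (hG : IsMinSimpleOddOrder G) (hTau : StTauCases G) (hAlpha : StAlpha G)
    (hOrbit : StOrbit G) (hFix : StFixScalar G) (hLine : StLineCount G) (hPow : StPowOrder G)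
    (hBasic : StBasic G) : StScalar G := by
  intro M E S A p _ hA hH hI hT2 hsing e he X hXA hXcard
  obtain ⟨X₀, hX₀A, hX₀card, hX₀sing⟩ := hsing
  obtain ⟨-, -, b3, -, -, -⟩ := hBasic M E S A p hA
  -- centralizing `A` implies normalizing `X`
  have hcn : ∀ g : G, g ∈ centralizer (A : Set G) → g ∈ normalizer (X : Set G) := by
    intro g hg
    apply mem_normalizer_of_conj_mem
    intro x hx
    have h1 : x * g = g * x := hg x (hXA hx)
    have h2 : g * x * g⁻¹ = x := by rw [← h1, mul_inv_cancel_right]
    rw [h2]; exact hx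
  have hpow_norm : ∀ (g : G) (l : ℕ), (∀ a ∈ A, g * a * g⁻¹ = a ^ l) →
      g ∈ normalizer (X : Set G) := by
    intro g l hl
    apply mem_normalizer_of_conj_mem
    intro x hx
    rw [hl x (hXA hx)]; exact pow_mem hx l
  revert e
  apply mem_of_prime_powers (normalizer (X : Set G)) E
  intro e he q hq k hord
  by_cases hqp : q = p
  · -- `e` lies in `S`
    rw [hqp] at hord
    obtain ⟨P, hP⟩ := hA.syl
    have hz : IsPGroup p (zpowers e) :=
      IsPGroup.of_card (n := k) (by rw [Nat.card_zpowers, hord])
    have hsup : IsPGroup p (zpowers e ⊔ (P : Subgroup G) : Subgroup G) := by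
      apply IsPGroup.to_sup_of_normal_right' hz P.isPGroup'
      rw [hP, zpowers_le]; exact hA.norm he
    have hmax := P.is_maximal' hsup le_sup_right
    have heS : e ∈ S := by
      rw [← hP, ← hmax]; exact (le_sup_left : zpowers e ≤ _) (mem_zpowers e)
    apply hcn
    rw [mem_centralizer_iff]
    intro a ha
    exact hA.comm a (hA.AS ha) e heS
  · by_cases hq2 : q ∈ tau2 M
    · exact hcn e (hT2 e he q hq hqp hq2 ⟨k, hord⟩)
    · rcases Nat.eq_zero_or_pos k with hk0 | hkpos
      · rw [hk0, pow_zero, orderOf_eq_one_iff] at hord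
        rw [hord]; exact one_mem _
      obtain ⟨j, rfl⟩ : ∃ j, k = j + 1 := ⟨k - 1, by omega⟩
      have hqE : q ∣ Nat.card E :=
        dvd_trans (by rw [hord]; exact dvd_pow_self q (by omega))
          (Subgroup.orderOf_dvd_natCard E he)
      have hqτ := hTau M hA.coatom E hA.compl q hq hqE
      have hq13 : q ∈ tau1 M ∪ tau3 M := by
        rcases hqτ with (h1 | h2) | h3
        · exact Or.inl h1
        · exact absurd h2 hq2
        · exact Or.inr h3
      have hPR : PRankLE q 1 M := by
        rcases hq13 with h1 | h3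
        · exact h1.2.2.2.2
        · exact h3.2.2.2
      by_contra hcon
      have heNS : e ∈ normalizer (S : Set G) := hA.norm he
      have hno : ∀ Y : Subgroup G, Y ≤ A → Nat.card Y = p → e ∉ normalizer (Y : Set G) := by
        intro Y hYA hYc hY
        obtain ⟨l, hl⟩ := hFix M E S A p hA hI e heNS Y hYA hYc hY
        exact hcon (hpow_norm e l hl)
      have hd1 : q ∣ p + 1 :=
        hLine p A hA.elem hA.card e q hq (b3 he) ⟨j + 1, hord⟩ hno
      have heC : e ∉ centralizer (A : Set G) := fun h => hcon (hcn e h)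
      have hord₀ : orderOf (e ^ (q ^ j)) = q := by
        rw [orderOf_pow_of_dvd (pow_ne_zero j hq.ne_zero)
          (by rw [hord]; exact pow_dvd_pow q (by omega)), hord, pow_succ,
          Nat.mul_div_cancel_left _ (pow_pos hq.pos j)]
      have he₀E : e ^ (q ^ j) ∈ E := pow_mem he _
      have he₀ne : e ^ (q ^ j) ≠ 1 := by
        intro h
        rw [h, orderOf_one] at hord₀
        exact hq.one_lt.ne hord₀
      by_cases he₀C : e ^ (q ^ j) ∈ centralizer (A : Set G)
      · exact heC (hAlpha M E S A p hA hI e q j hq hqp he hord he₀C hPR)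
      · have hreg : sigmaCore M ⊓ centralizer ({e ^ (q ^ j)} : Set G) = ⊥ := by
          apply hH _ he₀E he₀ne
          intro r hr hrd
          rw [hord₀] at hrd
          have hrq : r = q := (Nat.prime_dvd_prime_iff_eq hr hq).1 hrd
          rw [hrq]; exact hq13
        have he₀N : e ^ (q ^ j) ∈ normalizer (X₀ : Set G) := by
          by_contra hn
          exact hOrbit M E S A p hA _ q hq he₀E hord₀ X₀ hX₀A hX₀card hn hX₀sing hreg
        obtain ⟨l, hl⟩ := hFix M E S A p hA hI _ (hA.norm he₀E) X₀ hX₀A hX₀card he₀N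
        have hd2 : q ∣ p - 1 :=
          hPow p A hA.elem hA.card _ q l hq
            (by have := pow_orderOf_eq_one (e ^ (q ^ j)); rwa [hord₀] at this) hl he₀C
        have hp2 : 2 ≤ p := (Fact.out : p.Prime).two_le
        have hd3 : q ∣ 2 := by
          have h3 : p + 1 = (p - 1) + 2 := by omega
          rw [h3] at hd1
          exact (Nat.dvd_add_right hd2).1 hd1
        have hq2' : q = 2 := (Nat.prime_dvd_prime_iff_eq hq Nat.prime_two).1 hd3
        have hodd : Odd (Nat.card G) := hG.1
        have h2G : q ∣ Nat.card G :=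
          dvd_trans (by rw [hord]; exact dvd_pow_self q (by omega)) (orderOf_dvd_natCard e)
        rw [hq2'] at h2G
        exact (Nat.not_even_iff_odd.2 hodd) (even_iff_two_dvd.2 h2G)

example [Finite G] (hG : IsMinSimpleOddOrder G) (hTau : StTauCases G) (hAlpha : StAlpha G)
    (hOrbit : StOrbit G) (hFix : StFixScalar G) (hLine : StLineCount G) (hPow : StPowOrder G)
    (hBasic : StBasic G) : Cfsg.Agent.H38.BG161.StScalar G :=
  scalar hG hTau hAlpha hOrbit hFix hLine hPow hBasic

end Cfsg.Agent.H70.BG161
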