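import Cfsg.Agent.H23.StbDefs

/-!
# S2125-FIELD: a field automorphism acts entrywise on the Chevalley group
-/

set_option autoImplicit false

namespace Cfsg.Agent.H70.Stb

open Cfsg.Lie Cfsg.Agent.H23 Cfsg.Agent.H23.Stb

universe u

/-- S2125-FIELD -/
theorem field : StField.{u} := by
  intro D F _ z hS σ
  have hle : ∀ τ : F ≃+* F, ∀ g : GL D.Idx F, g ∈ D.group F →
      glMap D (τ : F →+* F) g ∈ D.group F := by
    intro τ g hg
    exact glMap_group_le hS hS (τ : F →+* F) (Subgroup.mem_map_of_mem _ hg)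
  have hinv : ∀ (τ τ' : F ≃+* F), (∀ x, τ' (τ x) = x) → ∀ g : GL D.Idx F,
      glMap D (τ' : F →+* F) (glMap D (τ : F →+* F) g) = g := by
    intro τ τ' h g
    apply Units.ext
    ext i k
    rw [glMap_apply, glMap_apply]
    exact h _
  refine ⟨{ toFun := fun g => ⟨glMap D (σ : F →+* F) g.1, hle σ g.1 g.2⟩
            invFun := fun g => ⟨glMap D (σ.symm : F →+* F) g.1, hle σ.symm g.1 g.2⟩
            left_inv := fun g => Subtype.ext (hinv σ σ.symm σ.symm_apply_apply g.1)
            right_inv := fun g => Subtype.ext (hinv σ.symm σ σ.apply_symm_apply g.1)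
            map_mul' := fun a b => Subtype.ext (map_mul (glMap D (σ : F →+* F)) a.1 b.1) },
    fun g => rfl⟩

example : Cfsg.Agent.H23.Stb.StField.{u} := field

end Cfsg.Agent.H70.Stb
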