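import Cfsg.Agent.H56.CommLifts

/-!
# S2400-CLO (helper70, piece for helper46): `exists_comm_lifts` of helper56 (H56/CommLifts.lean),
with exact commutation on `Orth` pairs supplied by a hypothesis.
-/

set_option autoImplicit false

namespace Cfsg.Agent.H70.CommLiftsOrth

open Cfsg.Agent.H56.CommLifts

theorem exists_comm_lifts_orth {ι E K : Type*} [Group E] [Field K] (A : Subgroup E) (hA : A ≤ Subgroup.center E)
    (x : ι → K → E) (Adj : ι → ι → ι → K → Prop) (NonAdj Orth : ι → ι → Prop) (dec : ι → ι × ι × K)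
    (hε : ∀ β γ q ε, Adj β γ q ε → ε * ε = 1)
    (h1 : ∀ q t u, x q (t + u) * (x q t * x q u)⁻¹ ∈ A)
    (h2 : ∀ β γ q ε, Adj β γ q ε → ∀ t u, x β t * x γ u * (x β t)⁻¹ * (x γ u)⁻¹ * (x q (ε * t * u))⁻¹ ∈ A)
    (h3 : ∀ a b, NonAdj a b → ∀ t u, x a t * x b u * (x a t)⁻¹ * (x b u)⁻¹ ∈ A)
    (c1 : ∀ a b, NonAdj a b → Orth a b ∨ ∃ β γ ε, Adj β γ b ε ∧ NonAdj a β ∧ NonAdj a γ)
    (horth : (∀ a b, NonAdj a b → ¬ Orth a b → ∀ t u, x a t * x b u = x b u * x a t) →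
      ∀ a b, NonAdj a b → Orth a b → ∀ t u, x a t * x b u = x b u * x a t)
    (c2 : ∀ q, Adj (dec q).1 (dec q).2.1 q (dec q).2.2)
    (c3 : ∀ β γ q ε, Adj β γ q ε → NonAdj q β ∧ NonAdj q γ)
    (c4 : ∀ β' γ' q ε', Adj β' γ' q ε' →
      (β' = (dec q).1 ∧ γ' = (dec q).2.1 ∧ ε' = (dec q).2.2) ∨
      (β' = (dec q).2.1 ∧ γ' = (dec q).1 ∧ ε' = -(dec q).2.2) ∨
      (∃ δ ε₁ ε₂, Adj β' δ (dec q).1 ε₁ ∧ Adj δ (dec q).2.1 γ' ε₂ ∧ NonAdj (dec q).2.1 β' ∧
        NonAdj (dec q).1 γ' ∧ ε₁ * (dec q).2.2 = ε₂ * ε') ∨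
      (∃ δ ε₁ ε₂, Adj γ' δ (dec q).1 ε₁ ∧ Adj δ (dec q).2.1 β' ε₂ ∧ NonAdj (dec q).2.1 γ' ∧
        NonAdj (dec q).1 β' ∧ ε₁ * (dec q).2.2 = -(ε₂ * ε')))
    (c5 : ∀ q, ∃ β' γ' ε' δ ε₁ ε₂, Adj β' γ' q ε' ∧ Adj β' δ (dec q).1 ε₁ ∧ Adj δ (dec q).2.1 γ' ε₂ ∧
      NonAdj (dec q).2.1 β' ∧ NonAdj (dec q).1 γ' ∧ ε₁ * (dec q).2.2 = ε₂ * ε') :
    ∃ y : ι → K → E, (∀ q t, y q t * (x q t)⁻¹ ∈ A) ∧ (∀ q t u, y q (t + u) = y q t * y q u) ∧
      (∀ β γ q ε, Adj β γ q ε → ∀ t u, y β t * y γ u * (y β t)⁻¹ * (y γ u)⁻¹ = y q (ε * t * u)) ∧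
      (∀ a b, NonAdj a b → ∀ t u, y a t * y b u = y b u * y a t) := by
  -- the hypotheses, restated with `cm` and `ceq`
  have h1' : ∀ q t u, ceq (x q (t + u)) (x q t * x q u) := fun q t u => hA (h1 q t u)
  have h2' : ∀ β γ q ε, Adj β γ q ε → ∀ t u, ceq (cm (x β t) (x γ u)) (x q (ε * t * u)) :=
    fun β γ q ε h t u => hA (h2 β γ q ε h t u)
  have h3' : ∀ a b, NonAdj a b → ∀ t u, ceq (x a t * x b u * (x a t)⁻¹) (x b u) :=
    fun a b h t u => hA (h3 a b h t u)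
  -- Step 1: non-adjacent root elements commute exactly
  have st1n : ∀ a b, NonAdj a b → ¬ Orth a b → ∀ t u, x a t * x b u = x b u * x a t := by
    intro a b hab hno t u
    obtain ⟨β, γ, ε, hAdj, hn1, hn2⟩ := (c1 a b hab).resolve_left hno
    have hee := hε β γ b ε hAdj
    have hP : ceq (cm (x β (ε * u)) (x γ 1)) (x b u) := by
      have h := h2' β γ b ε hAdj (ε * u) 1
      have e : ε * (ε * u) * 1 = u := by linear_combination u * hee
      rwa [e] at h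
    have hfix : x a t * cm (x β (ε * u)) (x γ 1) = cm (x β (ε * u)) (x γ 1) * x a t :=
      conj_cm_fix (h3' a β hn1 t (ε * u)) (h3' a γ hn2 t 1)
    exact commute_congr (ceq_refl _) (ceq_symm hP) hfix
  have st1 : ∀ a b, NonAdj a b → ∀ t u, x a t * x b u = x b u * x a t := by
    intro a b hab t u
    by_cases ho : Orth a b
    · exact horth st1n a b hab ho t u
    · exact st1n a b hab ho t u
  -- Step 2: the lifts
  obtain ⟨y, hydef⟩ : ∃ y : ι → K → E,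
      ∀ q t, y q t = cm (x (dec q).1 ((dec q).2.2 * t)) (x (dec q).2.1 1) := ⟨_, fun _ _ => rfl⟩
  have hyA : ∀ q t, y q t * (x q t)⁻¹ ∈ A := by
    intro q t
    have h := h2 _ _ q _ (c2 q) ((dec q).2.2 * t) 1
    have e : (dec q).2.2 * ((dec q).2.2 * t) * 1 = t := by
      linear_combination t * hε _ _ _ _ (c2 q)
    rw [e] at h
    rw [hydef]
    exact h
  have hy : ∀ q t, ceq (y q t) (x q t) := fun q t => hA (hyA q t)
  -- Step 3: additivity
  have hadd' : ∀ q t u, y q (t + u) = y q u * y q t := by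
    intro q t u
    obtain ⟨hqβ, -⟩ := c3 _ _ q _ (c2 q)
    have e1 : ceq (x (dec q).1 ((dec q).2.2 * (t + u)))
        (x (dec q).1 ((dec q).2.2 * t) * x (dec q).1 ((dec q).2.2 * u)) := by
      rw [mul_add]; exact h1' _ _ _
    rw [hydef, cm_congr e1 (ceq_refl _), cm_mul_left, ← hydef, ← hydef]
    have hc : x (dec q).1 ((dec q).2.2 * t) * y q u = y q u * x (dec q).1 ((dec q).2.2 * t) :=
      commute_congr (ceq_refl _) (hy q u) (st1 q _ hqβ u _).symm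
    rw [hc, mul_inv_cancel_right]
  have hadd : ∀ q t u, y q (t + u) = y q t * y q u := by
    intro q t u; rw [add_comm, hadd']
  have hzero : ∀ q, y q 0 = 1 := by
    intro q
    have h := hadd q 0 0
    rw [add_zero] at h
    have h' : y q 0 * y q 0 = y q 0 * 1 := by rw [mul_one]; exact h.symm
    exact mul_left_cancel h'
  have hneg : ∀ q t, y q (-t) = (y q t)⁻¹ := by
    intro q t
    have h := hadd q (-t) t
    rw [neg_add_cancel, hzero] at h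
    exact eq_inv_of_mul_eq_one_left h.symm
  -- Step 4: the key relation
  have star : ∀ (P D B G R q : ι) (ε₁ ε₂ ε : K), Adj P D B ε₁ → Adj D G R ε₂ → NonAdj G P →
      NonAdj B R → NonAdj q R → Adj B G q ε → ∀ s t u : K,
      cm (x P s) (x R (ε₂ * t * u)) = cm (x B (ε₁ * s * t)) (x G u) := by
    intro P D B G R q ε₁ ε₂ ε hPD hDG hGP hBR hqR hBG s t u
    have hac : x P s * x G u = x G u * x P s := (st1 G P hGP u s).symm
    have hS : ceq (cm (x P s) (x D t)) (x B (ε₁ * s * t)) := h2' P D B ε₁ hPD s t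
    have hT : ceq (cm (x D t) (x G u)) (x R (ε₂ * t * u)) := h2' D G R ε₂ hDG t u
    have hone : cm (cm (x P s) (x D t)) (cm (x D t) (x G u)) = 1 := by
      rw [cm_congr hS hT]; exact cm_eq_one_iff.2 (st1 B R hBR _ _)
    have hSc : cm (cm (x P s) (x D t)) (x G u) = cm (x B (ε₁ * s * t)) (x G u) :=
      cm_congr hS (ceq_refl _)
    have hSc' : ceq (cm (cm (x P s) (x D t)) (x G u)) (x q (ε * (ε₁ * s * t) * u)) := by
      rw [hSc]; exact h2' B G q ε hBG _ _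
    have hcomm : cm (x D t) (x G u) * cm (cm (x P s) (x D t)) (x G u)
        = cm (cm (x P s) (x D t)) (x G u) * cm (x D t) (x G u) :=
      commute_congr hT hSc' (st1 q R hqR _ _).symm
    have hk := cm_key (b := x D t) hac
    rw [hone, one_mul, hcomm, mul_inv_cancel_right, hSc] at hk
    rw [← hk]
    exact (cm_congr (ceq_refl _) hT).symm
  -- (4a) the chosen pair
  have h4a : ∀ q t u, cm (x (dec q).1 t) (x (dec q).2.1 u) = y q ((dec q).2.2 * t * u) := by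
    intro q t u
    obtain ⟨β', γ', ε', δ, ε₁, ε₂, hA', hA1, hA2, hN1, hN2, -⟩ := c5 q
    have hs := star β' δ (dec q).1 (dec q).2.1 γ' q ε₁ ε₂ (dec q).2.2 hA1 hA2 hN1 hN2
      (c3 β' γ' q ε' hA').2 (c2 q)
    have e1 := hε _ _ _ _ hA1
    have e2 := hε _ _ _ _ hA2
    have e0 := hε _ _ _ _ (c2 q)
    have i1 := hs (ε₁ * ε₂ * t) ε₂ u
    have i2 := hs (ε₁ * ε₂ * t) (ε₂ * u) 1
    have a1 : ε₂ * ε₂ * u = u := by rw [e2, one_mul]
    have a2 : ε₂ * (ε₂ * u) * 1 = u := by rw [mul_one, ← mul_assoc, e2, one_mul]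
    have a3 : ε₁ * (ε₁ * ε₂ * t) * ε₂ = t := by
      linear_combination (ε₂ * ε₂ * t) * e1 + t * e2
    have a4 : ε₁ * (ε₁ * ε₂ * t) * (ε₂ * u) = t * u := by
      linear_combination (ε₂ * ε₂ * t * u) * e1 + (t * u) * e2
    have a5 : (dec q).2.2 * ((dec q).2.2 * t * u) = t * u := by
      linear_combination (t * u) * e0
    rw [a1, a3] at i1
    rw [a2, a4] at i2
    rw [hydef, a5, ← i1, i2]
  have hcy : ∀ a b t u, cm (y a t) (y b u) = cm (x a t) (x b u) :=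
    fun a b t u => cm_congr (hy a t) (hy b u)
  refine ⟨y, hyA, hadd, ?_, ?_⟩
  · intro β' γ' q ε' hAdj t u
    change cm (y β' t) (y γ' u) = _
    rw [hcy]
    rcases c4 β' γ' q ε' hAdj with ⟨rfl, rfl, rfl⟩ | ⟨rfl, rfl, rfl⟩ |
      ⟨δ, ε₁, ε₂, hA1, hA2, hN1, hN2, heq⟩ | ⟨δ, ε₁, ε₂, hA1, hA2, hN1, hN2, heq⟩
    · exact h4a q t u
    · rw [cm_inv_swap, h4a, ← hneg]
      congr 1; ring
    · have e2 := hε _ _ _ _ hA2
      have hs := star β' δ (dec q).1 (dec q).2.1 γ' q ε₁ ε₂ (dec q).2.2 hA1 hA2 hN1 hN2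
        (c3 β' γ' q ε' hAdj).2 (c2 q) t ε₂ u
      rw [e2, one_mul, h4a] at hs
      rw [hs]
      congr 1
      linear_combination (t * u * ε₂) * heq + (t * u * ε') * e2
    · have e2 := hε _ _ _ _ hA2
      have hs := star γ' δ (dec q).1 (dec q).2.1 β' q ε₁ ε₂ (dec q).2.2 hA1 hA2 hN1 hN2
        (c3 β' γ' q ε' hAdj).1 (c2 q) u ε₂ t
      rw [e2, one_mul, h4a] at hs
      rw [cm_inv_swap, hs, ← hneg]
      congr 1
      linear_combination (-ε₂ * t * u) * heq + (ε' * t * u) * e2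
  · intro a b hab t u
    exact commute_congr (hy a t) (hy b u) (st1 a b hab t u)

end Cfsg.Agent.H70.CommLiftsOrth
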