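import Cfsg.Agent.H23.StbDecDefs2

/-!
# SD-EDGE (piece for helper23's S2156 project, helper70 parallel take): the relation between the maps on
two fundamental root subgroups
-/

set_option autoImplicit false

namespace Cfsg.Agent.H70.StbD

open Cfsg.Lie Cfsg.Agent.H23 Cfsg.Agent.H23.Stb Cfsg.Agent.H23.StbD

universe u

theorem edge : StEdge.{u} := by
  intro D F _ z η hP θ i j i' j' hi hj hi' hj' φi φj hθi hθj a ha u
  have hS := hP.sem
  have hT := hP.tab
  have hT2 := hP.tab2
  have hil := hT.simple_lt i hi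
  have hjl := hT.simple_lt j hj
  have hil' := hT.simple_lt i' hi'
  have hjl' := hT.simple_lt j' hj'
  have hinj : ∀ a b : F, xG hS (D.simple i') a = xG hS (D.simple i') b → a = b := by
    intro a b hab
    have hab' : xU hS (D.simple i') a = xU hS (D.simple i') b := congrArg Subtype.val hab
    have h2 : xU hS (D.simple i') (a + -b) = 1 := by
      rw [← xU_mul, ← xU_inv, hab', mul_inv_cancel]
    have h3 := xU_eq_one_imp hS hT hT2 _ hil' _ h2
    linear_combination h3
  have hconj : ∀ r s : ℕ, r < D.nroots → s < D.nroots → ∀ a : F, a ≠ 0 → ∀ u : F,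
      hG hS r a * xG hS s u * (hG hS r a)⁻¹ = xG hS s (a ^ z r s * u) := by
    intro r s hr hs a ha u
    apply Subtype.ext
    show hU hS r a * xU hS s u * (hU hS r a)⁻¹ = xU hS s (a ^ z r s * u)
    rw [hU_conj hS _ hr a ha _ hs u]
  have hφja : φj a ≠ 0 := by
    intro h0
    exact ha (φj.injective (h0.trans (map_zero φj).symm))
  have e2 := congrArg θ (hconj _ _ hjl hil a ha u)
  rw [map_mul, map_mul, map_inv, hθi, hθi, hθj a ha, hconj _ _ hjl' hil' _ hφja] at e2
  exact (hinj _ _ e2).symm

example : Cfsg.Agent.H23.StbD.StEdge.{u} := edge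

end Cfsg.Agent.H70.StbD
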