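import Cfsg.Agent.H23.StbHatDefs

/-!
# S2124-HATAUT: conjugation by an element of `Ĥ` is an automorphism of the Chevalley group
-/

set_option autoImplicit false

namespace Cfsg.Agent.H70.Stb

open Cfsg.Lie Cfsg.Agent.H23 Cfsg.Agent.H23.Stb

universe u

/-- an element of `Ĥ` conjugates the Chevalley group into itself -/
theorem torus_conj_group_mem {D : ChevalleyDatum} {F : Type u} [Field F] {z : ℕ → ℕ → ℤ}
    (hS : Sem D F z) (k : GL D.Idx F) (hk : k ∈ torusGroup D F) (y : GL D.Idx F)
    (hy : y ∈ D.group F) : k * y * k⁻¹ ∈ D.group F := by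
  obtain ⟨χ, hχ⟩ := hk
  unfold ChevalleyDatum.group at hy
  apply conj_mem_of_closure _ (D.group F) k _ y hy
  rintro x ⟨r, t, hx⟩
  have hx' : x = xU hS r.val t := by
    apply Units.ext
    rw [hx, xU_val, ChevalleyDatum.x, dif_pos r.isLt]
  rw [hx', isTorus_conj hS χ k hχ r.val r.isLt t]
  exact xU_mem_group hS _ _

/-- S2124-HATAUT -/
theorem hatAut : StHatAut.{u} := by
  intro D F _ z hS k hk
  have hk' : k⁻¹ ∈ torusGroup D F := (torusGroup D F).inv_mem hk
  have h1 : ∀ y : GL D.Idx F, y ∈ D.group F → k * y * k⁻¹ ∈ D.group F :=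
    torus_conj_group_mem hS k hk
  have h2 : ∀ y : GL D.Idx F, y ∈ D.group F → k⁻¹ * y * k ∈ D.group F := by
    intro y hy
    have h0 := torus_conj_group_mem hS k⁻¹ hk' y hy
    rwa [inv_inv] at h0
  refine ⟨{ toFun := fun y => ⟨k * y.1 * k⁻¹, h1 y.1 y.2⟩
            invFun := fun y => ⟨k⁻¹ * y.1 * k, h2 y.1 y.2⟩
            left_inv := fun y => Subtype.ext (by
              show k⁻¹ * (k * y.1 * k⁻¹) * k = y.1
              group)
            right_inv := fun y => Subtype.ext (by
              show k * (k⁻¹ * y.1 * k) * k⁻¹ = y.1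
              group)
            map_mul' := fun a b => Subtype.ext (by
              show k * (a.1 * b.1) * k⁻¹ = (k * a.1 * k⁻¹) * (k * b.1 * k⁻¹)
              group) }, fun y => rfl⟩

example : Cfsg.Agent.H23.Stb.StHatAut.{u} := hatAut

end Cfsg.Agent.H70.Stb
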