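import Mathlib
import Cfsg.Agent.H48.EpDefs2

/-!
# EP-QSUM (helper70, for helper48's S5974): orthogonal sums of nondegenerate even-dimensional quadratic
spaces: the sum is nondegenerate, and of plus type iff the summands have the same type
-/

set_option autoImplicit false

namespace Cfsg.Agent.H70.Ep

open Cfsg.Agent.H45 Cfsg.Agent.H42.Spd Cfsg.Agent.H42.Ti Cfsg.Agent.H48.Ep Module

universe u v

section

variable {F : Type u} [Field F] {V : Type v} [AddCommGroup V] [Module F V]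

/-- a totally singular subspace of a nondegenerate subspace has at most half its dimension -/
theorem ts_le_half [FiniteDimensional F V] (Q : QuadraticForm F V) (W U : Submodule F V)
    (hW : QNd Q W) (hUW : U ≤ W) (hU : ∀ u ∈ U, Q u = 0) :
    2 * Module.finrank F ↥U ≤ Module.finrank F ↥W := by
  classical
  let QW : QuadraticForm F ↥W := Q.comp W.subtype
  let B : LinearMap.BilinForm F ↥W := QuadraticMap.polarBilin QW
  have hBv : ∀ x y : ↥W, B x y = QuadraticMap.polar ⇑Q (x : V) (y : V) := fun x y => rfl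
  have key : ∀ x : ↥W, (∀ y : ↥W, QuadraticMap.polar ⇑Q (x : V) (y : V) = 0) → x = 0 := by
    intro x hx
    have hmem : (x : V) ∈ W ⊓ perp (QuadraticMap.polarBilin Q) W := by
      refine Submodule.mem_inf.2 ⟨x.2, ?_⟩
      intro u hu
      show QuadraticMap.polar ⇑Q u (x : V) = 0
      rw [QuadraticMap.polar_comm]
      exact hx ⟨u, hu⟩
    rw [hW, Submodule.mem_bot] at hmem
    exact Subtype.ext hmem
  have hB : B.Nondegenerate := by
    constructor
    · intro x hx
      exact key x (fun y => by rw [← hBv]; exact hx y)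
    · intro y hy
      apply key y
      intro x
      rw [QuadraticMap.polar_comm, ← hBv]
      exact hy x
  let U' : Submodule F ↥W := U.comap W.subtype
  have hU'dim : Module.finrank F ↥U' = Module.finrank F ↥U :=
    (Submodule.comapSubtypeEquivOfLe hUW).finrank_eq
  have hle : U' ≤ B.orthogonal U' := by
    intro x hx n hn
    have hx' : (x : V) ∈ U := hx
    have hn' : (n : V) ∈ U := hn
    show B n x = 0
    rw [hBv, QuadraticMap.polar, hU _ (U.add_mem hn' hx'), hU _ hn', hU _ hx']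
    simp
  have h1 := LinearMap.BilinForm.finrank_orthogonal hB U'
  have h2 := Submodule.finrank_mono hle
  have h3 : Module.finrank F ↥U' ≤ Module.finrank F ↥W := Submodule.finrank_le U'
  omega

end

/-- EP-QSUM -/
theorem qSum (hMS : Cfsg.Agent.H77.Tm.StMinusSum.{u, v}) (hCP : Cfsg.Agent.H77.Tm.StComplPlus.{u, v}) :
    StQSum.{u, v} := by
  intro F _ _ V _ _ _ Q W₀ W₁ h0 h1 horth he0 he1
  classical
  have horth' : ∀ y ∈ W₁, ∀ x ∈ W₀, QuadraticMap.polar ⇑Q y x = 0 := by
    intro y hy x hx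
    rw [QuadraticMap.polar_comm]
    exact horth x hx y hy
  have hdisj : W₀ ⊓ W₁ = ⊥ := by
    rw [eq_bot_iff]
    intro x hx
    obtain ⟨hx0, hx1⟩ := Submodule.mem_inf.1 hx
    have : x ∈ W₀ ⊓ perp (QuadraticMap.polarBilin Q) W₀ :=
      Submodule.mem_inf.2 ⟨hx0, fun u hu => horth u hu x hx1⟩
    rw [h0] at this
    exact this
  have hdim : Module.finrank F ↥(W₀ ⊔ W₁) = Module.finrank F ↥W₀ + Module.finrank F ↥W₁ := by
    have h3 := Submodule.finrank_sup_add_finrank_inf_eq W₀ W₁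
    rw [hdisj, finrank_bot] at h3
    omega
  have hnd : QNd Q (W₀ ⊔ W₁) := by
    show (W₀ ⊔ W₁) ⊓ perp (QuadraticMap.polarBilin Q) (W₀ ⊔ W₁) = ⊥
    rw [eq_bot_iff]
    intro x hx
    obtain ⟨hxs, hxp⟩ := Submodule.mem_inf.1 hx
    obtain ⟨a, ha, b, hb, rfl⟩ := Submodule.mem_sup.1 hxs
    have ha0 : a = 0 := by
      have hmem : a ∈ W₀ ⊓ perp (QuadraticMap.polarBilin Q) W₀ := by
        refine Submodule.mem_inf.2 ⟨ha, ?_⟩
        intro u hu
        have h3 : QuadraticMap.polar ⇑Q u (a + b) = 0 := hxp u (Submodule.mem_sup_left hu)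
        rw [QuadraticMap.polar_add_right, horth u hu b hb, add_zero] at h3
        exact h3
      rw [h0, Submodule.mem_bot] at hmem
      exact hmem
    have hb0 : b = 0 := by
      have hmem : b ∈ W₁ ⊓ perp (QuadraticMap.polarBilin Q) W₁ := by
        refine Submodule.mem_inf.2 ⟨hb, ?_⟩
        intro u hu
        have h3 : QuadraticMap.polar ⇑Q u (a + b) = 0 := hxp u (Submodule.mem_sup_right hu)
        rw [QuadraticMap.polar_add_right, horth' u hu a ha, zero_add] at h3
        exact h3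
      rw [h1, Submodule.mem_bot] at hmem
      exact hmem
    rw [Submodule.mem_bot, ha0, hb0, add_zero]
  refine ⟨hnd, hdim, ?_⟩
  constructor
  · -- a plus-type sum: the summands have the same type
    rintro ⟨M, hM, hMts, hMd⟩
    constructor
    · rintro ⟨L, hL, hLts, hLd⟩
      -- `U := W₀`, `C := W₁`
      have hM' : M ≤ W₁ ⊔ W₀ := by rw [sup_comm]; exact hM
      have hMd' : 2 * Module.finrank F ↥M = Module.finrank F ↥(W₁ ⊔ W₀) := by
        rw [sup_comm]; exact hMd
      obtain ⟨N, hN, hNts, hNd⟩ := hCP F V Q W₁ W₀ L M horth' h0 hL hLts hLd hM' hMts hMd'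
      exact ⟨N, hN, hNts, hNd⟩
    · rintro ⟨L, hL, hLts, hLd⟩
      obtain ⟨N, hN, hNts, hNd⟩ := hCP F V Q W₀ W₁ L M horth h1 hL hLts hLd hM hMts hMd
      exact ⟨N, hN, hNts, hNd⟩
  · intro hiff
    by_cases hp0 : QPlus Q W₀
    · -- plus ⟂ plus
      obtain ⟨L₀, hL₀, ts₀, d₀⟩ := hp0
      obtain ⟨L₁, hL₁, ts₁, d₁⟩ := hiff.mp ⟨L₀, hL₀, ts₀, d₀⟩
      refine ⟨L₀ ⊔ L₁, sup_le_sup hL₀ hL₁, ?_, ?_⟩
      · intro x hx
        obtain ⟨a, ha, b, hb, rfl⟩ := Submodule.mem_sup.1 hx
        rw [QuadraticMap.map_add Q a b, ts₀ a ha, ts₁ b hb, horth a (hL₀ ha) b (hL₁ hb), add_zero,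
          add_zero]
      · have hd : L₀ ⊓ L₁ = ⊥ := by
          rw [eq_bot_iff, ← hdisj]
          exact inf_le_inf hL₀ hL₁
        have h3 := Submodule.finrank_sup_add_finrank_inf_eq L₀ L₁
        rw [hd, finrank_bot] at h3
        omega
    · -- minus ⟂ minus
      have hp1 : ¬ QPlus Q W₁ := fun h => hp0 (hiff.mpr h)
      obtain ⟨e₀, he₀⟩ := he0
      obtain ⟨e₁, he₁⟩ := he1
      have hno₀ : ∀ U : Submodule F V, U ≤ W₀ → Cfsg.Agent.H77.Tm.TS Q U →
          Module.finrank F ↥U < e₀ := by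
        intro U hU tsU
        have hle := ts_le_half Q W₀ U h0 hU tsU
        have hne : 2 * Module.finrank F ↥U ≠ Module.finrank F ↥W₀ :=
          fun h => hp0 ⟨U, hU, tsU, h⟩
        omega
      have hno₁ : ∀ U : Submodule F V, U ≤ W₁ → Cfsg.Agent.H77.Tm.TS Q U →
          Module.finrank F ↥U < e₁ := by
        intro U hU tsU
        have hle := ts_le_half Q W₁ U h1 hU tsU
        have hne : 2 * Module.finrank F ↥U ≠ Module.finrank F ↥W₁ :=
          fun h => hp1 ⟨U, hU, tsU, h⟩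
        omega
      obtain ⟨M, hM, hMts, hMd⟩ := hMS F V Q W₀ W₁ e₀ e₁ h0 h1 horth (by omega) (by omega)
        hno₀ hno₁
      exact ⟨M, hM, hMts, by omega⟩

example (hMS : Cfsg.Agent.H77.Tm.StMinusSum.{u, v}) (hCP : Cfsg.Agent.H77.Tm.StComplPlus.{u, v}) :
    Cfsg.Agent.H48.Ep.StQSum.{u, v} := qSum hMS hCP

end Cfsg.Agent.H70.Ep
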