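import Mathlib
import Cfsg.Agent.H48.EpDefs2

/-!
# EP-TYPE0 (helper70, for helper48's S5974): the type of an invariant nondegenerate subspace without
fixed vectors
-/

set_option autoImplicit false

namespace Cfsg.Agent.H70.Ep

open Cfsg.Agent.H45 Cfsg.Agent.H42.Spd Cfsg.Agent.H42.Ti Cfsg.Agent.H48.Ep Module

universe u v

/-- EP-TYPE0 -/
theorem type0 (hQS : Cfsg.Agent.H77.Tm.StQStruct.{u, v}) (hTU : Cfsg.Agent.H77.Tm.StTypeU.{u, v}) :
    StType0.{u, v} := by
  intro F _ _ V _ _ _ Q T r hr hr2 hrF _ hiso hpow W j hWinv hWnd hkk hdim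
  classical
  have hW : ∀ x ∈ W, T x ∈ W := fun x hx => hWinv hx
  let Q' : QuadraticForm F ↥W := Q.comp W.subtype
  let T' : Module.End F ↥W := T.restrict hW
  have hT'v : ∀ x : ↥W, ((T' x : ↥W) : V) = T (x : V) := fun x => rfl
  have hpowv : ∀ (n : ℕ) (x : ↥W), (((T' ^ n) x : ↥W) : V) = (T ^ n) (x : V) := by
    intro n
    induction n with
    | zero =>
      intro x
      simp
    | succ n ih =>
      intro x
      rw [pow_succ, pow_succ, Module.End.mul_apply, Module.End.mul_apply, ih, hT'v]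
  have hctx : Cfsg.Agent.H77.Tm.QCtx r Q' T' := by
    refine ⟨hr, hr2, hrF, ?_, ?_, ?_⟩
    · intro x hx
      have hmem : (x : V) ∈ W ⊓ perp (QuadraticMap.polarBilin Q) W := by
        refine Submodule.mem_inf.2 ⟨x.2, ?_⟩
        intro u hu
        show QuadraticMap.polar ⇑Q u (x : V) = 0
        rw [QuadraticMap.polar_comm]
        exact hx ⟨u, hu⟩
      rw [hWnd, Submodule.mem_bot] at hmem
      exact Subtype.ext hmem
    · intro x
      show Q ((T' x : ↥W) : V) = Q (x : V)
      rw [hT'v, hiso]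
    · apply LinearMap.ext
      intro x
      apply Subtype.ext
      rw [hpowv, hpow]
      rfl
  have hker : LinearMap.ker (T' - 1) = ⊥ := by
    rw [LinearMap.ker_eq_bot']
    intro x hx
    have h1 : T (x : V) = (x : V) := by
      have h0 : (((T' - 1) x : ↥W) : V) = 0 := by rw [hx]; rfl
      have h0' : T (x : V) - (x : V) = 0 := h0
      exact sub_eq_zero.mp h0'
    have hmem : (x : V) ∈ W ⊓ LinearMap.ker (T - 1) := by
      refine Submodule.mem_inf.2 ⟨x.2, ?_⟩
      rw [LinearMap.mem_ker, LinearMap.sub_apply, h1]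
      simp
    have hbot : W ⊓ LinearMap.ker (T - 1) = ⊥ := Submodule.finrank_eq_zero.mp hkk
    rw [hbot, Submodule.mem_bot] at hmem
    exact Subtype.ext hmem
  have hrange : LinearMap.range (T' - 1) = ⊤ := LinearMap.ker_eq_bot_iff_range_eq_top.mp hker
  have hrd : Module.finrank F ↥(LinearMap.range (T' - 1)) = Module.finrank F ↥W := by
    rw [hrange, finrank_top]
  have hcc : cc F r = if Even (ii F r) then ii F r else 2 * ii F r := rfl
  have hmapts : ∀ L : Submodule F ↥W, Cfsg.Agent.H77.Tm.TS Q' L →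
      L.map W.subtype ≤ W ∧ (∀ u ∈ L.map W.subtype, Q u = 0) ∧
        Module.finrank F ↥(L.map W.subtype) = Module.finrank F ↥L := by
    intro L tsL
    refine ⟨?_, ?_, Submodule.finrank_map_subtype_eq _ _⟩
    · rintro x ⟨y, -, rfl⟩
      exact y.2
    · rintro x ⟨y, hy, rfl⟩
      exact tsL y hy
  by_cases hev : Even (ii F r)
  · rw [hcc, if_pos hev] at hdim
    obtain ⟨hE, hO⟩ := hTU F ↥W r Q' T' hctx hev j (by rw [hrd, hdim])
    constructor
    · rintro ⟨U, hU, tsU, dU⟩
      right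
      by_contra hj
      have hodd : Odd j := Nat.not_even_iff_odd.mp hj
      have h3 := hO hodd (U.comap W.subtype) (by rw [hrange]; exact le_top)
        (fun x hx => tsU _ hx)
      rw [hrd, (Submodule.comapSubtypeEquivOfLe hU).finrank_eq] at h3
      omega
    · rintro (ho | hj)
      · exact absurd hev (Nat.not_even_iff_odd.mpr ho)
      · obtain ⟨L, -, tsL, dL⟩ := hE hj
        obtain ⟨m1, m2, m3⟩ := hmapts L tsL
        exact ⟨L.map W.subtype, m1, m2, by rw [m3, dL, hrd]⟩
  · have hodd : Odd (ii F r) := Nat.not_even_iff_odd.mp hev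
    rw [hcc, if_neg hev] at hdim
    obtain ⟨L, -, -, tsL, dL⟩ := (hQS F ↥W r Q' T' hctx).2.2.2 j
      (fun _ => by rw [hrd, hdim])
      (fun h => absurd h hev)
    obtain ⟨m1, m2, m3⟩ := hmapts L tsL
    exact ⟨fun _ => Or.inl hodd, fun _ => ⟨L.map W.subtype, m1, m2, by rw [m3, dL, hdim]; ring⟩⟩

example (hQS : Cfsg.Agent.H77.Tm.StQStruct.{u, v}) (hTU : Cfsg.Agent.H77.Tm.StTypeU.{u, v}) :
    Cfsg.Agent.H48.Ep.StType0.{u, v} := type0 hQS hTU

end Cfsg.Agent.H70.Ep
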