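import Mathlib
import Cfsg.Agent.H51.RsDefs

/-!
# RS-TWOGLUE (helper70, for helper51's S2113): the Sylow 2-subgroup of a group of the order of `²G₂(q)`
has commutative preimage in every central extension
-/

set_option autoImplicit false

namespace Cfsg.Agent.H70.Rs

open Cfsg.Agent.H96.Ro Cfsg.Agent.H51.Rs

universe v w

/-- `q = 3 ^ (2 m + 1)` is `3` or `11` modulo `16` -/
theorem q_mod16 (m : ℕ) : 3 ^ (2 * m + 1) % 16 = 3 ∨ 3 ^ (2 * m + 1) % 16 = 11 := by
  induction m with
  | zero => left; norm_num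
  | succ k ih =>
    have e : 3 ^ (2 * (k + 1) + 1) = 9 * 3 ^ (2 * k + 1) := by
      rw [show 2 * (k + 1) + 1 = (2 * k + 1) + 2 by ring, pow_add]
      ring
    rw [e]
    rcases ih with h | h
    · right; omega
    · left; omega

/-- the order of `²G₂(q)` is `8` modulo `16` -/
theorem ree_order_mod16 (m : ℕ) :
    ((3 ^ (2 * m + 1)) ^ 3 * (3 ^ (2 * m + 1) - 1) * ((3 ^ (2 * m + 1)) ^ 3 + 1)) % 16 = 8 := by
  obtain ⟨q, hq⟩ : ∃ q : ℕ, q = 3 ^ (2 * m + 1) := ⟨_, rfl⟩
  rw [← hq]
  have hq16 : q % 16 = 3 ∨ q % 16 = 11 := by rw [hq]; exact q_mod16 m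
  rcases hq16 with h | h
  · have h3 : q ^ 3 % 16 = 11 := by rw [Nat.pow_mod, h]
    have h1 : (q - 1) % 16 = 2 := by omega
    have h4 : (q ^ 3 + 1) % 16 = 12 := by omega
    rw [Nat.mul_mod, Nat.mul_mod (q ^ 3), h3, h1, h4]
  · have h3 : q ^ 3 % 16 = 3 := by rw [Nat.pow_mod, h]
    have h1 : (q - 1) % 16 = 10 := by omega
    have h4 : (q ^ 3 + 1) % 16 = 4 := by omega
    rw [Nat.mul_mod, Nat.mul_mod (q ^ 3), h3, h1, h4]

/-- RS-TWOGLUE -/
theorem twoGlue (h : StTwo.{v, w}) : StTwoGlue.{v, w} := by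
  intro G _ _ m _ hcard S hCS hN Γ _ σ hsurj hker
  classical
  have hmod := ree_order_mod16 m
  rw [← hcard] at hmod
  -- `|S| = 8`
  have hS8 : Nat.card (S : Subgroup G) = 8 := by
    obtain ⟨k, hk⟩ := IsPGroup.iff_card.mp S.isPGroup'
    have h8 : 2 ^ 3 ∣ Nat.card (S : Subgroup G) :=
      S.pow_dvd_card_of_pow_dvd_card (by
        show 2 ^ 3 ∣ Nat.card G
        omega)
    have hdvd : Nat.card (S : Subgroup G) ∣ Nat.card G := Subgroup.card_subgroup_dvd_card _
    rw [hk] at h8 hdvd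
    have hk3 : 3 ≤ k := by
      by_contra hlt
      push Not at hlt
      have : 2 ^ k ≤ 2 ^ 2 := Nat.pow_le_pow_right (by norm_num) (by omega)
      have := Nat.le_of_dvd (by positivity) h8
      omega
    have hk3' : k ≤ 3 := by
      by_contra hlt
      push Not at hlt
      have h16 : 2 ^ 4 ∣ 2 ^ k := Nat.pow_dvd_pow 2 (by omega)
      have := dvd_trans h16 hdvd
      omega
    have : k = 3 := by omega
    rw [hk, this]
    norm_num
  -- `S` is abelian
  have hab : ∀ a ∈ (S : Subgroup G), ∀ b ∈ (S : Subgroup G), a * b = b * a := by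
    intro a ha b hb
    have ha' : a ∈ Subgroup.centralizer ((S : Subgroup G) : Set G) := by rw [hCS]; exact ha
    exact (Subgroup.mem_centralizer_iff.mp ha' b hb).symm
  -- an element of order `7` in the normaliser
  have h7 : 7 ∣ Nat.card (Subgroup.normalizer ((S : Subgroup G) : Set G)) := by
    rw [hN]
    norm_num
  have : Fact (Nat.Prime 7) := ⟨by norm_num⟩
  obtain ⟨y', hy'⟩ := exists_prime_orderOf_dvd_card' 7 h7
  have hy7 : ((y' : G)) ^ 7 = 1 := by
    have h1 : y' ^ 7 = 1 := by rw [← hy']; exact pow_orderOf_eq_one y'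
    have h2 := congrArg (fun z : ↥(Subgroup.normalizer ((S : Subgroup G) : Set G)) => (z : G)) h1
    simpa using h2
  have hyord : orderOf (y' : G) = 7 := by
    rw [← hy']
    exact Subgroup.orderOf_coe y'
  have hynorm : ∀ a ∈ (S : Subgroup G), (y' : G) * a * (y' : G)⁻¹ ∈ (S : Subgroup G) := by
    intro a ha
    exact (Subgroup.mem_normalizer_iff.mp y'.2 a).mp ha
  have hmove : ∃ a ∈ (S : Subgroup G), (y' : G) * a * (y' : G)⁻¹ ≠ a := by
    by_contra hall
    push Not at hall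
    have hyC : (y' : G) ∈ Subgroup.centralizer ((S : Subgroup G) : Set G) := by
      rw [Subgroup.mem_centralizer_iff]
      intro a ha
      have := hall a ha
      rw [mul_inv_eq_iff_eq_mul] at this
      exact this.symm
    rw [hCS] at hyC
    have hdvd : orderOf (y' : G) ∣ Nat.card (S : Subgroup G) := by
      have h1 := orderOf_dvd_natCard (⟨(y' : G), hyC⟩ : ↥(S : Subgroup G))
      rwa [Subgroup.orderOf_mk] at h1
    rw [hyord, hS8] at hdvd
    omega
  have hcomm := h G (S : Subgroup G) (y' : G) hS8 hab hynorm hy7 hmove Γ σ hsurj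
    (fun z hz x => by
      have hz' : z ∈ Subgroup.center Γ := hker (MonoidHom.mem_ker.mpr hz)
      exact Subgroup.mem_center_iff.mp hz' x)
  have hbot : ⁅(S : Subgroup G).comap σ, (S : Subgroup G).comap σ⁆ = ⊥ := by
    rw [Subgroup.commutator_eq_bot_iff_le_centralizer]
    intro a ha
    rw [Subgroup.mem_centralizer_iff]
    intro b hb
    exact hcomm b a hb ha
  rw [hbot, inf_bot_eq]

example (h : Cfsg.Agent.H51.Rs.StTwo.{v, w}) : Cfsg.Agent.H51.Rs.StTwoGlue.{v, w} := twoGlue h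

end Cfsg.Agent.H70.Rs
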