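import Cfsg.Agent.H23.StbHatDefs

/-!
# S2124-INNH: if an inner automorphism agrees on the root elements with a diagonal automorphism
composed with a bijection `ρ` of the field, `ρ 1 = 1`, then `ρ = id` and the diagonal element lies
in `H` (adapted from helper38's S2125-INN)
-/

set_option autoImplicit false

namespace Cfsg.Agent.H70.Stb

open Cfsg.Lie Cfsg.Agent.H23 Cfsg.Agent.H23.Stb

universe u

/-- root elements of one root with equal values have equal parameters -/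
theorem xU_param_eq {D : ChevalleyDatum} {F : Type u} [Field F] {z : ℕ → ℕ → ℤ}
    (hS : Sem D F z) (hT : Tab D) (hT2 : Tab2 D) (r : ℕ) (hr : r < D.nroots) (a b : F)
    (h : xU hS r a = xU hS r b) : a = b := by
  have h7 : xU hS r (a + -b) = 1 := by
    rw [← xU_mul, ← xU_inv, h, mul_inv_cancel]
  have h8 := xU_eq_one_imp hS hT hT2 r hr _ h7
  linear_combination h8

/-- S2124-INNH -/
theorem innH (h1 : StNormU.{u}) (h2 : StW0.{u}) : StInnH.{u} := by
  intro D F _ z η rT w0 hC g hg k hk ρ hρ0 hρ1 hrank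
  have hS := hC.hP.sem
  have hT := hC.hP.tab
  have hT2 := hC.hP.tab2
  obtain ⟨χk, hχk⟩ := hk
  have hχne : ∀ c, χk c ≠ 0 := hχk.1
  have hρ : ∀ r < D.nroots, ∀ t : F, g * xU hS r t * g⁻¹ = xU hS r (χk r * ρ t) := by
    intro r hr t
    rw [hρ0 r hr t, isTorus_conj hS χk k hχk r hr (ρ t)]
  have key : ∀ (P : ℕ → Prop), (∀ r, P r → r < D.nroots) → ∀ x : GL D.Idx F,
      x ∈ rootGen D F P ↔ g * x * g⁻¹ ∈ rootGen D F P := by
    intro P hP
    have hn : g ∈ Subgroup.normalizer (rootGen D F P : Set (GL D.Idx F)) := by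
      apply mem_normalizer_rootGen hS
      · intro r hr t
        rw [hρ r (hP r hr) t]
        exact xU_mem_rootGen hS P r hr _
      · intro r hr t
        have h3 := hρ r (hP r hr) (ρ.symm ((χk r)⁻¹ * t))
        rw [Equiv.apply_symm_apply, ← mul_assoc, mul_inv_cancel₀ (hχne r), one_mul] at h3
        rw [← h3]
        have h4 : g⁻¹ * (g * xU hS r (ρ.symm ((χk r)⁻¹ * t)) * g⁻¹) * g =
            xU hS r (ρ.symm ((χk r)⁻¹ * t)) := by group
        rw [h4]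
        exact xU_mem_rootGen hS P r hr _
    intro x
    exact Subgroup.mem_normalizer_iff.mp hn x
  have hgB : g ∈ D.borelSubgroup F :=
    h1 D F z η rT w0 hC g hg (key D.IsPosRoot (fun _ hr => hr.1))
  obtain ⟨u, hu, h, hh, hguh⟩ := exists_mul_of_mem_sup _ _
    (diagonal_le_normalizer_rootGen hS D.IsPosRoot (fun _ hr => hr.1)) g hgB
  have hgV := key D.IsNegRoot (fun _ hr => hr.1)
  have hhV := diagonal_le_normalizer_rootGen hS D.IsNegRoot (fun _ hr => hr.1) hh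
  have huV : ∀ x : GL D.Idx F, x ∈ D.negUnipotent F ↔ u * x * u⁻¹ ∈ D.negUnipotent F := by
    intro x
    have a := Subgroup.mem_normalizer_iff.mp (Subgroup.inv_mem _ hhV) x
    have b := hgV (h⁻¹ * x * h⁻¹⁻¹)
    have e : g * (h⁻¹ * x * h⁻¹⁻¹) * g⁻¹ = u * x * u⁻¹ := by rw [hguh]; group
    rw [e] at b
    exact a.trans b
  have hW := h2 D F z η rT w0 hC
  have hv : nWU hS w0 * u * (nWU hS w0)⁻¹ ∈ D.negUnipotent F := (hW u).1.mp hu
  have hvN : ∀ x : GL D.Idx F, x ∈ D.posUnipotent F ↔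
      (nWU hS w0 * u * (nWU hS w0)⁻¹) * x * (nWU hS w0 * u * (nWU hS w0)⁻¹)⁻¹ ∈
        D.posUnipotent F := by
    intro x
    have a := (hW ((nWU hS w0)⁻¹ * x * nWU hS w0)).2
    have e1 : nWU hS w0 * ((nWU hS w0)⁻¹ * x * nWU hS w0) * (nWU hS w0)⁻¹ = x := by group
    rw [e1] at a
    have b := huV ((nWU hS w0)⁻¹ * x * nWU hS w0)
    have c := (hW (u * ((nWU hS w0)⁻¹ * x * nWU hS w0) * u⁻¹)).2
    have e2 : nWU hS w0 * (u * ((nWU hS w0)⁻¹ * x * nWU hS w0) * u⁻¹) * (nWU hS w0)⁻¹ =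
        (nWU hS w0 * u * (nWU hS w0)⁻¹) * x * (nWU hS w0 * u * (nWU hS w0)⁻¹)⁻¹ := by group
    rw [e2] at c
    exact a.symm.trans (b.trans c)
  have hvG : nWU hS w0 * u * (nWU hS w0)⁻¹ ∈ D.group F := negUnipotent_le_group hS hv
  have hvB := h1 D F z η rT w0 hC _ hvG hvN
  have hv1 : nWU hS w0 * u * (nWU hS w0)⁻¹ = 1 := by
    have h5 : nWU hS w0 * u * (nWU hS w0)⁻¹ ∈ D.borelSubgroup F ⊓ D.negUnipotent F :=
      Subgroup.mem_inf.2 ⟨hvB, hv⟩
    rw [borel_inf_neg hS hC.hV] at h5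
    exact Subgroup.mem_bot.mp h5
  have hu1 : u = 1 := by
    have h6 : u = (nWU hS w0)⁻¹ * (nWU hS w0 * u * (nWU hS w0)⁻¹) * nWU hS w0 := by group
    rw [h6, hv1]; group
  rw [hu1, one_mul] at hguh
  -- now `g = h ∈ H`
  have hhT : h ∈ torusGroup D F := diagonal_le_torus hS hT hh
  obtain ⟨χ, hχ⟩ := hhT
  have e : ∀ r < D.nroots, ∀ t : F, χ r * t = χk r * ρ t := by
    intro r hr t
    have a := hρ r hr t
    rw [hguh, isTorus_conj hS χ h hχ r hr t] at a
    exact xU_param_eq hS hT hT2 r hr _ _ a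
  have eχ : ∀ r < D.nroots, χ r = χk r := by
    intro r hr
    have e1 := e r hr 1
    rwa [hρ1, mul_one, mul_one] at e1
  have hρid : ∀ t : F, ρ t = t := by
    intro t
    have hr0 := hT.simple_lt 0 hrank
    have e1 := e _ hr0 t
    rw [eχ _ hr0] at e1
    exact (mul_left_cancel₀ (hχne _) e1).symm
  refine ⟨hρid, ?_⟩
  -- `h⁻¹ k` acts trivially on every root element
  have hk' : k ∈ torusGroup D F := ⟨χk, hχk⟩
  have hhk : h⁻¹ * k ∈ torusGroup D F :=
    (torusGroup D F).mul_mem ((torusGroup D F).inv_mem ⟨χ, hχ⟩) hk'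
  obtain ⟨χ₀, hχ₀⟩ := hhk
  have hone : ∀ s < D.nroots, χ₀ s = 1 := by
    intro s hs
    have a := isTorus_conj hS χ₀ (h⁻¹ * k) hχ₀ s hs 1
    have b : h⁻¹ * k * xU hS s 1 * (h⁻¹ * k)⁻¹ = xU hS s 1 := by
      have e1 : h⁻¹ * k * xU hS s 1 * (h⁻¹ * k)⁻¹ = h⁻¹ * (k * xU hS s 1 * k⁻¹) * h := by group
      rw [e1, isTorus_conj hS χk k hχk s hs 1, ← eχ s hs, ← isTorus_conj hS χ h hχ s hs 1]
      group
    rw [b, mul_one] at a
    exact (xU_param_eq hS hT hT2 s hs _ _ a).symm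
  have h1k : h⁻¹ * k = 1 := isTorus_eq_one χ₀ (h⁻¹ * k) hχ₀ hone
  have hkh : k = h := by
    have e1 : k = h * (h⁻¹ * k) := by group
    rw [e1, h1k, mul_one]
  rw [hkh]
  exact hh

example (h1 : StNormU.{u}) (h2 : StW0.{u}) : Cfsg.Agent.H23.Stb.StInnH.{u} := innH h1 h2

end Cfsg.Agent.H70.Stb
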