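import Cfsg.Agent.H23.StbDefs

/-!
# S2125-NEG: an automorphism fixing `U` and `V` permutes the root subgroups of the negatives of
the fundamental roots
-/

set_option autoImplicit false

namespace Cfsg.Agent.H70.Stb

open Cfsg.Lie Cfsg.Agent.H23 Cfsg.Agent.H23.Stb

universe u

/-- S2125-NEG -/
theorem neg (h1 : StNormU.{u}) (h2 : StPar.{u}) (h3 : StPV.{u}) : StNeg.{u} := by
  intro D F _ z η rT w0 hC θ hU hV' i hi
  have hS := hC.hP.sem
  have hBU : D.borelSubgroup F ≤ Subgroup.normalizer (D.posUnipotent F : Set (GL D.Idx F)) :=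
    sup_le Subgroup.le_normalizer
      (diagonal_le_normalizer_rootGen hS D.IsPosRoot (fun _ hr => hr.1))
  -- `B ∩ G` is the normalizer of `U` in `G`
  have hchar : ∀ g : ↥(D.group F), (g : GL D.Idx F) ∈ D.borelSubgroup F ↔
      ∀ u : GL D.Idx F, u ∈ D.posUnipotent F ↔
        (g : GL D.Idx F) * u * (g : GL D.Idx F)⁻¹ ∈ D.posUnipotent F := by
    intro g
    constructor
    · intro hg u
      exact Subgroup.mem_normalizer_iff.1 (hBU hg) u
    · intro hg
      exact h1 D F z η rT w0 hC g.1 g.2 hg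
  -- transport of the normalizer property along an automorphism preserving `U`
  have htr : ∀ (τ : ↥(D.group F) ≃* ↥(D.group F)),
      Pres τ (D.posUnipotent F) (D.posUnipotent F) → ∀ g : ↥(D.group F),
      (∀ u : GL D.Idx F, u ∈ D.posUnipotent F ↔
        (g : GL D.Idx F) * u * (g : GL D.Idx F)⁻¹ ∈ D.posUnipotent F) →
      ∀ u : GL D.Idx F, u ∈ D.posUnipotent F ↔
        ((τ g : ↥(D.group F)) : GL D.Idx F) * u * ((τ g : ↥(D.group F)) : GL D.Idx F)⁻¹ ∈
          D.posUnipotent F := by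
    intro τ hτ g hg u
    have key : ∀ y : ↥(D.group F), ((τ y : ↥(D.group F)) : GL D.Idx F) ∈ D.posUnipotent F ↔
        ((τ g : ↥(D.group F)) : GL D.Idx F) * ((τ y : ↥(D.group F)) : GL D.Idx F) *
          ((τ g : ↥(D.group F)) : GL D.Idx F)⁻¹ ∈ D.posUnipotent F := by
      intro y
      have e : ((τ g : ↥(D.group F)) : GL D.Idx F) * ((τ y : ↥(D.group F)) : GL D.Idx F) *
          ((τ g : ↥(D.group F)) : GL D.Idx F)⁻¹ =
          ((τ (g * y * g⁻¹) : ↥(D.group F)) : GL D.Idx F) := by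
        rw [map_mul, map_mul, map_inv]; rfl
      rw [e, hτ y, hτ (g * y * g⁻¹)]
      exact hg y
    constructor
    · intro hu
      have huG : u ∈ D.group F := posUnipotent_le_group hS hu
      obtain ⟨y, hy⟩ := τ.surjective ⟨u, huG⟩
      have hyc : ((τ y : ↥(D.group F)) : GL D.Idx F) = u := by rw [hy]
      rw [← hyc]
      exact (key y).1 (by rw [hyc]; exact hu)
    · intro hu
      have huG : u ∈ D.group F := by
        have h0 := posUnipotent_le_group hS hu
        have e : u = ((τ g : ↥(D.group F)) : GL D.Idx F)⁻¹ *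
            (((τ g : ↥(D.group F)) : GL D.Idx F) * u *
              ((τ g : ↥(D.group F)) : GL D.Idx F)⁻¹) *
            ((τ g : ↥(D.group F)) : GL D.Idx F) := by group
        rw [e]
        exact (D.group F).mul_mem ((D.group F).mul_mem ((D.group F).inv_mem (τ g).2) h0) (τ g).2
      obtain ⟨y, hy⟩ := τ.surjective ⟨u, huG⟩
      have hyc : ((τ y : ↥(D.group F)) : GL D.Idx F) = u := by rw [hy]
      rw [← hyc] at hu ⊢
      exact (key y).2 hu
  have hUsymm : Pres θ.symm (D.posUnipotent F) (D.posUnipotent F) := by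
    intro g
    have h0 := hU (θ.symm g)
    rw [θ.apply_symm_apply] at h0
    exact h0.symm
  have hB : Pres θ (D.borelSubgroup F) (D.borelSubgroup F) := by
    intro g
    rw [hchar (θ g), hchar g]
    constructor
    · intro hg
      have h0 := htr θ.symm hUsymm (θ g) hg
      rw [θ.symm_apply_apply] at h0
      exact h0
    · exact htr θ hU g
  obtain ⟨j, hj, hPj⟩ := h2 D F z η hC.hP θ hB i hi
  refine ⟨j, hj, ?_, ?_⟩
  · intro t
    have hv := (h3 D F z η rT w0 hC i hi (xG hS (D.neg (D.simple i)) t)).2 ⟨t, rfl⟩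
    apply (h3 D F z η rT w0 hC j hj (θ (xG hS (D.neg (D.simple i)) t))).1
    refine ⟨(hV' _).2 hv.1, ?_⟩
    rw [← hPj]
    exact Subgroup.mem_map_of_mem _ hv.2
  · intro t'
    have hv := (h3 D F z η rT w0 hC j hj (xG hS (D.neg (D.simple j)) t')).2 ⟨t', rfl⟩
    obtain ⟨hv1, hv2⟩ := hv
    rw [← hPj] at hv2
    obtain ⟨v, hvP, hvθ⟩ := Subgroup.mem_map.1 hv2
    have hvθ' : θ v = xG hS (D.neg (D.simple j)) t' := hvθ
    have hvV : (v : GL D.Idx F) ∈ D.negUnipotent F := by
      rw [← hV' v, hvθ']; exact hv1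
    obtain ⟨t, ht⟩ := (h3 D F z η rT w0 hC i hi v).1 ⟨hvV, hvP⟩
    exact ⟨t, by rw [← ht, hvθ']⟩

example (h1 : StNormU.{u}) (h2 : StPar.{u}) (h3 : StPV.{u}) : Cfsg.Agent.H23.Stb.StNeg.{u} :=
  neg h1 h2 h3

end Cfsg.Agent.H70.Stb
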