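import Mathlib
import Cfsg.Agent.H58.FzBasic

set_option autoImplicit false

namespace Cfsg.Agent.H70.Fz3

open Cfsg.Agent.H58.FrobAct Cfsg.Agent.H58.Ward
open scoped commutatorElement

universe u

variable {X : Type u} [Group X]

theorem comm_of_class2 (a b b' : X)
    (hz : a * b * a⁻¹ * b⁻¹ = a * b' * a⁻¹ * b'⁻¹)
    (hzc : (a * b * a⁻¹ * b⁻¹) * (b * b'⁻¹) = (b * b'⁻¹) * (a * b * a⁻¹ * b⁻¹)) :
    a * (b * b'⁻¹) = (b * b'⁻¹) * a := by
  have h1 : a * (b * b'⁻¹) * a⁻¹ =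
      (a * b * a⁻¹ * b⁻¹) * (b * b'⁻¹) * (a * b' * a⁻¹ * b'⁻¹)⁻¹ := by group
  rw [← hz, hzc] at h1
  have h2 : a * (b * b'⁻¹) * a⁻¹ = b * b'⁻¹ := by
    rw [h1]; group
  calc a * (b * b'⁻¹) = (a * (b * b'⁻¹) * a⁻¹) * a := by group
    _ = (b * b'⁻¹) * a := by rw [h2]

/-- `N(W)` normalizes `C(W)`. -/
theorem conj_mem_centralizer (W : Subgroup X) {g z : X}
    (hg : g ∈ Subgroup.normalizer (W : Set X)) (hz : z ∈ Subgroup.centralizer (W : Set X)) :
    g * z * g⁻¹ ∈ Subgroup.centralizer (W : Set X) := by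
  rw [Subgroup.mem_centralizer_iff] at hz ⊢
  intro w hw
  have hw' : g⁻¹ * w * g ∈ W := by
    have h0 := (Subgroup.mem_normalizer_iff.mp (Subgroup.inv_mem _ hg) w).mp hw
    simpa using h0
  have h1 := hz _ hw'
  calc w * (g * z * g⁻¹) = g * ((g⁻¹ * w * g) * z) * g⁻¹ := by group
    _ = g * (z * (g⁻¹ * w * g)) * g⁻¹ := by rw [h1]
    _ = g * z * g⁻¹ * w := by group

theorem inv_conj_mem {H : Subgroup X} {g : X} (hg : g ∈ Subgroup.normalizer (H : Set X))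
    {a : X} (ha : a ∈ H) : g⁻¹ * a * g ∈ H := by
  have h0 := (Subgroup.mem_normalizer_iff.mp (Subgroup.inv_mem _ hg) a).mp ha
  simpa using h0

/-- The elements of `N(W) ∩ N(R)` acting trivially on `R` modulo `C(W)`. -/
def trSub (R W : Subgroup X) : Subgroup X where
  carrier := {g | g ∈ Subgroup.normalizer (W : Set X) ∧ g ∈ Subgroup.normalizer (R : Set X) ∧
    ∀ a ∈ R, g * a * g⁻¹ * a⁻¹ ∈ Subgroup.centralizer (W : Set X)}
  one_mem' := ⟨one_mem _, one_mem _, fun a _ => by simp⟩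
  mul_mem' := by
    rintro g h ⟨hg1, hg2, hg3⟩ ⟨hh1, hh2, hh3⟩
    refine ⟨mul_mem hg1 hh1, mul_mem hg2 hh2, fun a ha => ?_⟩
    have e : g * h * a * (g * h)⁻¹ * a⁻¹ =
        (g * (h * a * h⁻¹ * a⁻¹) * g⁻¹) * (g * a * g⁻¹ * a⁻¹) := by group
    rw [e]
    exact mul_mem (conj_mem_centralizer W hg1 (hh3 a ha)) (hg3 a ha)
  inv_mem' := by
    rintro g ⟨hg1, hg2, hg3⟩
    refine ⟨inv_mem hg1, inv_mem hg2, fun a ha => ?_⟩
    have ha' : g⁻¹ * a * g ∈ R := inv_conj_mem hg2 ha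
    have h1 := hg3 _ ha'
    have e : g⁻¹ * a * g⁻¹⁻¹ * a⁻¹ = (g * (g⁻¹ * a * g) * g⁻¹ * (g⁻¹ * a * g)⁻¹)⁻¹ := by group
    rw [e]
    exact inv_mem h1

theorem mem_trSub {R W : Subgroup X} {g : X} : g ∈ trSub R W ↔
    g ∈ Subgroup.normalizer (W : Set X) ∧ g ∈ Subgroup.normalizer (R : Set X) ∧
    ∀ a ∈ R, g * a * g⁻¹ * a⁻¹ ∈ Subgroup.centralizer (W : Set X) := Iff.rfl

theorem conj_mem_trSub {R W : Subgroup X} {m g : X}
    (hm1 : m ∈ Subgroup.normalizer (W : Set X)) (hm2 : m ∈ Subgroup.normalizer (R : Set X))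
    (hg : g ∈ trSub R W) : m * g * m⁻¹ ∈ trSub R W := by
  obtain ⟨hg1, hg2, hg3⟩ := hg
  refine ⟨mul_mem (mul_mem hm1 hg1) (inv_mem hm1), mul_mem (mul_mem hm2 hg2) (inv_mem hm2),
    fun a ha => ?_⟩
  have ha' : m⁻¹ * a * m ∈ R := inv_conj_mem hm2 ha
  have e : m * g * m⁻¹ * a * (m * g * m⁻¹)⁻¹ * a⁻¹ =
      m * (g * (m⁻¹ * a * m) * g⁻¹ * (m⁻¹ * a * m)⁻¹) * m⁻¹ := by group
  rw [e]
  exact conj_mem_centralizer W hm1 (hg3 _ ha')

/-- If `x` normalizes `S` and has no nontrivial fixed point on `S`, every element of `S` is a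
commutator `σ x σ⁻¹ x⁻¹`. -/
theorem exists_comm_eq [Finite X] (S : Subgroup X) (x : X)
    (hxS : x ∈ Subgroup.normalizer (S : Set X))
    (hfix : ∀ σ ∈ S, x * σ = σ * x → σ = 1) : ∀ τ ∈ S, ∃ σ ∈ S, σ * x * σ⁻¹ * x⁻¹ = τ := by
  have hmem : ∀ σ : S, (σ : X) * x * (σ : X)⁻¹ * x⁻¹ ∈ S := by
    intro σ
    have h1 : x * (σ : X)⁻¹ * x⁻¹ ∈ S := conj_mem_of_mem_normalizer hxS (inv_mem σ.2)
    have e : (σ : X) * x * (σ : X)⁻¹ * x⁻¹ = (σ : X) * (x * (σ : X)⁻¹ * x⁻¹) := by group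
    rw [e]
    exact mul_mem σ.2 h1
  have hinj : Function.Injective (fun σ : S => (⟨(σ : X) * x * (σ : X)⁻¹ * x⁻¹, hmem σ⟩ : S)) := by
    intro σ σ' h
    have h1 : (σ : X) * x * (σ : X)⁻¹ * x⁻¹ = (σ' : X) * x * (σ' : X)⁻¹ * x⁻¹ :=
      congrArg Subtype.val h
    have h2 : x * ((σ' : X)⁻¹ * (σ : X)) = ((σ' : X)⁻¹ * (σ : X)) * x := by
      have h3 : (σ : X) * x * (σ : X)⁻¹ = (σ' : X) * x * (σ' : X)⁻¹ := by
        have := congrArg (fun t => t * x) h1
        simpa using this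
      calc x * ((σ' : X)⁻¹ * (σ : X)) = (σ' : X)⁻¹ * ((σ' : X) * x * (σ' : X)⁻¹) * (σ : X) := by
            group
        _ = (σ' : X)⁻¹ * ((σ : X) * x * (σ : X)⁻¹) * (σ : X) := by rw [h3]
        _ = ((σ' : X)⁻¹ * (σ : X)) * x := by group
    have h4 := hfix _ (mul_mem (inv_mem σ'.2) σ.2) h2
    apply Subtype.ext
    have h5 : (σ : X) = (σ' : X) * ((σ' : X)⁻¹ * (σ : X)) := by group
    rw [h5, h4, mul_one]
  have hsurj := Finite.surjective_of_injective hinj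
  intro τ hτ
  obtain ⟨σ, hσ⟩ := hsurj ⟨τ, hτ⟩
  exact ⟨σ, σ.2, congrArg Subtype.val hσ⟩

theorem sup_eq_of_index_prime [Finite X] (S H H' : Subgroup X) (v : ℕ) (hv : v.Prime)
    (hH : H ≤ S) (hH' : H' ≤ S) (hcH : Nat.card S = v * Nat.card H)
    (hcH' : Nat.card S = v * Nat.card H') (hne : H ≠ H') : H ⊔ H' = S := by
  have hle : H ⊔ H' ≤ S := sup_le hH hH'
  have hpos : 0 < Nat.card H := Nat.card_pos
  have d1 : Nat.card H ∣ Nat.card (H ⊔ H' : Subgroup X) := Subgroup.card_dvd_of_le le_sup_left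
  have d2 : Nat.card (H ⊔ H' : Subgroup X) ∣ Nat.card S := Subgroup.card_dvd_of_le hle
  obtain ⟨t, ht⟩ := d1
  have ht' : t ∣ v := by
    rw [ht, hcH, mul_comm v] at d2
    exact Nat.dvd_of_mul_dvd_mul_left hpos d2
  rcases (Nat.dvd_prime hv).1 ht' with h1 | h1
  · exfalso
    rw [h1, mul_one] at ht
    have e1 : H = H ⊔ H' := Subgroup.eq_of_le_of_card_ge le_sup_left (le_of_eq ht)
    have h2 : H' ≤ H := by
      rw [e1]; exact le_sup_right
    have h3 : Nat.card H = Nat.card H' := by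
      have h4 : v * Nat.card H = v * Nat.card H' := by rw [← hcH, ← hcH']
      exact Nat.eq_of_mul_eq_mul_left hv.pos h4
    exact hne (Subgroup.eq_of_le_of_card_ge h2 (le_of_eq h3)).symm
  · apply Subgroup.eq_of_le_of_card_ge hle
    rw [ht, h1, hcH, mul_comm]

/-- Step (1): centralizers in `R` of distinct maximal subgroups of `S` commute. -/
theorem RH_comm [Finite X] (R S H H' : Subgroup X) (v : ℕ) (hv : v.Prime)
    (hSR : S ≤ Subgroup.normalizer (R : Set X)) (hScomm : ∀ a ∈ S, ∀ b ∈ S, a * b = b * a)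
    (hcop : (Nat.card S).Coprime (Nat.card R))
    (hRR : ⁅R, R⁆ ≤ R ⊓ Subgroup.centralizer (S : Set X))
    (hD : R ⊓ Subgroup.centralizer (S : Set X) ≤ Subgroup.centralizer (R : Set X))
    (hH : H ≤ S) (hH' : H' ≤ S) (hcH : Nat.card S = v * Nat.card H)
    (hcH' : Nat.card S = v * Nat.card H') (hne : H ≠ H') :
    ∀ a ∈ R ⊓ Subgroup.centralizer (H : Set X), ∀ b ∈ R ⊓ Subgroup.centralizer (H' : Set X),
      a * b = b * a := by
  have hsup := sup_eq_of_index_prime S H H' v hv hH hH' hcH hcH' hne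
  intro a ha
  obtain ⟨haR, haH⟩ := Subgroup.mem_inf.mp ha
  rw [Subgroup.mem_centralizer_iff] at haH
  have hHK : H ≤ Subgroup.normalizer
      ((R ⊓ Subgroup.centralizer (H' : Set X) : Subgroup X) : Set X) := by
    intro g hg
    apply normalizer_inf_centralizer R H' g (hSR (hH hg))
    apply mem_normalizer_of_comm
    intro h hh
    exact hScomm g (hH hg) h (hH' hh)
  have hcop' : (Nat.card H).Coprime
      (Nat.card (R ⊓ Subgroup.centralizer (H' : Set X) : Subgroup X)) :=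
    cop_of_le hcop hH inf_le_left
  have hsolv : Group.IsSolvable H :=
    solvable_of_comm H (fun a ha b hb => hScomm a (hH ha) b (hH hb))
  have hdec := Cfsg.Agent.H1.coprime_commutator_sup_centralizer H
    (R ⊓ Subgroup.centralizer (H' : Set X)) hHK hcop' (Or.inl hsolv)
  have h1 : ⁅(R ⊓ Subgroup.centralizer (H' : Set X) : Subgroup X), H⁆ ≤
      Subgroup.centralizer ({a} : Set X) := by
    rw [Subgroup.commutator_le]
    intro b hb τ hτ
    have hbR : b ∈ R := (Subgroup.mem_inf.mp hb).1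
    have hτS : τ ∈ S := hH hτ
    have hb'R : τ * b * τ⁻¹ ∈ R := conj_mem_of_mem_normalizer (hSR hτS) hbR
    have hzD : a * b * a⁻¹ * b⁻¹ ∈ R ⊓ Subgroup.centralizer (S : Set X) := by
      apply hRR
      have := Subgroup.commutator_mem_commutator haR hbR
      rwa [commutatorElement_def] at this
    have hzτ : τ * (a * b * a⁻¹ * b⁻¹) = (a * b * a⁻¹ * b⁻¹) * τ :=
      (Subgroup.mem_centralizer_iff.mp (Subgroup.mem_inf.mp hzD).2) τ hτS
    have haτ : τ * a * τ⁻¹ = a := by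
      rw [haH τ hτ]; group
    have hz : a * b * a⁻¹ * b⁻¹ = a * (τ * b * τ⁻¹) * a⁻¹ * (τ * b * τ⁻¹)⁻¹ := by
      symm
      calc a * (τ * b * τ⁻¹) * a⁻¹ * (τ * b * τ⁻¹)⁻¹
          = (τ * a * τ⁻¹) * (τ * b * τ⁻¹) * (τ * a * τ⁻¹)⁻¹ * (τ * b * τ⁻¹)⁻¹ := by rw [haτ]
        _ = τ * (a * b * a⁻¹ * b⁻¹) * τ⁻¹ := by group
        _ = a * b * a⁻¹ * b⁻¹ := by rw [hzτ]; group
    have hzc : (a * b * a⁻¹ * b⁻¹) * (b * (τ * b * τ⁻¹)⁻¹) =
        (b * (τ * b * τ⁻¹)⁻¹) * (a * b * a⁻¹ * b⁻¹) :=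
      ((Subgroup.mem_centralizer_iff.mp (hD hzD)) _ (mul_mem hbR (inv_mem hb'R))).symm
    have h2 := comm_of_class2 a b (τ * b * τ⁻¹) hz hzc
    rw [Subgroup.mem_centralizer_iff]
    intro a' ha'
    rw [Set.mem_singleton_iff] at ha'
    subst ha'
    rw [commutatorElement_def]
    have e : b * τ * b⁻¹ * τ⁻¹ = b * (τ * b * τ⁻¹)⁻¹ := by group
    rw [e]
    exact h2
  have h2 : (R ⊓ Subgroup.centralizer (H' : Set X) : Subgroup X) ⊓
      Subgroup.centralizer (H : Set X) ≤ Subgroup.centralizer ({a} : Set X) := by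
    intro g hg
    obtain ⟨hg1, hg2⟩ := Subgroup.mem_inf.mp hg
    obtain ⟨hgR, hg3⟩ := Subgroup.mem_inf.mp hg1
    have hgS : g ∈ Subgroup.centralizer (S : Set X) := by
      have l1 : H ≤ Subgroup.centralizer ({g} : Set X) := by
        intro h hh
        rw [Subgroup.mem_centralizer_iff]
        intro g' hg'
        rw [Set.mem_singleton_iff] at hg'
        subst hg'
        exact ((Subgroup.mem_centralizer_iff.mp hg2) h hh).symm
      have l2 : H' ≤ Subgroup.centralizer ({g} : Set X) := by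
        intro h hh
        rw [Subgroup.mem_centralizer_iff]
        intro g' hg'
        rw [Set.mem_singleton_iff] at hg'
        subst hg'
        exact ((Subgroup.mem_centralizer_iff.mp hg3) h hh).symm
      have l3 : S ≤ Subgroup.centralizer ({g} : Set X) := by
        rw [← hsup]; exact sup_le l1 l2
      rw [Subgroup.mem_centralizer_iff]
      intro h hh
      exact ((Subgroup.mem_centralizer_iff.mp (l3 hh)) g rfl).symm
    have hgc : g ∈ Subgroup.centralizer (R : Set X) := hD (Subgroup.mem_inf.mpr ⟨hgR, hgS⟩)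
    rw [Subgroup.mem_centralizer_iff]
    intro a' ha'
    rw [Set.mem_singleton_iff] at ha'
    subst ha'
    exact (Subgroup.mem_centralizer_iff.mp hgc) a' haR
  intro b hb
  have hb' : b ∈ Subgroup.centralizer ({a} : Set X) := by
    rw [← hdec] at hb
    exact (sup_le h1 h2) hb
  exact (Subgroup.mem_centralizer_iff.mp hb') a rfl

end Cfsg.Agent.H70.Fz3
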