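import Mathlib
import Cfsg.Agent.H58.FzBasic
import Cfsg.Agent.H70.Fz3a

set_option autoImplicit false

namespace Cfsg.Agent.H70.Fz3

open Cfsg.Agent.H58.Fz Cfsg.Agent.H58.FrobAct Cfsg.Agent.H58.Ward
open scoped commutatorElement

universe u

variable {X : Type u} [Group X] [Finite X] {p q k v r s : ℕ} {V R S A : Subgroup X} {y x : X}

/-- S4306-S3WB. -/
theorem step3w_big (aq : AQ X) (exq : EXQ X) (c : FCfg p q k v r s V R S A y x)
    (hSy : S ≤ Subgroup.centralizer {y}) (hsv : s = v) (hcard : Nat.card S ≠ v)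
    (W : Subgroup X) (hWV : W ≤ V) (hRW : R ≤ Subgroup.normalizer (W : Set X))
    (hSW : S ≤ Subgroup.normalizer (W : Set X)) (hxW : x ∈ Subgroup.normalizer (W : Set X))
    (hxfix : ∀ w ∈ W, x * w = w * x → w = 1)
    (hRW' : ¬ R ≤ Subgroup.centralizer (W : Set X)) : False := by
  have hScomm := c.S_comm_of_eq hsv
  have hSexp : ∀ a ∈ S, a ^ v = 1 := by
    have := c.S_exp_of_eq hsv
    rwa [hsv] at this
  have hS0 := c.S0_bot_of_eq hsv
  have hxR : x ∈ Subgroup.normalizer (R : Set X) := c.hAR c.hxA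
  have hxS : x ∈ Subgroup.normalizer (S : Set X) := c.hAS c.hxA
  have hxnR : ∀ n : ℕ, x ^ n ∈ Subgroup.normalizer (R : Set X) := fun n => pow_mem hxR n
  have hxnS : ∀ n : ℕ, x ^ n ∈ Subgroup.normalizer (S : Set X) := fun n => pow_mem hxS n
  -- Step (2)
  have hx_not : ∀ H : Subgroup X, H ≤ S → Nat.card S = v * Nat.card H →
      x ∉ Subgroup.normalizer (H : Set X) := by
    intro H hH hcH hxH
    have hyH : y ∈ Subgroup.normalizer (H : Set X) := by
      apply mem_normalizer_of_comm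
      intro h hh
      exact (Subgroup.mem_centralizer_iff.mp (hSy (hH hh))) y rfl
    have hAH : A ≤ Subgroup.normalizer (H : Set X) := by
      rw [c.hA, Subgroup.closure_le]
      intro g hg
      rcases hg with hg | hg
      · rw [hg]; exact hyH
      · rw [Set.mem_singleton_iff] at hg
        rw [hg]; exact hxH
    have hne : H ≠ S := by
      intro h
      rw [h] at hcH
      have h1 : 0 < Nat.card S := Nat.card_pos
      have h2 := c.hv.two_le
      nlinarith
    have h1 := c.proper_le_S0 H hH hAH hne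
    rw [hS0, le_bot_iff] at h1
    rw [h1] at hcH
    simp at hcH
    exact hcard hcH
  -- Step (3a)
  have h3a : ∀ H : Subgroup X, H ≤ S → Nat.card S = v * Nat.card H →
      ∀ a ∈ R ⊓ Subgroup.centralizer (H : Set X), ∀ n : ℕ,
        a * (x ^ n * a * (x ^ n)⁻¹) = (x ^ n * a * (x ^ n)⁻¹) * a := by
    intro H hH hcH a ha n
    by_cases hn : x ^ n = 1
    · rw [hn]; simp
    · obtain ⟨haR, haH⟩ := Subgroup.mem_inf.mp ha
      rw [Subgroup.mem_centralizer_iff] at haH
      have hH'S : H.map (MulAut.conj (x ^ n)).toMonoidHom ≤ S := by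
        rintro _ ⟨h, hh, rfl⟩
        exact conj_mem_of_mem_normalizer (hxnS n) (hH hh)
      have hcH' : Nat.card S = v * Nat.card (H.map (MulAut.conj (x ^ n)).toMonoidHom) := by
        rw [Subgroup.card_map_of_injective (MulAut.conj (x ^ n)).injective]
        exact hcH
      have hne : H ≠ H.map (MulAut.conj (x ^ n)).toMonoidHom := by
        intro h
        have h1 : x ^ n ∈ Subgroup.normalizer (H : Set X) := by
          apply mem_normalizer_of_conj
          intro h' hh'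
          rw [h]
          exact ⟨h', hh', rfl⟩
        have hcop : n.Coprime (orderOf x) := by
          rw [c.orderOf_x]
          apply Nat.Coprime.symm
          rw [Nat.Prime.coprime_iff_not_dvd c.hp]
          intro hd
          apply hn
          rw [← c.orderOf_x] at hd
          exact orderOf_dvd_iff_pow_eq_one.mp hd
        obtain ⟨m, hm⟩ := exists_pow_eq_self_of_coprime hcop
        have h2 : x ∈ Subgroup.normalizer (H : Set X) := by
          rw [← hm]; exact pow_mem h1 m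
        exact hx_not H hH hcH h2
      have hg : x ^ n * a * (x ^ n)⁻¹ ∈
          R ⊓ Subgroup.centralizer ((H.map (MulAut.conj (x ^ n)).toMonoidHom : Subgroup X) : Set X) := by
        refine Subgroup.mem_inf.mpr ⟨conj_mem_of_mem_normalizer (hxnR n) haR, ?_⟩
        rw [Subgroup.mem_centralizer_iff]
        rintro _ ⟨h, hh, rfl⟩
        have h1 := haH h hh
        show x ^ n * h * (x ^ n)⁻¹ * (x ^ n * a * (x ^ n)⁻¹) =
          x ^ n * a * (x ^ n)⁻¹ * (x ^ n * h * (x ^ n)⁻¹)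
        calc x ^ n * h * (x ^ n)⁻¹ * (x ^ n * a * (x ^ n)⁻¹)
            = x ^ n * (h * a) * (x ^ n)⁻¹ := by group
          _ = x ^ n * (a * h) * (x ^ n)⁻¹ := by rw [h1]
          _ = x ^ n * a * (x ^ n)⁻¹ * (x ^ n * h * (x ^ n)⁻¹) := by group
      exact RH_comm R S H _ v c.hv c.hSR hScomm c.copSR c.RR_le c.D_le_cent hH hH'S hcH hcH' hne
        a ha _ hg
  -- Step (3)
  have h3 : ∀ H : Subgroup X, H ≤ S → Nat.card S = v * Nat.card H →
      ∀ a ∈ R ⊓ Subgroup.centralizer (H : Set X),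
        x * a * x⁻¹ * a⁻¹ ∈ Subgroup.centralizer (W : Set X) := by
    intro H hH hcH a ha
    have haR : a ∈ R := (Subgroup.mem_inf.mp ha).1
    have hgen : ∀ i n : ℕ, (x ^ i * a * (x ^ i)⁻¹) * (x ^ (i + n) * a * (x ^ (i + n))⁻¹) =
        (x ^ (i + n) * a * (x ^ (i + n))⁻¹) * (x ^ i * a * (x ^ i)⁻¹) := by
      intro i n
      have h1 := h3a H hH hcH a ha n
      calc (x ^ i * a * (x ^ i)⁻¹) * (x ^ (i + n) * a * (x ^ (i + n))⁻¹)
          = x ^ i * (a * (x ^ n * a * (x ^ n)⁻¹)) * (x ^ i)⁻¹ := by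
            rw [pow_add]; group
        _ = x ^ i * ((x ^ n * a * (x ^ n)⁻¹) * a) * (x ^ i)⁻¹ := by rw [h1]
        _ = (x ^ (i + n) * a * (x ^ (i + n))⁻¹) * (x ^ i * a * (x ^ i)⁻¹) := by
            rw [pow_add]; group
    have hBc : ∀ g ∈ Set.range (fun n : ℕ => x ^ n * a * (x ^ n)⁻¹),
        ∀ g' ∈ Set.range (fun n : ℕ => x ^ n * a * (x ^ n)⁻¹), g * g' = g' * g := by
      rintro _ ⟨i, rfl⟩ _ ⟨j, rfl⟩
      rcases Nat.le_total i j with hij | hij
      · obtain ⟨n, rfl⟩ := Nat.exists_eq_add_of_le hij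
        exact hgen i n
      · obtain ⟨n, rfl⟩ := Nat.exists_eq_add_of_le hij
        exact (hgen j n).symm
    have hBcomm : ∀ g ∈ Subgroup.closure (Set.range (fun n : ℕ => x ^ n * a * (x ^ n)⁻¹)),
        ∀ g' ∈ Subgroup.closure (Set.range (fun n : ℕ => x ^ n * a * (x ^ n)⁻¹)),
        g * g' = g' * g := by
      intro g hg g' hg'
      have h0 := (Subgroup.isMulCommutative_closure hBc).is_comm.comm
        (⟨g, hg⟩ : Subgroup.closure (Set.range (fun n : ℕ => x ^ n * a * (x ^ n)⁻¹))) ⟨g', hg'⟩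
      exact congrArg Subtype.val h0
    have hBR : Subgroup.closure (Set.range (fun n : ℕ => x ^ n * a * (x ^ n)⁻¹)) ≤ R := by
      rw [Subgroup.closure_le]
      rintro _ ⟨i, rfl⟩
      exact conj_mem_of_mem_normalizer (hxnR i) haR
    have hxB : x ∈ Subgroup.normalizer
        ((Subgroup.closure (Set.range (fun n : ℕ => x ^ n * a * (x ^ n)⁻¹)) : Subgroup X) : Set X) := by
      apply mem_normalizer_of_conj
      intro g hg
      induction hg using Subgroup.closure_induction with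
      | mem g hg =>
        obtain ⟨i, rfl⟩ := hg
        apply Subgroup.subset_closure
        refine ⟨i + 1, ?_⟩
        show x ^ (i + 1) * a * (x ^ (i + 1))⁻¹ = x * (x ^ i * a * (x ^ i)⁻¹) * x⁻¹
        rw [pow_succ']; group
      | one => simp
      | mul g g' _ _ ih ih' =>
        have e : x * (g * g') * x⁻¹ = (x * g * x⁻¹) * (x * g' * x⁻¹) := by group
        rw [e]; exact mul_mem ih ih'
      | inv g _ ih =>
        have e : x * g⁻¹ * x⁻¹ = (x * g * x⁻¹)⁻¹ := by group
        rw [e]; exact inv_mem ih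
    have haB : a ∈ Subgroup.closure (Set.range (fun n : ℕ => x ^ n * a * (x ^ n)⁻¹)) := by
      apply Subgroup.subset_closure
      exact ⟨0, by simp⟩
    exact aq _ W x p c.hp c.hx hBcomm (fun u hu u' hu' => c.hVc u (hWV hu) u' (hWV hu'))
      hxB (hBR.trans hRW) hxW (Nat.Coprime.coprime_dvd_left (Subgroup.card_dvd_of_le hBR) c.coppR)
      (cop_of_le c.copRV hBR hWV) hxfix a haB
  -- Step (5): the subgroup of `R` on which `x` acts trivially modulo `C(W)`
  let T : Subgroup X :=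
    { carrier := {a | a ∈ R ∧ x * a * x⁻¹ * a⁻¹ ∈ Subgroup.centralizer (W : Set X)}
      one_mem' := ⟨one_mem _, by simp⟩
      mul_mem' := by
        rintro a b ⟨ha1, ha2⟩ ⟨hb1, hb2⟩
        refine ⟨mul_mem ha1 hb1, ?_⟩
        have e : x * (a * b) * x⁻¹ * (a * b)⁻¹ =
            (x * a * x⁻¹ * a⁻¹) * (a * (x * b * x⁻¹ * b⁻¹) * a⁻¹) := by group
        rw [e]
        exact mul_mem ha2 (conj_mem_centralizer W (hRW ha1) hb2)
      inv_mem' := by
        rintro a ⟨ha1, ha2⟩
        refine ⟨inv_mem ha1, ?_⟩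
        have e : x * a⁻¹ * x⁻¹ * a⁻¹⁻¹ = a⁻¹ * (x * a * x⁻¹ * a⁻¹)⁻¹ * a⁻¹⁻¹ := by group
        rw [e]
        exact conj_mem_centralizer W (inv_mem (hRW ha1)) (inv_mem ha2) }
  have hT : ∀ a, a ∈ T ↔ a ∈ R ∧ x * a * x⁻¹ * a⁻¹ ∈ Subgroup.centralizer (W : Set X) :=
    fun a => Iff.rfl
  -- Step (4)
  obtain ⟨H₀, hH₀S, hcH₀, hH₀⟩ := exq S R v c.hv hScomm hSexp c.hSR c.copSR
    (fun a ha b hb => by
      have h1 : a * b * a⁻¹ * b⁻¹ ∈ ⁅R, R⁆ := by
        have := Subgroup.commutator_mem_commutator ha hb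
        rwa [commutatorElement_def] at this
      exact (Subgroup.mem_inf.mp (c.RR_le h1)).2)
    (fun h => c.D_ne (inf_eq_left.mpr h))
  let ι := {H : Subgroup X // H ≤ S ∧ Nat.card S = v * Nat.card H}
  let R₂ : Subgroup X := ⨆ H : ι, R ⊓ Subgroup.centralizer ((H.1 : Subgroup X) : Set X)
  have hR₂R : R₂ ≤ R := iSup_le fun H => inf_le_left
  have hR₂T : R₂ ≤ T := iSup_le fun H => fun a ha =>
    (hT a).mpr ⟨(Subgroup.mem_inf.mp ha).1, h3 H.1 H.2.1 H.2.2 a ha⟩
  have hnorm : ∀ g : X, g ∈ Subgroup.normalizer (R : Set X) →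
      g ∈ Subgroup.normalizer (S : Set X) → g ∈ Subgroup.normalizer (R₂ : Set X) := by
    intro g hgR hgS
    apply mem_normalizer_of_conj
    intro z hz
    refine Subgroup.iSup_induction (C := fun z => g * z * g⁻¹ ∈ R₂) _ hz ?_ ?_ ?_
    · intro H a ha
      obtain ⟨haR, haH⟩ := Subgroup.mem_inf.mp ha
      rw [Subgroup.mem_centralizer_iff] at haH
      have hH'S : H.1.map (MulAut.conj g).toMonoidHom ≤ S := by
        rintro _ ⟨h, hh, rfl⟩
        exact conj_mem_of_mem_normalizer hgS (H.2.1 hh)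
      have hcH' : Nat.card S = v * Nat.card (H.1.map (MulAut.conj g).toMonoidHom) := by
        rw [Subgroup.card_map_of_injective (MulAut.conj g).injective]
        exact H.2.2
      have hmem : g * a * g⁻¹ ∈ R ⊓ Subgroup.centralizer
          ((H.1.map (MulAut.conj g).toMonoidHom : Subgroup X) : Set X) := by
        refine Subgroup.mem_inf.mpr ⟨conj_mem_of_mem_normalizer hgR haR, ?_⟩
        rw [Subgroup.mem_centralizer_iff]
        rintro _ ⟨h, hh, rfl⟩
        have h1 := haH h hh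
        show g * h * g⁻¹ * (g * a * g⁻¹) = g * a * g⁻¹ * (g * h * g⁻¹)
        calc g * h * g⁻¹ * (g * a * g⁻¹) = g * (h * a) * g⁻¹ := by group
          _ = g * (a * h) * g⁻¹ := by rw [h1]
          _ = g * a * g⁻¹ * (g * h * g⁻¹) := by group
      exact (le_iSup (fun H : ι => R ⊓ Subgroup.centralizer ((H.1 : Subgroup X) : Set X))
        ⟨_, hH'S, hcH'⟩) hmem
    · simp
    · intro z z' hz hz'
      have e : g * (z * z') * g⁻¹ = (g * z * g⁻¹) * (g * z' * g⁻¹) := by group
      rw [e]; exact mul_mem hz hz'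
  have hR₂ : R₂ = R := by
    by_contra hne
    have h1 := c.proper_le_D R₂ hR₂R (fun g hg => hnorm g (c.hAR hg) (c.hAS hg))
      (fun g hg => hnorm g (c.hSR hg) (Subgroup.le_normalizer hg)) hne
    apply hH₀
    refine le_trans ?_ (h1.trans inf_le_right)
    exact le_iSup (fun H : ι => R ⊓ Subgroup.centralizer ((H.1 : Subgroup X) : Set X))
      ⟨H₀, hH₀S, hcH₀⟩
  have h5 : ∀ a ∈ R, x * a * x⁻¹ * a⁻¹ ∈ Subgroup.centralizer (W : Set X) := by
    intro a ha
    rw [← hR₂] at ha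
    exact ((hT a).mp (hR₂T ha)).2
  -- Step (6)
  have hxTr : x ∈ trSub R W := mem_trSub.mpr ⟨hxW, hxR, h5⟩
  have hxfS : ∀ σ ∈ S, x * σ = σ * x → σ = 1 := by
    intro σ hσ hxσ
    have hyσ : y * σ = σ * y := (Subgroup.mem_centralizer_iff.mp (hSy hσ)) y rfl
    have h1 : σ ∈ S ⊓ Subgroup.centralizer (A : Set X) :=
      Subgroup.mem_inf.mpr ⟨hσ, c.mem_cA σ hyσ hxσ⟩
    rw [c.hfS] at h1
    exact Subgroup.mem_bot.mp h1
  have hSTr : S ≤ trSub R W := by
    intro τ hτ
    obtain ⟨σ, hσ, rfl⟩ := exists_comm_eq S x hxS hxfS τ hτ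
    exact mul_mem (conj_mem_trSub (hSW hσ) (c.hSR hσ) hxTr) (inv_mem hxTr)
  have hcomm : ⁅S, R⁆ ≤ Subgroup.centralizer (W : Set X) := by
    rw [Subgroup.commutator_le]
    intro σ hσ a ha
    rw [commutatorElement_def]
    exact (mem_trSub.mp (hSTr hσ)).2.2 a ha
  apply hRW'
  rw [Subgroup.commutator_comm, c.R_eq] at hcomm
  exact hcomm

end Cfsg.Agent.H70.Fz3
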