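import Mathlib
import Cfsg.Agent.H81.DihBDefs

/-!
# helper70: piece HYP of S4481 -- a dihedral Sylow 2-subgroup and an element of maximal order
give the package `Hyp`
-/

set_option autoImplicit false

namespace Cfsg.Agent.H70.DihB

open Subgroup DihedralGroup

universe u

/-- Powers of a rotation are rotations. -/
theorem zpow_r {m : ℕ} (i : ZMod m) (j : ℤ) :
    ∃ k : ZMod m, (r i : DihedralGroup m) ^ j = r k := by
  induction j using Int.induction_on with
  | zero => exact ⟨0, by rw [zpow_zero]; rfl⟩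
  | succ j ih =>
    obtain ⟨k, hk⟩ := ih
    exact ⟨k + i, by rw [zpow_add_one, hk, r_mul_r]⟩
  | pred j ih =>
    obtain ⟨k, hk⟩ := ih
    refine ⟨k - i, ?_⟩
    rw [zpow_sub_one, hk]
    show r k * r (-i) = r (k - i)
    rw [r_mul_r, sub_eq_add_neg]

/-- In the dihedral group of order `2m`, a rotation of order `m` and a reflection generate. -/
theorem closure_r_sr {m : ℕ} [NeZero m] (i : ZMod m)
    (hi : orderOf (r i : DihedralGroup m) = m) :
    closure ({r i, sr 0} : Set (DihedralGroup m)) = ⊤ := by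
  have hrH : r i ∈ closure ({r i, sr 0} : Set (DihedralGroup m)) := subset_closure (by simp)
  have hsH : sr 0 ∈ closure ({r i, sr 0} : Set (DihedralGroup m)) := subset_closure (by simp)
  have hle : zpowers (r i : DihedralGroup m) ≤ closure ({r i, sr 0} : Set (DihedralGroup m)) :=
    (zpowers_le).mpr hrH
  have hcz : Nat.card (zpowers (r i : DihedralGroup m)) = m := by rw [Nat.card_zpowers, hi]
  have hdvd1 : m ∣ Nat.card (closure ({r i, sr 0} : Set (DihedralGroup m))) := by
    have := Subgroup.card_dvd_of_le hle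
    rwa [hcz] at this
  have hdvd2 : Nat.card (closure ({r i, sr 0} : Set (DihedralGroup m))) ∣ 2 * m := by
    have := Subgroup.card_subgroup_dvd_card (closure ({r i, sr 0} : Set (DihedralGroup m)))
    rwa [DihedralGroup.nat_card] at this
  have hne : Nat.card (closure ({r i, sr 0} : Set (DihedralGroup m))) ≠ m := by
    intro hc
    have heq : zpowers (r i : DihedralGroup m) = closure ({r i, sr 0} : Set (DihedralGroup m)) :=
      Subgroup.eq_of_le_of_card_ge hle (by rw [hc, hcz])
    rw [← heq] at hsH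
    obtain ⟨j, hj⟩ := mem_zpowers_iff.mp hsH
    obtain ⟨k, hk⟩ := zpow_r i j
    rw [hk] at hj
    exact absurd hj (by simp)
  have hm : 0 < m := NeZero.pos m
  obtain ⟨c, hc⟩ := hdvd1
  have hc2 : c ∣ 2 := by
    rw [hc, mul_comm 2 m] at hdvd2
    exact Nat.dvd_of_mul_dvd_mul_left hm hdvd2
  have hc' : c = 1 ∨ c = 2 := by
    have := Nat.le_of_dvd (by norm_num) hc2
    interval_cases c
    · simp at hc2
    · left; rfl
    · right; rfl
  rcases hc' with h | h
  · exact absurd (by rw [hc, h, mul_one]) hne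
  · apply Subgroup.eq_top_of_card_eq
    rw [hc, h, DihedralGroup.nat_card, mul_comm]

/-- **S4481-HYP.** -/
theorem stmtHyp : Cfsg.Agent.H81.DihB.StmtHyp.{u} := by
  intro G _ n hn P ⟨e⟩ σ hσP hσo
  have hm4 : 4 ≤ 2 ^ (n - 1) := by
    calc 4 = 2 ^ 2 := by norm_num
      _ ≤ 2 ^ (n - 1) := Nat.pow_le_pow_right (by norm_num) (by omega)
  have hne0 : NeZero (2 ^ (n - 1)) := ⟨by positivity⟩
  have hs : orderOf (e ⟨σ, hσP⟩) = 2 ^ (n - 1) := by
    rw [MulEquiv.orderOf_eq, Subgroup.orderOf_mk, hσo]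
  obtain ⟨i, hi⟩ : ∃ i : ZMod (2 ^ (n - 1)), e ⟨σ, hσP⟩ = r i := by
    cases hcase : e ⟨σ, hσP⟩ with
    | r i => exact ⟨i, rfl⟩
    | sr i =>
      rw [hcase, orderOf_sr] at hs
      omega
  rw [hi] at hs
  have hgenD := closure_r_sr i hs
  refine ⟨((e.symm (sr 0) : ↥(P : Subgroup G)) : G), ⟨hn, hσP, (e.symm (sr 0)).2, hσo, ?_, ?_, ?_⟩⟩
  · rw [Subgroup.orderOf_coe, MulEquiv.orderOf_eq]
    exact orderOf_sr 0
  · have h1 : e.symm (sr 0) * ⟨σ, hσP⟩ * (e.symm (sr 0))⁻¹ = (⟨σ, hσP⟩ : ↥(P : Subgroup G))⁻¹ := by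
      apply e.injective
      rw [map_mul, map_mul, map_inv, map_inv, hi, MulEquiv.apply_symm_apply]
      show sr 0 * r i * sr 0 = r (-i)
      rw [sr_mul_r, sr_mul_sr]
      simp
    exact congrArg Subtype.val h1
  · have h2 : closure ({⟨σ, hσP⟩, e.symm (sr 0)} : Set ↥(P : Subgroup G)) = ⊤ := by
      apply Subgroup.map_injective (f := e.toMonoidHom) e.injective
      rw [MonoidHom.map_closure, Subgroup.map_top_of_surjective _ e.surjective]
      have himg : (e.toMonoidHom : ↥(P : Subgroup G) → DihedralGroup (2 ^ (n - 1))) ''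
          {⟨σ, hσP⟩, e.symm (sr 0)} = {r i, sr 0} := by
        rw [Set.image_pair]
        show {e ⟨σ, hσP⟩, e (e.symm (sr 0))} = _
        rw [hi, MulEquiv.apply_symm_apply]
      rw [himg]
      exact hgenD
    have h3 := congrArg (Subgroup.map (P : Subgroup G).subtype) h2
    rw [MonoidHom.map_closure, ← MonoidHom.range_eq_map, Subgroup.range_subtype,
      Set.image_pair] at h3
    exact h3

end Cfsg.Agent.H70.DihB
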