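import Mathlib
import Cfsg.Agent.H99.ElSTR
import Cfsg.Agent.H4.ElMASCHKE

/-!
# S5958-LINE: a basis permuted by an element of prime order (helper70)
-/

set_option autoImplicit false

namespace Cfsg.Agent.H70.El

open Cfsg.Agent.H99.El

variable {F : Type*} [Field F] {V : Type*} [AddCommGroup V] [Module F V] [FiniteDimensional F V]

omit [FiniteDimensional F V] in
theorem pow_apply_fixed (T : Module.End F V) {u : V} (hu : T u = u) (i : ℕ) : (T ^ i) u = u := by
  induction i with
  | zero => simp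
  | succ i ih => rw [pow_succ, Module.End.mul_apply, hu, ih]

omit [FiniteDimensional F V] in
theorem pow_apply_mem (T : Module.End F V) {M : Submodule F V} (hM : ∀ v ∈ M, T v ∈ M) {m : V}
    (hm : m ∈ M) (i : ℕ) : (T ^ i) m ∈ M := by
  induction i with
  | zero => simpa using hm
  | succ i ih => rw [pow_succ', Module.End.mul_apply]; exact hM _ ih

omit [FiniteDimensional F V] in
theorem pow_mod_eq (T : Module.End F V) (r : ℕ) (hT : T ^ r = 1) (n : ℕ) : T ^ (n % r) = T ^ n := by
  conv_rhs => rw [← Nat.div_add_mod n r]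
  rw [pow_add, pow_mul, hT, one_pow, one_mul]

omit [FiniteDimensional F V] in
/-- the sum of the `T`-orbit of a vector is fixed -/
theorem sum_pow_fixed (T : Module.End F V) (r : ℕ) (hT : T ^ r = 1) (m : V) :
    T (∑ i ∈ Finset.range r, (T ^ i) m) = ∑ i ∈ Finset.range r, (T ^ i) m := by
  rw [map_sum]
  have h1 : ∑ i ∈ Finset.range r, T ((T ^ i) m) = ∑ i ∈ Finset.range r, (T ^ (i + 1)) m :=
    Finset.sum_congr rfl fun i _ => by rw [pow_succ', Module.End.mul_apply]
  rw [h1]
  have h2 := Finset.sum_range_succ' (fun i => (T ^ i) m) r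
  have h3 := Finset.sum_range_succ (fun i => (T ^ i) m) r
  rw [h3, hT] at h2
  simp only [pow_zero, Module.End.one_apply] at h2
  exact (add_right_cancel h2).symm

/-- the fixed vectors of a direct sum of invariant subspaces -/
theorem inf_ker_sup (T : Module.End F V) (N W : Submodule F V) (hN : ∀ v ∈ N, T v ∈ N)
    (hW : ∀ v ∈ W, T v ∈ W) (hdisj : N ⊓ W = ⊥) :
    (N ⊔ W) ⊓ LinearMap.ker (T - 1) =
      (N ⊓ LinearMap.ker (T - 1)) ⊔ (W ⊓ LinearMap.ker (T - 1)) := by
  apply le_antisymm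
  · rintro x ⟨hx, hxK⟩
    obtain ⟨n, hn, w, hw, rfl⟩ := Submodule.mem_sup.mp hx
    have hfix := (mem_ker_sub_one T _).mp hxK
    rw [map_add] at hfix
    have h1 : T n - n = w - T w := by
      have : T n + T w - (n + T w) = n + w - (n + T w) := by rw [hfix]
      simpa [add_sub_add_right_eq_sub, add_sub_add_left_eq_sub] using this
    have h2 : T n - n ∈ N ⊓ W :=
      ⟨N.sub_mem (hN n hn) hn, by rw [h1]; exact W.sub_mem hw (hW w hw)⟩
    rw [hdisj, Submodule.mem_bot, sub_eq_zero] at h2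
    have h3 : T w = w := by
      rw [h2, sub_self] at h1
      exact (sub_eq_zero.mp h1.symm).symm
    exact Submodule.add_mem _
      (Submodule.mem_sup_left ⟨hn, (mem_ker_sub_one T n).mpr h2⟩)
      (Submodule.mem_sup_right ⟨hw, (mem_ker_sub_one T w).mpr h3⟩)
  · exact sup_le (inf_le_inf_right _ le_sup_left) (inf_le_inf_right _ le_sup_right)

/-- the cyclic block: `T ^ i (m + u)`, `i < r`, for `m` in a minimal invariant subspace `M`
of dimension `r - 1` without fixed vectors and a fixed vector `u ≠ 0` -/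
theorem cyc_block (T : Module.End F V) (r : ℕ) [Fact r.Prime] (hrF : (r : F) ≠ 0)
    (hT : T ^ r = 1) (M : Submodule F V) (hMinv : ∀ v ∈ M, T v ∈ M)
    (hfix : ∀ v ∈ M, T v = v → v = 0)
    (hmin : ∀ M' : Submodule F V, M' ≤ M → (∀ v ∈ M', T v ∈ M') → M' = ⊥ ∨ M' = M)
    (hMr : Module.finrank F M = r - 1) (m : V) (hm : m ∈ M) (hm0 : m ≠ 0) (u : V)
    (hu : T u = u) (hu0 : u ≠ 0) :
    LinearIndependent F (fun k : ZMod r => (T ^ k.val) (m + u)) ∧
      Submodule.span F (Set.range (fun k : ZMod r => (T ^ k.val) (m + u))) =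
        M ⊔ Submodule.span F {u} ∧
      ∀ k : ZMod r, T ((T ^ k.val) (m + u)) = (T ^ (k + 1).val) (m + u) := by
  have hr : r.Prime := Fact.out
  have : Fact (1 < r) := ⟨hr.one_lt⟩
  have hv : ∀ i : ℕ, (T ^ i) (m + u) = (T ^ i) m + u := fun i => by
    rw [map_add, pow_apply_fixed T hu]
  have hshift : ∀ k : ZMod r, T ((T ^ k.val) (m + u)) = (T ^ (k + 1).val) (m + u) := by
    intro k
    rw [ZMod.val_add, ZMod.val_one, pow_mod_eq T r hT, pow_succ', Module.End.mul_apply]
  set N' := Submodule.span F (Set.range (fun k : ZMod r => (T ^ k.val) (m + u))) with hN'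
  have hgen : ∀ i : ℕ, (T ^ i) (m + u) ∈ N' := by
    intro i
    have h1 : (T ^ i) (m + u) = (T ^ ((i : ZMod r)).val) (m + u) := by
      rw [ZMod.val_natCast, pow_mod_eq T r hT]
    rw [h1]
    exact Submodule.subset_span ⟨(i : ZMod r), rfl⟩
  have hN'inv : ∀ x ∈ N', T x ∈ N' := by
    intro x hx
    have h1 : N'.map T ≤ N' := by
      rw [hN', Submodule.map_span, Submodule.span_le]
      rintro _ ⟨_, ⟨k, rfl⟩, rfl⟩
      show T ((T ^ k.val) (m + u)) ∈ _
      rw [hshift k]
      exact Submodule.subset_span ⟨k + 1, rfl⟩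
    exact h1 (Submodule.mem_map_of_mem hx)
  -- the orbit sum of `m` vanishes
  have hsum0 : ∑ i ∈ Finset.range r, (T ^ i) m = 0 :=
    hfix _ (Submodule.sum_mem _ fun i _ => pow_apply_mem T hMinv hm i) (sum_pow_fixed T r hT m)
  have huN' : u ∈ N' := by
    have h1 : ∑ i ∈ Finset.range r, (T ^ i) (m + u) ∈ N' :=
      Submodule.sum_mem _ fun i _ => hgen i
    have h2 : ∑ i ∈ Finset.range r, (T ^ i) (m + u) = (r : F) • u := by
      rw [Finset.sum_congr rfl fun i _ => hv i, Finset.sum_add_distrib, hsum0, zero_add,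
        Finset.sum_const, Finset.card_range, Nat.cast_smul_eq_nsmul]
    rw [h2] at h1
    have h3 := N'.smul_mem ((r : F)⁻¹) h1
    rwa [smul_smul, inv_mul_cancel₀ hrF, one_smul] at h3
  have hmN' : m ∈ N' := by
    have h1 := hgen 0
    rw [pow_zero, Module.End.one_apply] at h1
    have h2 := N'.sub_mem h1 huN'
    rwa [add_sub_cancel_right] at h2
  have hMN' : M ≤ N' := by
    rcases hmin (N' ⊓ M) inf_le_right
      (fun v hv => ⟨hN'inv v hv.1, hMinv v hv.2⟩) with h | h
    · exfalso
      have : m ∈ N' ⊓ M := ⟨hmN', hm⟩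
      rw [h, Submodule.mem_bot] at this
      exact hm0 this
    · rw [← h]; exact inf_le_left
  have hspan : N' = M ⊔ Submodule.span F {u} := by
    apply le_antisymm
    · rw [hN', Submodule.span_le]
      rintro _ ⟨k, rfl⟩
      show (T ^ k.val) (m + u) ∈ _
      rw [hv]
      exact Submodule.add_mem _ (Submodule.mem_sup_left (pow_apply_mem T hMinv hm _))
        (Submodule.mem_sup_right (Submodule.mem_span_singleton_self u))
    · refine sup_le hMN' ?_
      rw [Submodule.span_singleton_le_iff_mem]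
      exact huN'
  have hdisj : M ⊓ Submodule.span F {u} = ⊥ := by
    rw [eq_bot_iff]
    rintro x ⟨hxM, hxu⟩
    obtain ⟨c, rfl⟩ := Submodule.mem_span_singleton.mp hxu
    have h1 : T (c • u) = c • u := by rw [map_smul, hu]
    rw [Submodule.mem_bot]
    exact hfix _ hxM h1
  have hfin : Module.finrank F ↥(M ⊔ Submodule.span F {u}) = r := by
    have h1 := Submodule.finrank_sup_add_finrank_inf_eq M (Submodule.span F {u})
    rw [hdisj, finrank_bot, add_zero, hMr, finrank_span_singleton hu0] at h1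
    have := hr.one_lt
    omega
  refine ⟨?_, hspan, hshift⟩
  rw [linearIndependent_iff_card_eq_finrank_span, ZMod.card, Set.finrank, ← hN', hspan, hfin]

/-- a `T`-invariant subspace with enough fixed vectors has a basis permuted by `T` -/
theorem exists_perm_basis [Fintype F] (T : Module.End F V) (r : ℕ) (hr : r.Prime)
    (hrF : (r : F) ≠ 0) (hT : T ^ r = 1)
    (hc : orderOf (Fintype.card F : ZMod r) = r - 1) (n : ℕ) :
    ∀ W : Submodule F V, Module.finrank F W = n → (∀ v ∈ W, T v ∈ W) →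
      Module.finrank F W ≤ Module.finrank F ↥(W ⊓ LinearMap.ker (T - 1)) * r →
      ∃ (ι : Type) (_ : Fintype ι) (b : ι → V) (π : Equiv.Perm ι),
        LinearIndependent F b ∧ Submodule.span F (Set.range b) = W ∧
          ∀ i, T (b i) = b (π i) := by
  have : Fact r.Prime := ⟨hr⟩
  induction n using Nat.strong_induction_on with
  | _ n ih =>
  intro W hWn hWinv hWle
  by_cases hWK : W ≤ LinearMap.ker (T - 1)
  · let bs := Module.finBasis F W
    refine ⟨Fin (Module.finrank F W), inferInstance, fun i => (bs i : V), 1, ?_, ?_, ?_⟩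
    · exact bs.linearIndependent.map' W.subtype (Submodule.ker_subtype W)
    · have h1 : Set.range (fun i => (bs i : V)) = W.subtype '' (Set.range bs) := by
        rw [← Set.range_comp]; rfl
      rw [h1, ← Submodule.map_span, bs.span_eq, Submodule.map_subtype_top]
    · intro i
      exact (mem_ker_sub_one T _).mp (hWK (bs i).2)
  · have hUinv : ∀ v ∈ W ⊓ LinearMap.ker (T - 1), T v ∈ W ⊓ LinearMap.ker (T - 1) := by
      intro v hv
      have h1 := (mem_ker_sub_one T v).mp hv.2
      rw [h1]; exact hv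
    have hW0 : W ≠ ⊥ := by
      rintro rfl
      exact hWK bot_le
    have hWpos : 0 < Module.finrank F W :=
      Nat.pos_of_ne_zero (fun h => hW0 (Submodule.finrank_eq_zero.mp h))
    have hUpos : 0 < Module.finrank F ↥(W ⊓ LinearMap.ker (T - 1)) := by
      by_contra h
      have h0 : Module.finrank F ↥(W ⊓ LinearMap.ker (T - 1)) = 0 := by omega
      rw [h0, zero_mul] at hWle
      omega
    have hU0 : W ⊓ LinearMap.ker (T - 1) ≠ ⊥ := fun h => by
      rw [h, finrank_bot] at hUpos; omega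
    obtain ⟨u, hu, hu0⟩ := Submodule.exists_mem_ne_zero_of_ne_bot hU0
    have huT : T u = u := (mem_ker_sub_one T u).mp hu.2
    obtain ⟨U', hU'inv, hU'c⟩ :=
      Cfsg.Agent.H4.El.exists_invariant_compl T r hrF hT (W ⊓ LinearMap.ker (T - 1)) hUinv
    have hCinv : ∀ v ∈ U' ⊓ W, T v ∈ U' ⊓ W := fun v hv => ⟨hU'inv v hv.1, hWinv v hv.2⟩
    have hWdec : W = (W ⊓ LinearMap.ker (T - 1)) ⊔ (U' ⊓ W) := by
      have h1 := sup_inf_assoc_of_le U' (inf_le_left : W ⊓ LinearMap.ker (T - 1) ≤ W)
      rw [hU'c.sup_eq_top, top_inf_eq] at h1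
      exact h1
    have hC0 : U' ⊓ W ≠ ⊥ := by
      intro h
      rw [h, sup_bot_eq] at hWdec
      exact hWK (inf_eq_left.mp hWdec.symm)
    have hCK : ∀ v ∈ U' ⊓ W, T v = v → v = 0 := by
      intro v hv hfix
      have h1 : v ∈ (W ⊓ LinearMap.ker (T - 1)) ⊓ U' :=
        ⟨⟨hv.2, (mem_ker_sub_one T v).mpr hfix⟩, hv.1⟩
      rw [hU'c.inf_eq_bot, Submodule.mem_bot] at h1
      exact h1
    obtain ⟨M, hMC, hM0, hMinv, hMmin⟩ := exists_min_invariant T (U' ⊓ W) hCinv hC0
    have hMfix : ∀ v ∈ M, T v = v → v = 0 := fun v hv => hCK v (hMC hv)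
    have hMr : Module.finrank F M = r - 1 := by
      rw [← hc]; exact finrank_min_invariant T r hr hrF hT M hM0 hMinv hMfix hMmin
    obtain ⟨m, hm, hm0⟩ := Submodule.exists_mem_ne_zero_of_ne_bot hM0
    obtain ⟨hvLI, hvspan, hvshift⟩ :=
      cyc_block T r hrF hT M hMinv hMfix hMmin hMr m hm hm0 u huT hu0
    have hNW : M ⊔ Submodule.span F {u} ≤ W :=
      sup_le (hMC.trans inf_le_right)
        (by rw [Submodule.span_singleton_le_iff_mem]; exact hu.1)
    have hSinv : ∀ v ∈ Submodule.span F {u}, T v ∈ Submodule.span F {u} := by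
      intro v hv
      obtain ⟨c, rfl⟩ := Submodule.mem_span_singleton.mp hv
      rw [map_smul, huT]; exact hv
    have hNinv : ∀ v ∈ M ⊔ Submodule.span F {u}, T v ∈ M ⊔ Submodule.span F {u} := by
      intro v hv
      obtain ⟨a, ha, s, hs, rfl⟩ := Submodule.mem_sup.mp hv
      rw [map_add]
      exact Submodule.add_mem _ (Submodule.mem_sup_left (hMinv a ha))
        (Submodule.mem_sup_right (hSinv s hs))
    have hNfin : Module.finrank F ↥(M ⊔ Submodule.span F {u}) = r := by
      rw [← hvspan, finrank_span_eq_card hvLI, ZMod.card]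
    obtain ⟨U'', hU''inv, hU''c⟩ :=
      Cfsg.Agent.H4.El.exists_invariant_compl T r hrF hT (M ⊔ Submodule.span F {u}) hNinv
    have hW'inv : ∀ v ∈ U'' ⊓ W, T v ∈ U'' ⊓ W :=
      fun v hv => ⟨hU''inv v hv.1, hWinv v hv.2⟩
    have hWdec2 : W = (M ⊔ Submodule.span F {u}) ⊔ (U'' ⊓ W) := by
      have h1 := sup_inf_assoc_of_le U'' hNW
      rw [hU''c.sup_eq_top, top_inf_eq] at h1
      exact h1
    have hNW' : (M ⊔ Submodule.span F {u}) ⊓ (U'' ⊓ W) = ⊥ := by
      rw [eq_bot_iff, ← hU''c.inf_eq_bot]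
      exact inf_le_inf_left _ inf_le_left
    have hfinW : Module.finrank F W = r + Module.finrank F ↥(U'' ⊓ W) := by
      have h1 := Submodule.finrank_sup_add_finrank_inf_eq (M ⊔ Submodule.span F {u}) (U'' ⊓ W)
      rw [← hWdec2, hNW', finrank_bot, add_zero, hNfin] at h1
      exact h1
    have hMSdisj : M ⊓ Submodule.span F {u} = ⊥ := by
      rw [eq_bot_iff]
      rintro x ⟨hxM, hxu⟩
      rw [Submodule.mem_bot]
      obtain ⟨c, rfl⟩ := Submodule.mem_span_singleton.mp hxu
      exact hMfix _ hxM (by rw [map_smul, huT])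
    have hNK : (M ⊔ Submodule.span F {u}) ⊓ LinearMap.ker (T - 1) = Submodule.span F {u} := by
      rw [inf_ker_sup T M _ hMinv hSinv hMSdisj]
      have h1 : M ⊓ LinearMap.ker (T - 1) = ⊥ := by
        rw [eq_bot_iff]
        rintro x ⟨hxM, hxK⟩
        rw [Submodule.mem_bot]
        exact hMfix x hxM ((mem_ker_sub_one T x).mp hxK)
      have h2 : Submodule.span F {u} ⊓ LinearMap.ker (T - 1) = Submodule.span F {u} := by
        apply inf_eq_left.mpr
        rw [Submodule.span_singleton_le_iff_mem]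
        exact hu.2
      rw [h1, h2, bot_sup_eq]
    have hfinK : Module.finrank F ↥(W ⊓ LinearMap.ker (T - 1)) =
        1 + Module.finrank F ↥((U'' ⊓ W) ⊓ LinearMap.ker (T - 1)) := by
      have h0 : W ⊓ LinearMap.ker (T - 1) =
          ((M ⊔ Submodule.span F {u}) ⊓ LinearMap.ker (T - 1)) ⊔
            ((U'' ⊓ W) ⊓ LinearMap.ker (T - 1)) := by
        rw [← inf_ker_sup T _ _ hNinv hW'inv hNW', ← hWdec2]
      have h1 := Submodule.finrank_sup_add_finrank_inf_eq
        ((M ⊔ Submodule.span F {u}) ⊓ LinearMap.ker (T - 1))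
        ((U'' ⊓ W) ⊓ LinearMap.ker (T - 1))
      have h2 : ((M ⊔ Submodule.span F {u}) ⊓ LinearMap.ker (T - 1)) ⊓
          ((U'' ⊓ W) ⊓ LinearMap.ker (T - 1)) = ⊥ := by
        rw [eq_bot_iff, ← hNW']
        exact inf_le_inf inf_le_left inf_le_left
      rw [← h0, h2, finrank_bot, add_zero, hNK, finrank_span_singleton hu0] at h1
      exact h1
    have hlt : Module.finrank F ↥(U'' ⊓ W) < n := by
      rw [← hWn, hfinW]; have := hr.pos; omega
    have hle' : Module.finrank F ↥(U'' ⊓ W) ≤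
        Module.finrank F ↥((U'' ⊓ W) ⊓ LinearMap.ker (T - 1)) * r := by
      rw [hfinW, hfinK, add_mul, one_mul] at hWle
      omega
    obtain ⟨ι', hι', b', π', hb'LI, hb'span, hb'T⟩ := ih _ hlt (U'' ⊓ W) rfl hW'inv hle'
    refine ⟨ZMod r ⊕ ι', inferInstance,
      Sum.elim (fun k : ZMod r => (T ^ k.val) (m + u)) b',
      Equiv.sumCongr (Equiv.addRight 1) π', ?_, ?_, ?_⟩
    · apply LinearIndependent.sum_type hvLI hb'LI
      rw [hvspan, hb'span, disjoint_iff]
      exact hNW'
    · rw [Set.Sum.elim_range, Submodule.span_union, hvspan, hb'span]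
      exact hWdec2.symm
    · rintro (k | i)
      · exact hvshift k
      · exact hb'T i

theorem exists_line_decomposition [Fintype F] (T : Module.End F V) (r : ℕ) (hr : r.Prime)
    (hrF : (r : F) ≠ 0) (hT : T ^ r = 1) (hc : orderOf (Fintype.card F : ZMod r) = r - 1)
    (t : ℕ) (hV : Module.finrank F V = t) (hn : t ≤ (t % (r - 1)) * r) :
    ∃ D : Fin t → Submodule F V, (∀ j, Module.finrank F (D j) = 1) ∧ iSupIndep D ∧
      (⨆ j, D j) = ⊤ ∧ ∃ σ : Equiv.Perm (Fin t), ∀ j, (D j).map T = D (σ j) := by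
  have htop : ∀ v ∈ (⊤ : Submodule F V), T v ∈ (⊤ : Submodule F V) := fun _ _ => trivial
  obtain ⟨a, ha⟩ := finrank_invariant_mod T r hr hrF hT ⊤ htop
  rw [finrank_top, hV, hc] at ha
  have hle : Module.finrank F (⊤ : Submodule F V) ≤
      Module.finrank F ↥((⊤ : Submodule F V) ⊓ LinearMap.ker (T - 1)) * r := by
    rw [finrank_top, hV]
    have h1 : t % (r - 1) ≤ Module.finrank F ↥((⊤ : Submodule F V) ⊓ LinearMap.ker (T - 1)) := by
      conv_lhs => rw [ha]
      rw [Nat.add_mul_mod_self_right]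
      exact Nat.mod_le _ _
    exact hn.trans (Nat.mul_le_mul_right r h1)
  obtain ⟨ι, hι, b, π, hbLI, hbspan, hbT⟩ :=
    exists_perm_basis T r hr hrF hT hc _ ⊤ rfl htop hle
  have hcard : Fintype.card ι = t := by
    rw [← finrank_span_eq_card hbLI, hbspan, finrank_top, hV]
  let e : ι ≃ Fin t := Fintype.equivFinOfCardEq hcard
  refine ⟨fun j => Submodule.span F {b (e.symm j)}, ?_, ?_, ?_, e.symm.trans (π.trans e), ?_⟩
  · intro j
    exact finrank_span_singleton (hbLI.ne_zero _)
  · exact (hbLI.comp e.symm e.symm.injective).iSupIndep_span_singleton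
  · have h1 : (⨆ j, Submodule.span F {b (e.symm j)}) =
        Submodule.span F (Set.range (b ∘ e.symm)) := by
      rw [Submodule.span_range_eq_iSup]; rfl
    rw [h1, e.symm.surjective.range_comp b, hbspan]
  · intro j
    rw [Submodule.map_span, Set.image_singleton, hbT]
    simp

end Cfsg.Agent.H70.El
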