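import Mathlib
import Cfsg.Agent.S1018

set_option autoImplicit false

namespace Cfsg.Agent.H70.Fixc

/-- S0496-FIXC: if `P` is a Sylow `p`-subgroup of order `p` and `c` centralizes `P`, then the
number of cosets of `N(P)` fixed by `c` is `1` modulo `p`. -/
theorem card_fixedBy_centralizer_mod {G : Type*} [Group G] [Finite G] (p : ℕ) [Fact p.Prime]
    (P : Sylow p G) (hP : Nat.card (P : Subgroup G) = p) (c : G)
    (hc : c ∈ Subgroup.centralizer ((P : Subgroup G) : Set G)) :
    Nat.card (MulAction.fixedBy (G ⧸ Subgroup.normalizer ((P : Subgroup G) : Set G)) c) % p = 1 := by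
  classical
  have hp : p.Prime := Fact.out
  have hcc := Subgroup.mem_centralizer_iff.1 hc
  have hcN : c ∈ Subgroup.normalizer ((P : Subgroup G) : Set G) :=
    Subgroup.centralizer_le_normalizer _ hc
  -- the invariant subset
  let S : SubMulAction (↥(P : Subgroup G)) (G ⧸ Subgroup.normalizer ((P : Subgroup G) : Set G)) :=
    { carrier := MulAction.fixedBy (G ⧸ Subgroup.normalizer ((P : Subgroup G) : Set G)) c
      smul_mem' := by
        rintro ⟨h, hh⟩ x hx
        rw [MulAction.mem_fixedBy] at hx ⊢
        show c • (h • x) = h • x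
        rw [smul_smul, ← hcc h hh, ← smul_smul, hx] }
  have key := P.2.card_modEq_card_fixedPoints (↥S)
  have hcard : Nat.card ↥S =
      Nat.card (MulAction.fixedBy (G ⧸ Subgroup.normalizer ((P : Subgroup G) : Set G)) c) := rfl
  -- an element of order p in P
  have hnt : Nontrivial (↥(P : Subgroup G)) := by
    rw [← Finite.one_lt_card_iff_nontrivial, hP]
    exact hp.one_lt
  obtain ⟨y, hy⟩ := exists_ne (1 : ↥(P : Subgroup G))
  have hoy : orderOf (y : G) = p := by
    rw [Subgroup.orderOf_coe]
    have h1 : orderOf y ∣ p := by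
      have h0 := orderOf_dvd_natCard y
      rwa [hP] at h0
    rcases (Nat.dvd_prime hp).1 h1 with h | h
    · exact absurd (orderOf_eq_one_iff.1 h) hy
    · exact h
  have h1018 := (Cfsg.Agent.S1018.result p P hP).1 (y : G) hoy
  rw [Nat.card_eq_one_iff_unique] at h1018
  obtain ⟨hsub, -⟩ := h1018
  -- the base coset
  have hbase_c : c • ((1 : G) : G ⧸ Subgroup.normalizer ((P : Subgroup G) : Set G)) =
      ((1 : G) : G ⧸ Subgroup.normalizer ((P : Subgroup G) : Set G)) := by
    show ((c * 1 : G) : G ⧸ Subgroup.normalizer ((P : Subgroup G) : Set G)) = _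
    rw [QuotientGroup.eq]
    simpa using hcN
  have hbase_P : ∀ h : ↥(P : Subgroup G),
      (h : G) • ((1 : G) : G ⧸ Subgroup.normalizer ((P : Subgroup G) : Set G)) =
      ((1 : G) : G ⧸ Subgroup.normalizer ((P : Subgroup G) : Set G)) := by
    intro h
    show (((h : G) * 1 : G) : G ⧸ Subgroup.normalizer ((P : Subgroup G) : Set G)) = _
    rw [QuotientGroup.eq]
    simpa using Subgroup.le_normalizer h.2
  have hfix : Nat.card (MulAction.fixedPoints (↥(P : Subgroup G)) ↥S) = 1 := by
    rw [Nat.card_eq_one_iff_unique]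
    constructor
    · constructor
      rintro ⟨⟨a, ha⟩, ha'⟩ ⟨⟨b, hb⟩, hb'⟩
      have e1 : (y : G) • a = a := by
        have := ha' y
        exact congrArg Subtype.val this
      have e2 : (y : G) • b = b := by
        have := hb' y
        exact congrArg Subtype.val this
      have := @Subsingleton.elim _ hsub ⟨a, e1⟩ ⟨b, e2⟩
      have hab : a = b := congrArg Subtype.val this
      subst hab
      rfl
    · refine ⟨⟨⟨((1 : G) : G ⧸ Subgroup.normalizer ((P : Subgroup G) : Set G)), hbase_c⟩, ?_⟩⟩
      intro h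
      apply Subtype.ext
      exact hbase_P h
  rw [hfix, hcard] at key
  have := key
  unfold Nat.ModEq at this
  rw [this]
  exact Nat.mod_eq_of_lt hp.one_lt

end Cfsg.Agent.H70.Fixc
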