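import Cfsg.Agent.H20.HtDefs

/-!
# S3371-RANK2 (helper70, piece for helper20): a `p`-group with two different subgroups of order
`p` contains commuting `z, x` of order `p` with `x ∉ ⟨z⟩`.
-/

set_option autoImplicit false

namespace Cfsg.Agent.H70.Ht

universe u

theorem rank2 : Cfsg.Agent.H20.Ht.StmtRank2.{u} := by
  intro G _ _ p _ hG hne
  push Not at hne
  obtain ⟨H, K, hH, hK, hHK⟩ := hne
  have hp : p.Prime := Fact.out
  have hnt : Nontrivial G := by
    by_contra hn
    rw [not_nontrivial_iff_subsingleton] at hn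
    have : Nat.card H = 1 := Nat.card_eq_one_iff_unique.2 ⟨inferInstance, ⟨1⟩⟩
    rw [hH] at this
    exact hp.one_lt.ne' this
  have hcnt : Nontrivial (Subgroup.center G) := hG.center_nontrivial
  have hpc : p ∣ Nat.card (Subgroup.center G) := by
    obtain ⟨n, hn⟩ := (hG.to_subgroup (Subgroup.center G)).exists_card_eq
    rw [hn]
    rcases n with _ | n
    · rw [pow_zero] at hn
      have := (Nat.card_eq_one_iff_unique.1 hn).1
      exact absurd hcnt (not_nontrivial _)
    · exact dvd_pow_self p (Nat.succ_ne_zero n)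
  obtain ⟨z0, hz0⟩ := exists_prime_orderOf_dvd_card' p hpc
  have hzord : orderOf (z0 : G) = p := by rw [Subgroup.orderOf_coe]; exact hz0
  have hzc : ∀ g : G, g * (z0 : G) = (z0 : G) * g := fun g =>
    Subgroup.mem_center_iff.1 z0.2 g
  have hz1 : (z0 : G) ≠ 1 := by
    intro h
    rw [h, orderOf_one] at hzord
    exact hp.one_lt.ne hzord
  have hzp : (z0 : G) ^ p = 1 := by rw [← hzord]; exact pow_orderOf_eq_one _
  have hZcard : Nat.card (Subgroup.zpowers (z0 : G)) = p := by
    rw [Nat.card_zpowers, hzord]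
  -- a subgroup of order `p` different from `⟨z⟩` gives `x`
  have key : ∀ L : Subgroup G, Nat.card L = p → L ≠ Subgroup.zpowers (z0 : G) →
      ∃ x : G, x ^ p = 1 ∧ x ∉ Subgroup.zpowers (z0 : G) := by
    intro L hL hLZ
    by_contra hcon
    push Not at hcon
    apply hLZ
    have hle : L ≤ Subgroup.zpowers (z0 : G) := by
      intro x hx
      apply hcon x
      have h1 : (⟨x, hx⟩ : L) ^ Nat.card L = 1 := pow_card_eq_one'
      rw [hL] at h1
      exact congrArg Subtype.val h1
    exact Subgroup.eq_of_le_of_card_ge hle (by rw [hL, hZcard])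
  have hex : ∃ x : G, x ^ p = 1 ∧ x ∉ Subgroup.zpowers (z0 : G) := by
    by_cases h1 : H = Subgroup.zpowers (z0 : G)
    · apply key K hK
      intro h2
      exact hHK (h1.trans h2.symm)
    · exact key H hH h1
  obtain ⟨x, hxp, hxz⟩ := hex
  exact ⟨z0, x, hz1, hzp, hxp, hxz, (hzc x).symm⟩

end Cfsg.Agent.H70.Ht
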