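import Cfsg.Agent.H20.HtDefs
import Cfsg.Agent.H76.Imprim

/-!
# S3371-SW1 (helper70, piece for helper20): for `p = 2` a noncyclic normal abelian subgroup of a
faithful irreducible linear `2`-group in odd characteristic gives a swap structure.
-/

set_option autoImplicit false

namespace Cfsg.Agent.H70.Ht

open Cfsg.Agent.H20.Ht

universe u v

theorem swap1 : StmtSwap1.{u, v} := by
  intro q _ V _ _ _ _ G _ _ ρ hG hq hinj hirr A hAn hAc hnc
  obtain ⟨z, a, hz1, hz2, hzc, ha2, haz, hconj⟩ :=
    Cfsg.Agent.H76.Imprim.exists_zv 2 hG A hAn hAc hnc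
  have hq' : q.Prime := Fact.out
  have h2 : (2 : ZMod q) ≠ 0 := by
    intro h
    have h' : ((2 : ℕ) : ZMod q) = 0 := by exact_mod_cast h
    rw [ZMod.natCast_eq_zero_iff] at h'
    exact hq ((Nat.prime_dvd_prime_iff_eq hq' Nat.prime_two).1 h')
  have hmul : ∀ (g h : G) (w : V), ρ (g * h) w = ρ g (ρ h w) := by
    intro g h w
    rw [map_mul]
    rfl
  have hone : ∀ w : V, ρ 1 w = w := by
    intro w
    rw [map_one]
    rfl
  have hzz : ∀ w : V, ρ z (ρ z w) = w := by
    intro w
    rw [← hmul, ← pow_two, hz2, hone]
  let Fz : Submodule (ZMod q) V :=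
    { carrier := {w | ρ z w = w}
      add_mem' := by
        intro x y hx hy
        show ρ z (x + y) = x + y
        rw [map_add, show ρ z x = x from hx, show ρ z y = y from hy]
      zero_mem' := by
        show ρ z 0 = 0
        exact map_zero _
      smul_mem' := by
        intro c x hx
        show ρ z (c • x) = c • x
        rw [map_smul, show ρ z x = x from hx] }
  have hFz : Fz = ⊥ := by
    have hinv : ∀ g : G, ∀ w ∈ Fz, ρ g w ∈ Fz := by
      intro g w hw
      show ρ z (ρ g w) = ρ g w
      rw [← hmul, ← hzc g, hmul]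
      exact congrArg (ρ g) hw
    rcases hirr Fz hinv with h | h
    · exact h
    · exfalso
      apply hz1
      apply hinj
      ext w
      rw [map_one]
      have hw : w ∈ Fz := by
        rw [h]
        trivial
      exact hw
  have hzneg : ∀ w : V, ρ z w = -w := by
    intro w
    have hw : w + ρ z w ∈ Fz := by
      show ρ z (w + ρ z w) = w + ρ z w
      rw [map_add, hzz, add_comm]
    rw [hFz, Submodule.mem_bot] at hw
    exact (neg_eq_of_add_eq_zero_right hw).symm
  have haa : ∀ w : V, ρ a (ρ a w) = w := by
    intro w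
    rw [← hmul, ← pow_two, ha2, hone]
  let Wp : Submodule (ZMod q) V :=
    { carrier := {w | ρ a w = w}
      add_mem' := by
        intro x y hx hy
        show ρ a (x + y) = x + y
        rw [map_add, show ρ a x = x from hx, show ρ a y = y from hy]
      zero_mem' := by
        show ρ a 0 = 0
        exact map_zero _
      smul_mem' := by
        intro c x hx
        show ρ a (c • x) = c • x
        rw [map_smul, show ρ a x = x from hx] }
  let Wm : Submodule (ZMod q) V :=
    { carrier := {w | ρ a w = -w}
      add_mem' := by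
        intro x y hx hy
        show ρ a (x + y) = -(x + y)
        rw [map_add, show ρ a x = -x from hx, show ρ a y = -y from hy, neg_add]
      zero_mem' := by
        show ρ a 0 = -0
        rw [map_zero, neg_zero]
      smul_mem' := by
        intro c x hx
        show ρ a (c • x) = -(c • x)
        rw [map_smul, show ρ a x = -x from hx, smul_neg] }
  have hWp : ∀ w : V, w ∈ Wp ↔ ρ a w = w := fun _ => Iff.rfl
  have hWm : ∀ w : V, w ∈ Wm ↔ ρ a w = -w := fun _ => Iff.rfl
  have hdisj : Wp ⊓ Wm = ⊥ := by
    rw [eq_bot_iff]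
    rintro w ⟨hw1, hw2⟩
    rw [Submodule.mem_bot]
    have e1 : ρ a w = w := hw1
    have e2 : ρ a w = -w := hw2
    have e3 : (2 : ZMod q) • w = 0 := by
      rw [two_smul]
      nth_rewrite 1 [← e1]
      rw [e2, neg_add_cancel]
    exact (smul_eq_zero.1 e3).resolve_left h2
  have hsup : Wp ⊔ Wm = ⊤ := by
    rw [eq_top_iff]
    intro w _
    have e : w = (2 : ZMod q)⁻¹ • (w + ρ a w) + (2 : ZMod q)⁻¹ • (w - ρ a w) := by
      rw [← smul_add]
      have e' : w + ρ a w + (w - ρ a w) = (2 : ZMod q) • w := by
        rw [two_smul]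
        abel
      rw [e', smul_smul, inv_mul_cancel₀ h2, one_smul]
    rw [e]
    apply Submodule.add_mem
    · apply Submodule.mem_sup_left
      apply Submodule.smul_mem
      rw [hWp, map_add, haa, add_comm]
    · apply Submodule.mem_sup_right
      apply Submodule.smul_mem
      rw [hWm, map_sub, haa, neg_sub]
  have hcompl : IsCompl Wp Wm := by
    constructor
    · exact disjoint_iff.2 hdisj
    · exact codisjoint_iff.2 hsup
  have hWpne : Wp ≠ ⊥ := by
    intro h
    rw [h, bot_sup_eq] at hsup
    apply haz
    have e : a = z := by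
      apply hinj
      ext w
      have hw : w ∈ Wm := by
        rw [hsup]
        trivial
      rw [hzneg]
      exact hw
    rw [e]
    exact Subgroup.mem_zpowers z
  have hWmne : Wm ≠ ⊥ := by
    intro h
    rw [h, sup_bot_eq] at hsup
    apply haz
    have e : a = 1 := by
      apply hinj
      ext w
      have hw : w ∈ Wp := by
        rw [hsup]
        trivial
      rw [map_one]
      exact hw
    rw [e]
    exact Subgroup.one_mem _
  refine ⟨Wp, Wm, hcompl, hWpne, hWmne, ?_, ⟨a, fun w hw => hw, fun w hw => hw⟩⟩
  intro g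
  obtain ⟨c, hc⟩ := hconj g
  rcases Nat.even_or_odd c with hce | hco
  · left
    obtain ⟨k, rfl⟩ := hce
    have hz : z ^ (k + k) = 1 := by
      rw [← two_mul, pow_mul, hz2, one_pow]
    rw [hz, mul_one] at hc
    have hga : a * g = g * a := by
      calc a * g = g * a * g⁻¹ * g := by rw [hc]
        _ = g * a := by rw [inv_mul_cancel_right]
    have key : ∀ w : V, ρ a (ρ g w) = ρ g (ρ a w) := by
      intro w
      rw [← hmul, ← hmul, hga]
    constructor
    · intro w hw
      rw [hWp] at hw ⊢
      rw [key, hw]
    · intro w hw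
      rw [hWm] at hw ⊢
      rw [key, hw, map_neg]
  · right
    obtain ⟨k, rfl⟩ := hco
    have hz : z ^ (2 * k + 1) = z := by
      rw [pow_succ, pow_mul, hz2, one_pow, one_mul]
    rw [hz] at hc
    have hga : g * a = a * g * z := by
      have e1 : g * a = a * z * g := by
        calc g * a = g * a * g⁻¹ * g := by rw [inv_mul_cancel_right]
          _ = a * z * g := by rw [hc]
      rw [e1, mul_assoc, mul_assoc, hzc g]
    have key : ∀ w : V, ρ a (ρ g w) = -ρ g (ρ a w) := by
      intro w
      rw [← hmul g a, hga, hmul, hmul, hzneg, map_neg, map_neg, neg_neg]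
    constructor
    · intro w hw
      rw [hWp] at hw
      rw [hWm, key, hw]
    · intro w hw
      rw [hWm] at hw
      rw [hWp, key, hw, map_neg, neg_neg]

end Cfsg.Agent.H70.Ht
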