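import Cfsg.Agent.H64.JzFinal
import Cfsg.Agent.H12.JkNV
import Cfsg.Agent.H32.JkExp
import Cfsg.Agent.H48.JkConj
import Cfsg.Agent.H51.JcNORM
import Cfsg.Agent.H70.KhCore
import Cfsg.Agent.S2948
import Cfsg.Agent.S2950

/-!
# S2953 (team project JY), KILL2 interface: K-CENT and K-TI without the hypothesis `hX`

Context: `Base S M S K L`, `N_G(S) ≤ L`, `Base S L T' K' L'`, `T' ≠ S`.  `V = Vof L = Ω₁Z(O₂(L))`.
-/

set_option autoImplicit false
open Cfsg

namespace Cfsg.Agent.H70.Jy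

open Cfsg.Agent.H64.Jz Cfsg.Agent.H59.JzK

universe u

/-- In a subgroup of order 2 every element is `1` or a given nontrivial element. -/
theorem two_elts {G : Type u} [Group G] (Z : Subgroup G) (h2 : Nat.card ↥Z = 2) (v : G)
    (hvZ : v ∈ Z) (hv1 : v ≠ 1) : ∀ z ∈ Z, z = 1 ∨ z = v := by
  intro z hz
  obtain ⟨x, y, hxy, huniv⟩ := Nat.card_eq_two_iff.mp h2
  have h1 : (1 : ↥Z) ∈ ({x, y} : Set _) := by
    rw [huniv]; trivial
  have hvm : (⟨v, hvZ⟩ : ↥Z) ∈ ({x, y} : Set _) := by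
    rw [huniv]; trivial
  have hzm : (⟨z, hz⟩ : ↥Z) ∈ ({x, y} : Set _) := by
    rw [huniv]; trivial
  simp only [Set.mem_insert_iff, Set.mem_singleton_iff] at h1 hvm hzm
  have hv1' : (⟨v, hvZ⟩ : ↥Z) ≠ 1 := fun h =>
    hv1 (by simpa using congrArg Subtype.val h)
  rcases h1 with h1 | h1 <;> rcases hvm with hvm | hvm <;> rcases hzm with hzm | hzm
  · exact absurd (hvm.trans h1.symm) hv1'
  · exact absurd (hvm.trans h1.symm) hv1'
  · left; simpa using congrArg Subtype.val (hzm.trans h1.symm)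
  · right; simpa using congrArg Subtype.val (hzm.trans hvm.symm)
  · right; simpa using congrArg Subtype.val (hzm.trans hvm.symm)
  · left; simpa using congrArg Subtype.val (hzm.trans h1.symm)
  · exact absurd (hvm.trans h1.symm) hv1'
  · exact absurd (hvm.trans h1.symm) hv1'

/-- Core: every `u ∈ V` is conjugate by some `k ∈ L` into `Ω₁Z(J(S))` (needs `|Ω₁Z(S)| = 2`). -/
theorem conjZ0 {G : Type u} [Group G] [Finite G]
    (S : Sylow 2 G) (M K L : Subgroup G) (hB : Base S M (S : Subgroup G) K L)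
    (hcardZ : Nat.card ↥(omegaCenterOf (S : Subgroup G)) = 2) :
    ∀ u ∈ Vof L, ∃ k ∈ L,
      k * u * k⁻¹ ∈ omegaCenterOf (thompsonSubgroupOf 2 (S : Subgroup G)) := by
  obtain ⟨hZN, hO, hM, hMJ, hSmax, -, hK, hLmax, hKL⟩ := hB
  obtain ⟨hL, hN, hZ⟩ := hZN
  have hJK : IsJComponent (S : Subgroup G) K := hK.1.1
  have hKL' : K ≤ L := le_sup_left.trans hKL
  have hLM : ¬ L ≤ M := fun h => hK.2.1 (hKL'.trans h)
  obtain ⟨L₀, hL₀max, hKL₀, huniq, -, hSyl₀⟩ :=
    Cfsg.Agent.S2950.result hL hN hZ hO S M hM hMJ (S : Subgroup G) hSmax K hK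
  have hLL₀ : L = L₀ := huniq L hLmax hKL
  have hSyl : IsSylowTwoIn (S : Subgroup G) L := by rw [hLL₀]; exact hSyl₀
  have hLov : L ∈ jOvergroups (S : Subgroup G) :=
    (Cfsg.Agent.S2948.result hL hN hZ hO S M hM hMJ (S : Subgroup G) hSmax L hLmax.1 hLM
      (S : Subgroup G) hSyl (Cfsg.Agent.Helper55.ThJ.J_le _)).2.2.1
  have hS1 : (S : Subgroup G) ≠ ⊥ := hSmax.1.2.1
  have hexp : ∀ (X : Subgroup G), ∀ v ∈ omegaCenterOf X, v * v = 1 :=
    fun X => Cfsg.Agent.H32.JzK.kExp X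
  -- the fixed-point hypothesis of `struct`
  have hfix : ∀ v ∈ omegaCenterOf (pCoreOf 2 L),
      v ∈ Subgroup.centralizer ((S : Subgroup G) : Set G) →
      v ∈ Subgroup.centralizer (K : Set G) → v = 1 := by
    intro v hv hvS hvK
    by_contra hv1
    have hvQ : v ∈ pCoreOf 2 L := ((Cfsg.Agent.H51.Jc.omegaCenterOf_le_inf _) hv).1
    have hvS' : v ∈ (S : Subgroup G) := Cfsg.Agent.Helper55.J48.pCoreOf_le_of_sylowIn hSyl hvQ
    have hvv : v * v = 1 := hexp (pCoreOf 2 L) v hv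
    have hvZ : v ∈ omegaCenterOf (S : Subgroup G) := by
      unfold omegaCenterOf omegaOne
      exact Subgroup.subset_closure ⟨⟨hvS', hvS⟩, by rw [pow_two]; exact hvv⟩
    have hall : ∀ z ∈ omegaCenterOf (S : Subgroup G), z = 1 ∨ z = v := by
      intro z hz
      obtain ⟨x, y, hxy, huniv⟩ := Nat.card_eq_two_iff.mp hcardZ
      have h1 : (1 : ↥(omegaCenterOf (S : Subgroup G))) ∈ ({x, y} : Set _) := by
        rw [huniv]; trivial
      have hvm : (⟨v, hvZ⟩ : ↥(omegaCenterOf (S : Subgroup G))) ∈ ({x, y} : Set _) := by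
        rw [huniv]; trivial
      have hzm : (⟨z, hz⟩ : ↥(omegaCenterOf (S : Subgroup G))) ∈ ({x, y} : Set _) := by
        rw [huniv]; trivial
      simp only [Set.mem_insert_iff, Set.mem_singleton_iff] at h1 hvm hzm
      have hv1' : (⟨v, hvZ⟩ : ↥(omegaCenterOf (S : Subgroup G))) ≠ 1 := fun h =>
        hv1 (by simpa using congrArg Subtype.val h)
      rcases h1 with h1 | h1 <;> rcases hvm with hvm | hvm <;> rcases hzm with hzm | hzm
      · exact absurd (hvm.trans h1.symm) hv1'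
      · exact absurd (hvm.trans h1.symm) hv1'
      · left; simpa using congrArg Subtype.val (hzm.trans h1.symm)
      · right; simpa using congrArg Subtype.val (hzm.trans hvm.symm)
      · right; simpa using congrArg Subtype.val (hzm.trans hvm.symm)
      · left; simpa using congrArg Subtype.val (hzm.trans h1.symm)
      · exact absurd (hvm.trans h1.symm) hv1'
      · exact absurd (hvm.trans h1.symm) hv1'
    have hKC : K ≤ Subgroup.centralizer (omegaCenterOf (S : Subgroup G) : Set G) := by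
      intro k hk
      rw [Subgroup.mem_centralizer_iff]
      intro z hz
      rcases hall z hz with rfl | rfl
      · simp
      · exact (Subgroup.mem_centralizer_iff.mp hvK k hk).symm
    have hKN : K ≤ Subgroup.normalizer ((S : Subgroup G) : Set G) := hKC.trans (hZ S)
    have hKS : K ≤ (S : Subgroup G) := by
      have hcomm : ⁅K, thompsonSubgroupOf 2 (S : Subgroup G)⁆ = K := hJK.2.1
      rw [← hcomm, Subgroup.commutator_le]
      intro k hk j hj
      have hjS : j ∈ (S : Subgroup G) := Cfsg.Agent.Helper55.ThJ.J_le _ hj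
      have h1 : k * j * k⁻¹ ∈ (S : Subgroup G) :=
        (Subgroup.mem_normalizer_iff.mp (hKN hk) j).mp hjS
      rw [commutatorElement_def]
      exact Subgroup.mul_mem _ h1 (Subgroup.inv_mem _ hjS)
    have hKbot : K = ⊥ := by
      have hgen := hJK.1
      rw [← hgen, Subgroup.closure_eq_bot_iff]
      rintro g ⟨hgK, hgo⟩
      obtain ⟨n, hn⟩ := S.isPGroup' ⟨g, hKS hgK⟩
      have hn' : g ^ 2 ^ n = 1 := by simpa using congrArg Subtype.val hn
      have hdvd : orderOf g ∣ 2 ^ n := orderOf_dvd_of_pow_eq_one hn'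
      have hcop : Nat.Coprime (orderOf g) (2 ^ n) :=
        Nat.Coprime.pow_right n (Nat.coprime_two_right.mpr hgo)
      have h1 : orderOf g = 1 := Nat.Coprime.eq_one_of_dvd hcop hdvd
      exact orderOf_eq_one_iff.mp h1
    have h3 : (pCoreOf 2 K).relIndex K = 3 := hJK.2.2.1
    rw [hKbot, Subgroup.relIndex_bot_right] at h3
    omega
  obtain ⟨hsup, hind, hcomp, hperm, hcent, hfix0⟩ :=
    Cfsg.Agent.H52.Sr.struct hL hN hZ (S : Subgroup G) S.isPGroup' hS1 L hLov K hJK hKL' hfix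
  obtain ⟨Z0, hZ0⟩ : ∃ Z0 : Subgroup G,
    Z0 = omegaCenterOf (thompsonSubgroupOf 2 (S : Subgroup G)) := ⟨_, rfl⟩
  rw [← hZ0]
  have hVab : ∀ a ∈ Vof L, ∀ b ∈ Vof L, a * b = b * a := by
    intro a ha b hb
    have ha' := (Cfsg.Agent.H51.Jc.omegaCenterOf_le_inf _ ha).2
    have hb' := (Cfsg.Agent.H51.Jc.omegaCenterOf_le_inf _ hb).1
    exact (Subgroup.mem_centralizer_iff.mp ha' b hb').symm
  have hWV : ∀ i : Cfsg.Agent.H52.Sr.Orb (S : Subgroup G) K, wOf i.1 ≤ Vof L := fun i => by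
    show wOf i.1 ≤ omegaCenterOf (pCoreOf 2 L)
    rw [← hsup]
    exact le_iSup (fun i : Cfsg.Agent.H52.Sr.Orb (S : Subgroup G) K => wOf i.1) i
  have htr : ∀ i : Cfsg.Agent.H52.Sr.Orb (S : Subgroup G) K, ∀ x ∈ wOf i.1,
      ∃ k ∈ i.1, k * x * k⁻¹ ∈ Z0 ⊓ wOf i.1 := by
    intro i x hx
    by_cases hx1 : x = 1
    · exact ⟨1, Subgroup.one_mem _, by rw [hx1]; simp⟩
    · obtain ⟨hJi, hiL, hi4⟩ := hcomp i
      have hc2 : Nat.card ↥(Z0 ⊓ wOf i.1) = 2 :=
        (Cfsg.Agent.H58.Q46.s2946 hL hN hZ (S : Subgroup G) S.isPGroup' hS1 i.1 hJi Z0 hZ0).1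
      have hnb : Z0 ⊓ wOf i.1 ≠ ⊥ := by
        intro h
        rw [h] at hc2
        simp at hc2
      obtain ⟨⟨w, hw⟩, hw1⟩ := (Subgroup.ne_bot_iff_exists_ne_one).mp hnb
      have hw1' : w ≠ 1 := fun h => hw1 (Subtype.ext h)
      have hKW : i.1 ≤ Subgroup.normalizer (wOf i.1 : Set G) := by
        intro g hg
        rw [Subgroup.mem_normalizer_iff]
        intro t
        constructor
        · intro ht
          exact Cfsg.Agent.H51.Jc.wOf_norm (K := i.1) (J := i.1) Subgroup.le_normalizer g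
            (Subgroup.mem_sup_left hg) t ht
        · intro ht
          have h := Cfsg.Agent.H51.Jc.wOf_norm (K := i.1) (J := i.1) Subgroup.le_normalizer g⁻¹
            (Subgroup.mem_sup_left (inv_mem hg)) _ ht
          have e : g⁻¹ * (g * t * g⁻¹) * g⁻¹⁻¹ = t := by group
          rw [e] at h
          exact h
      obtain ⟨k, hk, hkx⟩ := Cfsg.Agent.H70.Kh.trans_four (wOf i.1) i.1 hi4 hJi.2.2.2.2.2 hKW
        hJi.1 (hfix0 i) x w hx hx1 hw.2 hw1'
      exact ⟨k, hk, by rw [hkx]; exact hw⟩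
  intro u hu
  have hu' : u ∈ ⨆ i : Cfsg.Agent.H52.Sr.Orb (S : Subgroup G) K, wOf i.1 := by
    rw [hsup]; exact hu
  obtain ⟨k, hk, hku⟩ := Cfsg.Agent.H70.Kh.conj_into
    (fun i : Cfsg.Agent.H52.Sr.Orb (S : Subgroup G) K => wOf i.1) (fun i => i.1)
    (fun i => Z0 ⊓ wOf i.1) hcent (fun i => inf_le_right)
    (fun i j _ a ha b hb => hVab a (hWV i ha) b (hWV j hb)) htr u hu'
  have hkL : (⨆ i : Cfsg.Agent.H52.Sr.Orb (S : Subgroup G) K, (i.1 : Subgroup G)) ≤ L :=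
    iSup_le fun i => (hcomp i).2.1
  have hYZ : (⨆ i : Cfsg.Agent.H52.Sr.Orb (S : Subgroup G) K, Z0 ⊓ wOf i.1) ≤ Z0 :=
    iSup_le fun i => inf_le_left
  exact ⟨k, hkL hk, hYZ hku⟩

/-- `|Ω₁Z(S)| = 2` and `Ω₁Z(S) = Ω₁Z(J(S))` in the KILL2 context. -/
theorem zCard {G : Type u} [Group G] [Finite G] (S : Sylow 2 G) (M K L T' K' L' : Subgroup G)
    (hB : Base S M (S : Subgroup G) K L) (hB' : Base S L T' K' L')
    (hne : T' ≠ (S : Subgroup G)) :
    Nat.card ↥(omegaCenterOf (S : Subgroup G)) = 2 ∧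
    omegaCenterOf (S : Subgroup G) =
      omegaCenterOf (thompsonSubgroupOf 2 (S : Subgroup G)) := by
  refine ⟨z2Final S L T' K' L' hB' hne, ?_⟩
  rcases stMain S M (S : Subgroup G) K L hB with h | h | h
  · exact h.1
  · exact h.1
  · exact h.1

/-- Every `u ∈ V` is `L`-conjugate into `Ω₁Z(S)`. -/
theorem conjZ {G : Type u} [Group G] [Finite G] (S : Sylow 2 G) (M K L T' K' L' : Subgroup G)
    (hB : Base S M (S : Subgroup G) K L) (hB' : Base S L T' K' L')
    (hne : T' ≠ (S : Subgroup G)) :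
    ∀ u ∈ Vof L, ∃ k ∈ L, k * u * k⁻¹ ∈ omegaCenterOf (S : Subgroup G) := by
  obtain ⟨hc2, hZZ0⟩ := zCard S M K L T' K' L' hB hB' hne
  intro u hu
  obtain ⟨k, hkL, hku⟩ := conjZ0 S M K L hB hc2 u hu
  exact ⟨k, hkL, by rw [hZZ0]; exact hku⟩

/-- `C_G(z) ≤ L` for `1 ≠ z ∈ Ω₁Z(S)`. -/
theorem zCent {G : Type u} [Group G] [Finite G] (S : Sylow 2 G) (M K L T' K' L' : Subgroup G)
    (hB : Base S M (S : Subgroup G) K L)
    (hNS : Subgroup.normalizer ((S : Subgroup G) : Set G) ≤ L)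
    (hB' : Base S L T' K' L') (hne : T' ≠ (S : Subgroup G)) :
    ∀ z ∈ omegaCenterOf (S : Subgroup G), z ≠ 1 →
      Subgroup.centralizer ({z} : Set G) ≤ L := by
  obtain ⟨hc2, -⟩ := zCard S M K L T' K' L' hB hB' hne
  have hZ := hB.1.2.2
  intro z hz hz1 c hc
  apply hNS
  apply hZ S
  rw [Subgroup.mem_centralizer_iff]
  intro w hw
  rcases two_elts _ hc2 z hz hz1 w hw with rfl | rfl
  · simp
  · exact Subgroup.mem_centralizer_iff.mp hc w rfl

/-- K-CENT in the KILL2 context: `C_G(u) ≤ L` for `1 ≠ u ∈ V`. -/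
theorem kCent2 {G : Type u} [Group G] [Finite G] (S : Sylow 2 G) (M K L T' K' L' : Subgroup G)
    (hB : Base S M (S : Subgroup G) K L)
    (hNS : Subgroup.normalizer ((S : Subgroup G) : Set G) ≤ L)
    (hB' : Base S L T' K' L') (hne : T' ≠ (S : Subgroup G)) :
    ∀ u ∈ Vof L, u ≠ 1 → Subgroup.centralizer ({u} : Set G) ≤ L := by
  intro u hu hu1
  obtain ⟨k, hkL, hku⟩ := conjZ S M K L T' K' L' hB hB' hne u hu
  obtain ⟨u', hu'⟩ : ∃ u', u' = k * u * k⁻¹ := ⟨_, rfl⟩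
  rw [← hu'] at hku
  have hu'1 : u' ≠ 1 := by
    intro h
    apply hu1
    have e : u = k⁻¹ * u' * k := by rw [hu']; group
    rw [e, h]; group
  have hCL := zCent S M K L T' K' L' hB hNS hB' hne u' hku hu'1
  intro c hc
  have hc' : k * c * k⁻¹ ∈ Subgroup.centralizer ({u'} : Set G) := by
    rw [Subgroup.mem_centralizer_iff] at hc ⊢
    intro x hx
    rw [Set.mem_singleton_iff] at hx
    subst hx
    have h := hc u rfl
    rw [hu']
    calc k * u * k⁻¹ * (k * c * k⁻¹) = k * (u * c) * k⁻¹ := by group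
      _ = k * (c * u) * k⁻¹ := by rw [h]
      _ = k * c * k⁻¹ * (k * u * k⁻¹) := by group
  have h1 := hCL hc'
  have e : c = k⁻¹ * (k * c * k⁻¹) * k := by group
  rw [e]
  exact L.mul_mem (L.mul_mem (L.inv_mem hkL) h1) hkL

/-- K-TI in the KILL2 context: `V ∩ V^g ≠ 1` gives `g ∈ L`. -/
theorem kTI2 {G : Type u} [Group G] [Finite G] (S : Sylow 2 G) (M K L T' K' L' : Subgroup G)
    (hB : Base S M (S : Subgroup G) K L)
    (hNS : Subgroup.normalizer ((S : Subgroup G) : Set G) ≤ L)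
    (hB' : Base S L T' K' L') (hne : T' ≠ (S : Subgroup G)) :
    ∀ g : G, Vof L ⊓ (Vof L).map (MulAut.conj g).toMonoidHom ≠ ⊥ → g ∈ L := by
  intro g hg
  obtain ⟨hc2, -⟩ := zCard S M K L T' K' L' hB hB' hne
  obtain ⟨⟨u, hu⟩, hu1⟩ := (Subgroup.ne_bot_iff_exists_ne_one).mp hg
  have hu1' : u ≠ 1 := fun h => hu1 (Subtype.ext h)
  obtain ⟨huV, hug⟩ := Subgroup.mem_inf.mp hu
  obtain ⟨v, hvV, hvu⟩ := Subgroup.mem_map.mp hug
  have hvu' : g * v * g⁻¹ = u := by simpa using hvu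
  have hv1 : v ≠ 1 := by
    rintro rfl
    apply hu1'
    rw [← hvu']; group
  obtain ⟨k, hkL, hku⟩ := conjZ S M K L T' K' L' hB hB' hne u huV
  obtain ⟨k', hk'L, hk'v⟩ := conjZ S M K L T' K' L' hB hB' hne v hvV
  have hz1 : k * u * k⁻¹ ≠ 1 := by
    intro h
    apply hu1'
    have e : u = k⁻¹ * (k * u * k⁻¹) * k := by group
    rw [e, h]; group
  have hz1' : k' * v * k'⁻¹ ≠ 1 := by
    intro h
    apply hv1
    have e : v = k'⁻¹ * (k' * v * k'⁻¹) * k' := by group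
    rw [e, h]; group
  have heq : k' * v * k'⁻¹ = k * u * k⁻¹ := by
    rcases two_elts _ hc2 (k * u * k⁻¹) hku hz1 (k' * v * k'⁻¹) hk'v with h | h
    · exact absurd h hz1'
    · exact h
  have hCL := zCent S M K L T' K' L' hB hNS hB' hne (k * u * k⁻¹) hku hz1
  have hmem : k * g * k'⁻¹ ∈ Subgroup.centralizer ({k * u * k⁻¹} : Set G) := by
    rw [Subgroup.mem_centralizer_iff]
    intro x hx
    rw [Set.mem_singleton_iff] at hx
    subst hx
    have e1 : k * u * k⁻¹ * (k * g * k'⁻¹) = k * (g * v * g⁻¹) * g * k'⁻¹ := by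
      rw [hvu']; group
    have e2 : k * g * k'⁻¹ * (k * u * k⁻¹) = k * g * k'⁻¹ * (k' * v * k'⁻¹) := by
      rw [heq]
    rw [e1, e2]; group
  have h1 := hCL hmem
  have e : g = k⁻¹ * (k * g * k'⁻¹) * k' := by group
  rw [e]
  exact L.mul_mem (L.mul_mem (L.inv_mem hkL) h1) hk'L

/-- K-NV: `N_G(V) = L`. -/
theorem kNV2 {G : Type u} [Group G] [Finite G] (S : Sylow 2 G) (M K L : Subgroup G)
    (hB : Base S M (S : Subgroup G) K L) :
    Subgroup.normalizer (Vof L : Set G) = L :=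
  (Cfsg.Agent.H12.Jk.normalizer_Vof_eq hB.2.2.2.2.2.2.2.1).2.2

end Cfsg.Agent.H70.Jy
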