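import Mathlib
import Cfsg.Agent.H76.NCZDefs
import Cfsg.Agent.H70.NCZCore
import Cfsg.Agent.S1418
import Cfsg.Agent.S1419

/-! NCZ-ZC1 (helper70 for helper76, S1353/S1354): the line `⟨b⟩ = [A, P]`. -/

set_option autoImplicit false

namespace Cfsg.Agent.H70.NCKill

open Cfsg Subgroup Cfsg.Agent.H76.NCKill

universe u

theorem zC1 {G : Type u} [Group G] [Finite G] : StZC1 G := by
  intro hG M E A P r p _ hNC
  have h18 := Cfsg.Agent.S1418.result hG M hNC.coatom E hNC.compl r hNC.tau2 A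
    ⟨hNC.AE, hNC.Ael, hNC.Acard⟩
  have h19 := Cfsg.Agent.S1419.result hG M hNC.coatom E hNC.compl r hNC.tau2 hNC.nonab A
    ⟨hNC.AE, hNC.Ael, hNC.Acard⟩
  have hr : r.Prime := Fact.out
  have hp : p.Prime := hNC.tau1.1
  have hpr : p ≠ r := by
    intro h
    have h1 := hNC.tau1.2.2.2.2
    rw [h] at h1
    exact hNC.tau2.2.2.2 h1
  exact zc1_core A (A0 M A) P E r p hr hp hpr
    (fun x hx y hy => congrArg Subtype.val (hNC.Ael.1.is_comm.comm (⟨x, hx⟩ : A) ⟨y, hy⟩))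
    hNC.Ael.2 hNC.Acard inf_le_left h19.2.1.1 hNC.Pcard hNC.PE h18.1.1 hNC.PA0 hNC.PA

example {G : Type u} [Group G] [Finite G] : StZC1 G := zC1

end Cfsg.Agent.H70.NCKill
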