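import Mathlib
import Cfsg.Agent.H76.NCZDefs
import Cfsg.Agent.H70.NCZCore
import Cfsg.Agent.S1417

/-! NCZ-ZC2 (helper70 for helper76, S1353/S1354): a non-trivial abelian subgroup of `M_σ`
normalized by `M` (the centre of `M_σ`). -/

set_option autoImplicit false

namespace Cfsg.Agent.H70.NCKill

open Cfsg Subgroup Cfsg.Agent.H76.NCKill

universe u

private theorem zc2_le_normalizer_sigmaCore {G : Type u} [Group G] (M : Subgroup G) :
    M ≤ normalizer ((sigmaCore M : Subgroup G) : Set G) := by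
  rw [Subgroup.le_normalizer_iff]
  rintro m hm _ ⟨n, hn, rfl⟩
  exact ⟨⟨m, hm⟩ * n * ⟨m, hm⟩⁻¹, (piCore_normal (sigma M) M).conj_mem n hn ⟨m, hm⟩, by simp⟩

theorem zC2 {G : Type u} [Group G] [Finite G] : StZC2 G := by
  intro hG M E A P r p _ hNC
  have h17 := Cfsg.Agent.S1417.result hG M hNC.coatom r hNC.tau2 A
    ⟨hNC.AE.trans hNC.compl.1, hNC.Ael, hNC.Acard⟩
  have hS : sigmaCore M ≠ ⊥ := by
    intro h
    apply hNC.Kstar
    rw [h, bot_inf_eq]
  exact zc2_core M (sigmaCore M) hS h17.1 (zc2_le_normalizer_sigmaCore M)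

example {G : Type u} [Group G] [Finite G] : StZC2 G := zC2

end Cfsg.Agent.H70.NCKill
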