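import Mathlib

/-!
# helper70: piece A of S0460 -- a simplicity criterion from Sylow data
-/

set_option autoImplicit false

namespace Cfsg.Agent.H70.ON

theorem simple_of_sylow_data {G : Type*} [Group G] (K : Subgroup G) [Finite K] (hK : K ≠ ⊥)
    (h : ∀ p : ℕ, p.Prime → p ∣ Nat.card K → ∃ P : Subgroup G, P ≤ K ∧
      (∃ e : ℕ, Nat.card P = p ^ e ∧ ¬ p ^ (e + 1) ∣ Nat.card K) ∧
      ∀ n ∈ P, n ≠ 1 → ∀ N : Subgroup G, N ≤ K → (∀ k ∈ K, ∀ x ∈ N, k * x * k⁻¹ ∈ N) →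
        n ∈ N → K ≤ N) :
    IsSimpleGroup K := by
  have hnt : Nontrivial ↥K := (Subgroup.nontrivial_iff_ne_bot K).mpr hK
  refine @IsSimpleGroup.mk _ _ hnt ?_
  intro N' hN'
  by_cases hbot : N' = ⊥
  · exact Or.inl hbot
  right
  have hcard1 : Nat.card N' ≠ 1 := fun h1 => hbot (Subgroup.card_eq_one.mp h1)
  obtain ⟨p, hp, hpdvd⟩ := Nat.exists_prime_and_dvd hcard1
  have hpf : Fact p.Prime := ⟨hp⟩
  have hpK : p ∣ Nat.card K := hpdvd.trans (Subgroup.card_subgroup_dvd_card N')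
  obtain ⟨P, hPK, ⟨e, hPe, hnot⟩, hprop⟩ := h p hp hpK
  obtain ⟨x, hx⟩ := exists_prime_orderOf_dvd_card' (G := ↥N') p hpdvd
  have hP'card : Nat.card (P.subgroupOf K) = p ^ e := by
    rw [← hPe]
    exact Nat.card_congr (Subgroup.subgroupOfEquivOfLe hPK).toEquiv
  have hKne : Nat.card K ≠ 0 := Nat.card_pos.ne'
  have he : e = (Nat.card K).factorization p := by
    have h1 : p ^ e ∣ Nat.card K := hP'card ▸ Subgroup.card_subgroup_dvd_card (P.subgroupOf K)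
    have h2 := (hp.pow_dvd_iff_le_factorization hKne).mp h1
    have h3 : ¬ e + 1 ≤ (Nat.card K).factorization p := fun hle =>
      hnot ((hp.pow_dvd_iff_le_factorization hKne).mpr hle)
    omega
  let S : Sylow p ↥K := Sylow.ofCard (P.subgroupOf K) (by rw [hP'card, he])
  have hS : (S : Subgroup ↥K) = P.subgroupOf K := rfl
  have hxp : IsPGroup p (Subgroup.zpowers (x : ↥K)) := by
    apply IsPGroup.of_card (n := 1)
    rw [Nat.card_zpowers, Subgroup.orderOf_coe, hx, pow_one]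
  obtain ⟨Q, hQ⟩ := hxp.exists_le_sylow
  obtain ⟨g, hg⟩ := MulAction.exists_smul_eq ↥K Q S
  have hxQ : (x : ↥K) ∈ Q := hQ (Subgroup.mem_zpowers _)
  have hnS : g * (x : ↥K) * g⁻¹ ∈ (S : Subgroup ↥K) := by
    rw [← hg, Sylow.coe_subgroup_smul]
    have := Subgroup.smul_mem_pointwise_smul (x : ↥K) (MulAut.conj g) (Q : Subgroup ↥K) hxQ
    simpa [MulAut.smul_def] using this
  rw [hS, Subgroup.mem_subgroupOf] at hnS
  have hn1 : ((g * (x : ↥K) * g⁻¹ : ↥K) : G) ≠ 1 := by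
    intro h1
    have h2 : g * (x : ↥K) * g⁻¹ = 1 := Subtype.ext h1
    have h3 : (x : ↥K) = 1 := by
      calc (x : ↥K) = g⁻¹ * (g * (x : ↥K) * g⁻¹) * g := by group
        _ = 1 := by rw [h2]; group
    have h4 : x = 1 := Subtype.ext h3
    rw [h4, orderOf_one] at hx
    exact hp.one_lt.ne hx
  have hNnorm : ∀ k ∈ K, ∀ y ∈ N'.map K.subtype, k * y * k⁻¹ ∈ N'.map K.subtype := by
    rintro k hk _ ⟨y, hy, rfl⟩
    exact ⟨⟨k, hk⟩ * y * ⟨k, hk⟩⁻¹, hN'.conj_mem y hy ⟨k, hk⟩, rfl⟩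
  have hnN : ((g * (x : ↥K) * g⁻¹ : ↥K) : G) ∈ N'.map K.subtype :=
    ⟨g * (x : ↥K) * g⁻¹, hN'.conj_mem _ x.2 g, rfl⟩
  have hKN := hprop _ hnS hn1 (N'.map K.subtype) (Subgroup.map_subtype_le N') hNnorm hnN
  rw [eq_top_iff]
  intro k _
  obtain ⟨y, hy, hyk⟩ := hKN k.2
  have hyk' : y = k := Subtype.ext hyk
  rw [← hyk']
  exact hy

end Cfsg.Agent.H70.ON
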