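import Cfsg.Agent.H46.OutDefs

/-!
# S2124-DESC (helper70, for helper46): descent of a torus element to the fixed field
-/

set_option autoImplicit false

namespace Cfsg.Agent.H70.OutE

open Cfsg.Lie Cfsg.Agent.H23 Cfsg.Agent.H23.Stb Cfsg.Agent.H46.OutE

universe u

/-- the image of a torus element under an entrywise field endomorphism is a torus element -/
theorem isTorus_glMap {D : ChevalleyDatum} {K : Type u} [Field K] (τ : K →+* K) (χ : ℕ → K)
    (h : GL D.Idx K) (hh : IsTorus D χ h) : IsTorus D (fun c => τ (χ c)) (glMap D τ h) := by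
  obtain ⟨h1, h2, h3, h4⟩ := hh
  refine ⟨fun c => (map_ne_zero τ).mpr (h1 c), ?_, ?_, ?_⟩
  · intro s hs c x hx
    show τ (χ x.1) = τ (χ c) * τ (χ s) ^ x.2.2
    rw [h2 s hs c x hx, map_mul, map_pow]
  · intro i
    show τ (χ _) = 1
    rw [h3 i, map_one]
  · ext i j
    rw [glMap_apply, h4, Matrix.diagonal_apply, Matrix.diagonal_apply]
    split_ifs
    · rfl
    · exact map_zero τ

/-- S2124-DESC -/
theorem desc : StDesc.{u} := by
  intro D F K _ _ ι τ z η hPF hPK hfix hτι hCE c h hh hact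
  classical
  have hSK := hPK.sem
  have hSF := hPF.sem
  have hTab := hPK.tab
  obtain ⟨χK, hχK⟩ := diagonal_le_torus hSK hTab hh
  have hK1 := hχK.1
  have hK3 := hχK.2.2.1
  have hK4 := hχK.2.2.2
  -- the values on the fundamental roots
  have hval : ∀ i < D.rank, χK (D.simple i) = ι (c i) ∧ χK (D.neg (D.simple i)) = (ι (c i))⁻¹ := by
    intro i hi
    have hs := hTab.simple_lt i hi
    have hn := hTab.neg_lt _ hs
    obtain ⟨e1, e2⟩ := hact i hi 1
    rw [isTorus_conj hSK χK h hχK _ hs] at e1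
    rw [isTorus_conj hSK χK h hχK _ hn] at e2
    have e1' := xU_inj hPK _ hs _ _ e1
    have e2' := xU_inj hPK _ hn _ _ e2
    rw [mul_one, mul_one] at e1' e2'
    exact ⟨e1', e2'⟩
  -- the twisted element
  have hχ' : IsTorus D (fun c => τ (χK c)) (glMap D τ h) := isTorus_glMap τ χK h hχK
  have hcomm : ∀ i < D.rank, ∀ t : K,
      (h⁻¹ * glMap D τ h) * xU hSK (D.simple i) t = xU hSK (D.simple i) t * (h⁻¹ * glMap D τ h) ∧
      (h⁻¹ * glMap D τ h) * xU hSK (D.neg (D.simple i)) t =
        xU hSK (D.neg (D.simple i)) t * (h⁻¹ * glMap D τ h) := by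
    intro i hi t
    have hs := hTab.simple_lt i hi
    have hn := hTab.neg_lt _ hs
    obtain ⟨v1, v2⟩ := hval i hi
    have e1 : glMap D τ h * xU hSK (D.simple i) t * (glMap D τ h)⁻¹ =
        h * xU hSK (D.simple i) t * h⁻¹ := by
      rw [isTorus_conj hSK _ _ hχ' _ hs, isTorus_conj hSK χK h hχK _ hs]
      show xU hSK (D.simple i) (τ (χK (D.simple i)) * t) = _
      rw [v1, hτι]
    have e2 : glMap D τ h * xU hSK (D.neg (D.simple i)) t * (glMap D τ h)⁻¹ =
        h * xU hSK (D.neg (D.simple i)) t * h⁻¹ := by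
      rw [isTorus_conj hSK _ _ hχ' _ hn, isTorus_conj hSK χK h hχK _ hn]
      show xU hSK (D.neg (D.simple i)) (τ (χK (D.neg (D.simple i))) * t) = _
      rw [v2, map_inv₀, hτι]
    constructor
    · calc (h⁻¹ * glMap D τ h) * xU hSK (D.simple i) t
          = h⁻¹ * (glMap D τ h * xU hSK (D.simple i) t * (glMap D τ h)⁻¹) * glMap D τ h := by group
        _ = h⁻¹ * (h * xU hSK (D.simple i) t * h⁻¹) * glMap D τ h := by rw [e1]
        _ = xU hSK (D.simple i) t * (h⁻¹ * glMap D τ h) := by group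
    · calc (h⁻¹ * glMap D τ h) * xU hSK (D.neg (D.simple i)) t
          = h⁻¹ * (glMap D τ h * xU hSK (D.neg (D.simple i)) t * (glMap D τ h)⁻¹) * glMap D τ h := by
            group
        _ = h⁻¹ * (h * xU hSK (D.neg (D.simple i)) t * h⁻¹) * glMap D τ h := by rw [e2]
        _ = xU hSK (D.neg (D.simple i)) t * (h⁻¹ * glMap D τ h) := by group
  have hall := hCE (h⁻¹ * glMap D τ h) hcomm
  -- all values are fixed by `τ`
  have hτχ : ∀ r < D.nroots, τ (χK r) = χK r := by
    intro r hr
    have e := hall r hr 1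
    have e' : glMap D τ h * xU hSK r 1 * (glMap D τ h)⁻¹ = h * xU hSK r 1 * h⁻¹ := by
      calc glMap D τ h * xU hSK r 1 * (glMap D τ h)⁻¹
          = h * ((h⁻¹ * glMap D τ h) * xU hSK r 1) * (glMap D τ h)⁻¹ := by group
        _ = h * (xU hSK r 1 * (h⁻¹ * glMap D τ h)) * (glMap D τ h)⁻¹ := by rw [e]
        _ = h * xU hSK r 1 * h⁻¹ := by group
    rw [isTorus_conj hSK _ _ hχ' _ hr, isTorus_conj hSK χK h hχK _ hr] at e'
    have e'' := xU_inj hPK r hr _ _ e'
    simpa using e''
  -- descend the character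
  have hex : ∀ r : ℕ, ∃ a : F, r < D.nroots → ι a = χK r := by
    intro r
    by_cases hr : r < D.nroots
    · obtain ⟨a, ha⟩ := hfix (χK r) (hτχ r hr)
      exact ⟨a, fun _ => ha⟩
    · exact ⟨1, fun h' => absurd h' hr⟩
  choose χ₀ hχ₀ using hex
  let χ : ℕ → F := fun r => if r < D.nroots then χ₀ r else 1
  have hχι : ∀ k : D.Idx, ι (χ (ix D k)) = χK (ix D k) := by
    intro k
    rcases k with i | s
    · have hge : ¬ (D.nroots + i.val < D.nroots) := by omega
      show ι (if D.nroots + i.val < D.nroots then χ₀ (D.nroots + i.val) else 1) =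
        χK (D.nroots + i.val)
      rw [if_neg hge, map_one, hK3 i]
    · show ι (if s.val < D.nroots then χ₀ s.val else 1) = χK s.val
      rw [if_pos s.isLt, hχ₀ s.val s.isLt]
  have hχr : ∀ r < D.nroots, ι (χ r) = χK r := by
    intro r hr
    show ι (if r < D.nroots then χ₀ r else 1) = χK r
    rw [if_pos hr, hχ₀ r hr]
  have hχne : ∀ k : D.Idx, χ (ix D k) ≠ 0 := by
    intro k h0
    have := hχι k
    rw [h0, map_zero] at this
    exact hK1 _ this.symm
  let g₀ : GL D.Idx F :=
    ⟨Matrix.diagonal (fun k => χ (ix D k)), Matrix.diagonal (fun k => (χ (ix D k))⁻¹), by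
      rw [Matrix.diagonal_mul_diagonal, ← Matrix.diagonal_one]
      congr 1
      funext k
      exact mul_inv_cancel₀ (hχne k), by
      rw [Matrix.diagonal_mul_diagonal, ← Matrix.diagonal_one]
      congr 1
      funext k
      exact inv_mul_cancel₀ (hχne k)⟩
  have hg₀ : glMap D ι g₀ = h := by
    apply Units.ext
    ext i j
    rw [glMap_apply, hK4]
    show ι (Matrix.diagonal (fun k => χ (ix D k)) i j) = _
    rw [Matrix.diagonal_apply, Matrix.diagonal_apply]
    split_ifs with hij
    · exact hχι i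
    · exact map_zero ι
  refine ⟨χ, g₀, ?_, ?_, ?_⟩
  · intro r hr h0
    have := hχr r hr
    rw [h0, map_zero] at this
    exact hK1 _ this.symm
  · intro r hr u
    apply glMap_injective (D := D) ι
    rw [map_mul, map_mul, map_inv, hg₀, glMap_xU hSF hSK, glMap_xU hSF hSK,
      isTorus_conj hSK χK h hχK _ hr, map_mul, hχr r hr]
  · intro i hi
    have hs := hTab.simple_lt i hi
    have hn := hTab.neg_lt _ hs
    obtain ⟨v1, v2⟩ := hval i hi
    constructor
    · apply ι.injective
      rw [hχr _ hs, v1]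
    · apply ι.injective
      rw [hχr _ hn, v2, map_inv₀]

example : Cfsg.Agent.H46.OutE.StDesc.{u} := desc

end Cfsg.Agent.H70.OutE
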