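import Mathlib
import Cfsg.Agent.H4.CharBasic

/-!
# Two-dimensional complex representations: centralizers of non-scalar elements (helper70)

For a faithful representation `ρ` of a finite group on a 2-dimensional complex space and `x` with
`ρ x` not a scalar:
* `comm_of_commute`: any two elements commuting with `x` commute;
* `mul_commute_of_conj`: if `g x g⁻¹` and `h x h⁻¹` commute with `x` but `g`, `h` do not, then
  `g h` commutes with `x`.
-/

set_option autoImplicit false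

namespace Cfsg.Agent.H70.Prim2

open Module

section Mat

variable {K : Type*} [Field K]

/-- diagonal 2×2 matrix -/
def IsDiag (N : Matrix (Fin 2) (Fin 2) K) : Prop := N 0 1 = 0 ∧ N 1 0 = 0

/-- anti-diagonal 2×2 matrix -/
def IsAnti (N : Matrix (Fin 2) (Fin 2) K) : Prop := N 0 0 = 0 ∧ N 1 1 = 0

theorem diag_of_commute {μ₁ μ₂ : K} (h : μ₁ ≠ μ₂) {N : Matrix (Fin 2) (Fin 2) K}
    (hN : N * Matrix.diagonal ![μ₁, μ₂] = Matrix.diagonal ![μ₁, μ₂] * N) : IsDiag N := by
  have h01 := congrFun (congrFun hN 0) 1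
  have h10 := congrFun (congrFun hN 1) 0
  rw [Matrix.mul_diagonal, Matrix.diagonal_mul] at h01 h10
  simp only [Matrix.cons_val_zero, Matrix.cons_val_one] at h01 h10
  constructor
  · have : N 0 1 * (μ₂ - μ₁) = 0 := by rw [mul_sub, h01]; ring
    rcases mul_eq_zero.1 this with h0 | h0
    · exact h0
    · exact absurd (sub_eq_zero.1 h0).symm h
  · have : N 1 0 * (μ₁ - μ₂) = 0 := by rw [mul_sub, h10]; ring
    rcases mul_eq_zero.1 this with h0 | h0
    · exact h0
    · exact absurd (sub_eq_zero.1 h0) h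

theorem commute_of_diag (μ₁ μ₂ : K) {N : Matrix (Fin 2) (Fin 2) K} (hN : IsDiag N) :
    N * Matrix.diagonal ![μ₁, μ₂] = Matrix.diagonal ![μ₁, μ₂] * N := by
  ext i j
  rw [Matrix.mul_diagonal, Matrix.diagonal_mul]
  fin_cases i <;> fin_cases j <;> simp [hN.1, hN.2, mul_comm]

theorem diag_mul_comm {N N' : Matrix (Fin 2) (Fin 2) K} (hN : IsDiag N) (hN' : IsDiag N') :
    N * N' = N' * N := by
  ext i j
  rw [Matrix.mul_apply, Matrix.mul_apply, Fin.sum_univ_two, Fin.sum_univ_two]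
  fin_cases i <;> fin_cases j <;> simp [hN.1, hN.2, hN'.1, hN'.2, mul_comm]

theorem diag_of_anti_mul_anti {P P' : Matrix (Fin 2) (Fin 2) K} (hP : IsAnti P) (hP' : IsAnti P') :
    IsDiag (P * P') := by
  constructor
  · rw [Matrix.mul_apply, Fin.sum_univ_two, hP.1, hP'.2]; ring
  · rw [Matrix.mul_apply, Fin.sum_univ_two, hP.2, hP'.1]; ring

theorem diag_or_anti {μ₁ μ₂ : K} (h : μ₁ ≠ μ₂) {P Q : Matrix (Fin 2) (Fin 2) K}
    (hPQ : P * Q = 1) (hQP : Q * P = 1)
    (hD : IsDiag (P * Matrix.diagonal ![μ₁, μ₂] * Q)) : IsDiag P ∨ IsAnti P := by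
  set D' := P * Matrix.diagonal ![μ₁, μ₂] * Q with hD'
  have hkey : D' * P = P * Matrix.diagonal ![μ₁, μ₂] := by
    rw [hD', Matrix.mul_assoc, hQP, Matrix.mul_one]
  have e : ∀ i j : Fin 2, D' i i * P i j = P i j * ![μ₁, μ₂] j := by
    intro i j
    have := congrFun (congrFun hkey i) j
    rw [Matrix.mul_diagonal, Matrix.mul_apply, Fin.sum_univ_two] at this
    fin_cases i
    · simpa [hD.1] using this
    · simpa [hD.2] using this
  have e00 := e 0 0
  have e01 := e 0 1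
  have e10 := e 1 0
  have e11 := e 1 1
  simp only [Matrix.cons_val_zero, Matrix.cons_val_one] at e00 e01 e10 e11
  have pq00 := congrFun (congrFun hPQ 0) 0
  have pq01 := congrFun (congrFun hPQ 0) 1
  have pq11 := congrFun (congrFun hPQ 1) 1
  have qp00 := congrFun (congrFun hQP 0) 0
  rw [Matrix.mul_apply, Fin.sum_univ_two] at pq00 pq01 pq11 qp00
  simp only [Matrix.one_apply_eq, Matrix.one_apply_ne (show (0 : Fin 2) ≠ 1 by decide)] at pq00 pq01 pq11 qp00
  by_cases h00 : P 0 0 = 0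
  · right
    refine ⟨h00, ?_⟩
    rw [h00, zero_mul, zero_add] at pq00
    rw [h00, mul_zero, zero_add] at qp00
    have hp01 : P 0 1 ≠ 0 := by
      intro h0; rw [h0, zero_mul] at pq00; exact zero_ne_one pq00
    have hp10 : P 1 0 ≠ 0 := by
      intro h0; rw [h0, mul_zero] at qp00; exact zero_ne_one qp00
    have hd0 : D' 0 0 = μ₂ := by
      have : (D' 0 0 - μ₂) * P 0 1 = 0 := by rw [sub_mul, e01]; ring
      rcases mul_eq_zero.1 this with h0 | h0
      · exact sub_eq_zero.1 h0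
      · exact absurd h0 hp01
    have hd1 : D' 1 1 = μ₁ := by
      have : (D' 1 1 - μ₁) * P 1 0 = 0 := by rw [sub_mul, e10]; ring
      rcases mul_eq_zero.1 this with h0 | h0
      · exact sub_eq_zero.1 h0
      · exact absurd h0 hp10
    rw [hd1] at e11
    have : (μ₁ - μ₂) * P 1 1 = 0 := by rw [sub_mul, e11]; ring
    rcases mul_eq_zero.1 this with h0 | h0
    · exact absurd (sub_eq_zero.1 h0) h
    · exact h0
  · left
    have hd0 : D' 0 0 = μ₁ := by
      have : (D' 0 0 - μ₁) * P 0 0 = 0 := by rw [sub_mul, e00]; ring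
      rcases mul_eq_zero.1 this with h0 | h0
      · exact sub_eq_zero.1 h0
      · exact absurd h0 h00
    rw [hd0] at e01
    have hp01 : P 0 1 = 0 := by
      have : (μ₁ - μ₂) * P 0 1 = 0 := by rw [sub_mul, e01]; ring
      rcases mul_eq_zero.1 this with h0 | h0
      · exact absurd (sub_eq_zero.1 h0) h
      · exact h0
    refine ⟨hp01, ?_⟩
    rw [hp01, zero_mul, add_zero] at pq01
    have hq01 : Q 0 1 = 0 := by
      rcases mul_eq_zero.1 pq01 with h0 | h0
      · exact absurd h0 h00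
      · exact h0
    rw [hq01, mul_zero, zero_add] at pq11
    have hp11 : P 1 1 ≠ 0 := by
      intro h0; rw [h0, zero_mul] at pq11; exact zero_ne_one pq11
    have hd1 : D' 1 1 = μ₂ := by
      have : (D' 1 1 - μ₂) * P 1 1 = 0 := by rw [sub_mul, e11]; ring
      rcases mul_eq_zero.1 this with h0 | h0
      · exact sub_eq_zero.1 h0
      · exact absurd h0 hp11
    rw [hd1] at e10
    have : (μ₂ - μ₁) * P 1 0 = 0 := by rw [sub_mul, e10]; ring
    rcases mul_eq_zero.1 this with h0 | h0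
    · exact absurd (sub_eq_zero.1 h0).symm h
    · exact h0

end Mat

section Rep

variable {G : Type*} [Group G] [Finite G] {V : Type*} [AddCommGroup V] [Module ℂ V]
  [FiniteDimensional ℂ V]

/-- Diagonalize a non-scalar `ρ x` on a 2-dimensional space. -/
theorem exists_diag_hom (ρ : Representation ℂ G V) (hdim : finrank ℂ V = 2) (x : G)
    (hx : ¬ ∃ c : ℂ, ρ x = c • (LinearMap.id : V →ₗ[ℂ] V)) :
    ∃ (Φ : G → Matrix (Fin 2) (Fin 2) ℂ) (μ₁ μ₂ : ℂ),
      (∀ g h, Φ (g * h) = Φ g * Φ h) ∧ Φ 1 = 1 ∧ (∀ g h, Φ g = Φ h → ρ g = ρ h) ∧ μ₁ ≠ μ₂ ∧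
      Φ x = Matrix.diagonal ![μ₁, μ₂] := by
  classical
  obtain ⟨μ₁, hμ₁, μ₂, hμ₂, hne⟩ : ∃ μ₁ ∈ Cfsg.Agent.H4.eigFinset ρ x,
      ∃ μ₂ ∈ Cfsg.Agent.H4.eigFinset ρ x, μ₁ ≠ μ₂ := by
    by_contra hcon
    push Not at hcon
    rcases (Cfsg.Agent.H4.eigFinset ρ x).eq_empty_or_nonempty with h | ⟨u, hu⟩
    · exact hx ⟨0, Cfsg.Agent.H4.rho_eq_smul_of_eigFinset ρ x 0 (by simp [h])⟩
    · exact hx ⟨u, Cfsg.Agent.H4.rho_eq_smul_of_eigFinset ρ x u (fun μ hμ => hcon μ hμ u hu)⟩
  rw [Cfsg.Agent.H4.mem_eigFinset] at hμ₁ hμ₂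
  obtain ⟨v₁, hv₁, hv₁0⟩ := (Submodule.ne_bot_iff _).mp hμ₁
  obtain ⟨v₂, hv₂, hv₂0⟩ := (Submodule.ne_bot_iff _).mp hμ₂
  have hinj : Function.Injective ![μ₁, μ₂] := by
    intro i j hij
    fin_cases i <;> fin_cases j <;> simp_all
  have hli : LinearIndependent ℂ ![v₁, v₂] := by
    apply Module.End.eigenvectors_linearIndependent' (ρ x) ![μ₁, μ₂] hinj
    intro i
    fin_cases i
    · exact ⟨hv₁, hv₁0⟩
    · exact ⟨hv₂, hv₂0⟩
  set b : Basis (Fin 2) ℂ V := basisOfLinearIndependentOfCardEqFinrank hli (by simp [hdim]) with hb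
  have hbcoe : ⇑b = ![v₁, v₂] := coe_basisOfLinearIndependentOfCardEqFinrank hli _
  refine ⟨fun g => LinearMap.toMatrix b b (ρ g), μ₁, μ₂, ?_, ?_, ?_, hne, ?_⟩
  · intro g h
    simp only [map_mul]
    exact LinearMap.toMatrix_mul b (ρ g) (ρ h)
  · simp only [map_one]
    exact LinearMap.toMatrix_one b
  · intro g h hgh
    exact (LinearMap.toMatrix b b).injective hgh
  · show LinearMap.toMatrix b b (ρ x) = Matrix.diagonal ![μ₁, μ₂]
    ext i j
    rw [LinearMap.toMatrix_apply, Matrix.diagonal_apply]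
    have hbj : ρ x (b j) = ![μ₁, μ₂] j • b j := by
      rw [hbcoe]
      fin_cases j
      · exact Module.End.mem_eigenspace_iff.1 hv₁
      · exact Module.End.mem_eigenspace_iff.1 hv₂
    rw [hbj, map_smul, Basis.repr_self, Finsupp.smul_apply, Finsupp.single_apply, smul_eq_mul]
    fin_cases i <;> fin_cases j <;> simp

variable (ρ : Representation ℂ G V) (hdim : finrank ℂ V = 2) (hinj : Function.Injective ρ)
include hdim hinj

/-- Elements commuting with a non-scalar element commute with each other. -/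
theorem comm_of_commute (x : G) (hx : ¬ ∃ c : ℂ, ρ x = c • (LinearMap.id : V →ₗ[ℂ] V))
    (a b : G) (ha : a * x = x * a) (hb : b * x = x * b) : a * b = b * a := by
  obtain ⟨Φ, μ₁, μ₂, hmul, -, hΦ, hne, hΦx⟩ := exists_diag_hom ρ hdim x hx
  have da : IsDiag (Φ a) := by
    apply diag_of_commute hne
    rw [← hΦx, ← hmul, ← hmul, ha]
  have db : IsDiag (Φ b) := by
    apply diag_of_commute hne
    rw [← hΦx, ← hmul, ← hmul, hb]
  apply hinj
  apply hΦ
  rw [hmul, hmul]
  exact diag_mul_comm da db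

/-- If `g x g⁻¹`, `h x h⁻¹` commute with the non-scalar `x` but `g`, `h` do not, then `g h`
commutes with `x`. -/
theorem mul_commute_of_conj (x : G) (hx : ¬ ∃ c : ℂ, ρ x = c • (LinearMap.id : V →ₗ[ℂ] V))
    (g h : G) (hg : (g * x * g⁻¹) * x = x * (g * x * g⁻¹))
    (hh : (h * x * h⁻¹) * x = x * (h * x * h⁻¹)) (hg' : g * x ≠ x * g) (hh' : h * x ≠ x * h) :
    (g * h) * x = x * (g * h) := by
  obtain ⟨Φ, μ₁, μ₂, hmul, hone, hΦ, hne, hΦx⟩ := exists_diag_hom ρ hdim x hx
  have key : ∀ k : G, (k * x * k⁻¹) * x = x * (k * x * k⁻¹) → k * x ≠ x * k → IsAnti (Φ k) := by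
    intro k hk hk'
    have d1 : IsDiag (Φ k * Matrix.diagonal ![μ₁, μ₂] * Φ k⁻¹) := by
      apply diag_of_commute hne
      rw [← hΦx, ← hmul, ← hmul, ← hmul, ← hmul, hk]
    have hPQ : Φ k * Φ k⁻¹ = 1 := by rw [← hmul, mul_inv_cancel, hone]
    have hQP : Φ k⁻¹ * Φ k = 1 := by rw [← hmul, inv_mul_cancel, hone]
    rcases diag_or_anti hne hPQ hQP d1 with hd | ha
    · exfalso
      apply hk'
      apply hinj
      apply hΦ
      rw [hmul, hmul, hΦx]
      exact commute_of_diag μ₁ μ₂ hd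
    · exact ha
  have dgh : IsDiag (Φ (g * h)) := by
    rw [hmul]
    exact diag_of_anti_mul_anti (key g hg hg') (key h hh hh')
  apply hinj
  apply hΦ
  rw [hmul (g * h) x, hmul x (g * h), hΦx]
  exact commute_of_diag μ₁ μ₂ dgh

end Rep

end Cfsg.Agent.H70.Prim2
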