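import Mathlib
import Cfsg.Agent.H56.CD

/-!
# Groups with abelian centralizers of non-central elements: counting (helper70)

`ca_main`: let `G` be a finite non-abelian group such that (H1) the centralizer of every non-central
element is abelian and (H2) for non-central `x`, if `g x g⁻¹` and `h x h⁻¹` commute with `x` but
`g`, `h` do not, then `g h` commutes with `x`.  Then `|G : Z(G)| ∈ {12, 24, 60}` or some
non-central element has a centralizer of index 2.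
-/

set_option autoImplicit false
set_option linter.unusedSectionVars false
set_option linter.unusedVariables false

namespace Cfsg.Agent.H70.Prim2


theorem ar1 {g a e n : ℕ} (ha : 2 ≤ a) (he : e = 1 ∨ e = 2) (hn : 1 ≤ n) (hg : g = n * e * a)
    (hne : e * n ≠ 1) (h : n * a + 1 = g + n) : False := by
  have hP : n * 2 ≤ n * a := Nat.mul_le_mul_left n ha
  have hg' : g = e * (n * a) := by rw [hg]; ring
  generalize n * a = P at *
  rcases he with rfl | rfl <;> omega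

theorem ar4 {g a₁ e₁ n₁ a₂ e₂ n₂ a₃ e₃ n₃ a₄ e₄ n₄ : ℕ}
    (ha₁ : 2 ≤ a₁) (he₁ : e₁ = 1 ∨ e₁ = 2) (hn₁ : 1 ≤ n₁) (hg₁ : g = n₁ * e₁ * a₁)
    (ha₂ : 2 ≤ a₂) (he₂ : e₂ = 1 ∨ e₂ = 2) (hn₂ : 1 ≤ n₂) (hg₂ : g = n₂ * e₂ * a₂)
    (ha₃ : 2 ≤ a₃) (he₃ : e₃ = 1 ∨ e₃ = 2) (hn₃ : 1 ≤ n₃) (hg₃ : g = n₃ * e₃ * a₃)
    (ha₄ : 2 ≤ a₄) (he₄ : e₄ = 1 ∨ e₄ = 2) (hn₄ : 1 ≤ n₄) (hg₄ : g = n₄ * e₄ * a₄)
    (h : n₁ * a₁ + n₂ * a₂ + n₃ * a₃ + n₄ * a₄ + 1 ≤ g + n₁ + n₂ + n₃ + n₄) : False := by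
  have hP₁ : n₁ * 2 ≤ n₁ * a₁ := Nat.mul_le_mul_left n₁ ha₁
  have hg₁' : g = e₁ * (n₁ * a₁) := by rw [hg₁]; ring
  have hP₂ : n₂ * 2 ≤ n₂ * a₂ := Nat.mul_le_mul_left n₂ ha₂
  have hg₂' : g = e₂ * (n₂ * a₂) := by rw [hg₂]; ring
  have hP₃ : n₃ * 2 ≤ n₃ * a₃ := Nat.mul_le_mul_left n₃ ha₃
  have hg₃' : g = e₃ * (n₃ * a₃) := by rw [hg₃]; ring
  have hP₄ : n₄ * 2 ≤ n₄ * a₄ := Nat.mul_le_mul_left n₄ ha₄
  have hg₄' : g = e₄ * (n₄ * a₄) := by rw [hg₄]; ring
  clear hg₁ hg₂ hg₃ hg₄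
  generalize n₁ * a₁ = P₁ at *
  generalize n₂ * a₂ = P₂ at *
  generalize n₃ * a₃ = P₃ at *
  generalize n₄ * a₄ = P₄ at *
  rcases he₁ with rfl | rfl <;> rcases he₂ with rfl | rfl <;> rcases he₃ with rfl | rfl <;>
    rcases he₄ with rfl | rfl <;> omega

/-- (1,2) case of two types -/
theorem ar2core {g a₁ n₁ a₂ n₂ : ℕ}
    (ha₁ : 2 ≤ a₁) (hn₁ : 1 ≤ n₁) (hg₁ : g = n₁ * a₁)
    (ha₂ : 2 ≤ a₂) (hn₂ : 1 ≤ n₂) (hg₂ : g = 2 * (n₂ * a₂))
    (h : n₁ * a₁ + n₂ * a₂ + 1 = g + n₁ + n₂) : g = 12 ∨ n₂ = 1 := by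
  rcases (show a₁ = 2 ∨ 3 ≤ a₁ by omega) with rfl | h3
  · right; omega
  · left
    have hP₁ : n₁ * 3 ≤ n₁ * a₁ := Nat.mul_le_mul_left n₁ h3
    have ha₂' : a₂ = 2 := by
      by_contra hne
      have hP₂ : n₂ * 3 ≤ n₂ * a₂ := Nat.mul_le_mul_left n₂ (by omega)
      omega
    subst ha₂'
    have hn : n₁ = n₂ + 1 := by omega
    subst hn
    have ha₁' : a₁ = 3 := by
      by_contra hne
      have hP₂ : (n₂ + 1) * 4 ≤ (n₂ + 1) * a₁ := Nat.mul_le_mul_left _ (by omega)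
      omega
    subst ha₁'
    omega

theorem ar2 {g a₁ e₁ n₁ a₂ e₂ n₂ : ℕ}
    (ha₁ : 2 ≤ a₁) (he₁ : e₁ = 1 ∨ e₁ = 2) (hn₁ : 1 ≤ n₁) (hg₁ : g = n₁ * e₁ * a₁)
    (hne₁ : e₁ * n₁ ≠ 1)
    (ha₂ : 2 ≤ a₂) (he₂ : e₂ = 1 ∨ e₂ = 2) (hn₂ : 1 ≤ n₂) (hg₂ : g = n₂ * e₂ * a₂)
    (hne₂ : e₂ * n₂ ≠ 1)
    (h : n₁ * a₁ + n₂ * a₂ + 1 = g + n₁ + n₂) : g = 12 ∨ e₁ * n₁ = 2 ∨ e₂ * n₂ = 2 := by
  have hP₁ : n₁ * 2 ≤ n₁ * a₁ := Nat.mul_le_mul_left n₁ ha₁
  have hg₁' : g = e₁ * (n₁ * a₁) := by rw [hg₁]; ring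
  have hP₂ : n₂ * 2 ≤ n₂ * a₂ := Nat.mul_le_mul_left n₂ ha₂
  have hg₂' : g = e₂ * (n₂ * a₂) := by rw [hg₂]; ring
  rcases he₁ with rfl | rfl <;> rcases he₂ with rfl | rfl
  · exfalso; omega
  · rcases ar2core ha₁ hn₁ (by omega) ha₂ hn₂ hg₂' h with h12 | h1
    · exact Or.inl h12
    · right; right; omega
  · rcases ar2core ha₂ hn₂ (by omega) ha₁ hn₁ hg₁' (by omega) with h12 | h1
    · exact Or.inl h12
    · right; left; omega
  · exfalso; omega

/-- three types, all `e = 2`, `a₁ = 2`, `a₂ = 3` -/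
theorem ar3core2 {p n₁ n₂ a₃ n₃ : ℕ}
    (hn₁ : 1 ≤ n₁) (hg₁ : p = n₁ * 2) (hn₂ : 1 ≤ n₂) (hg₂ : p = n₂ * 3)
    (ha₃ : 3 ≤ a₃) (hn₃ : 1 ≤ n₃) (hg₃ : p = n₃ * a₃)
    (h : n₁ + n₂ + n₃ = p + 1) : 2 * p = 12 ∨ 2 * p = 24 ∨ 2 * p = 60 := by
  have h6 : a₃ < 6 := by
    by_contra hne
    have : n₃ * 6 ≤ n₃ * a₃ := Nat.mul_le_mul_left _ (by omega)
    omega
  interval_cases a₃ <;> omega

/-- three types, all `e = 2`, `a₁ = 2` -/
theorem ar3core {p n₁ a₂ n₂ a₃ n₃ : ℕ}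
    (hn₁ : 1 ≤ n₁) (hg₁ : p = n₁ * 2)
    (ha₂ : 2 ≤ a₂) (hn₂ : 1 ≤ n₂) (hg₂ : p = n₂ * a₂)
    (ha₃ : 2 ≤ a₃) (hn₃ : 1 ≤ n₃) (hg₃ : p = n₃ * a₃)
    (h : n₁ + n₂ + n₃ = p + 1) :
    2 * p = 12 ∨ 2 * p = 24 ∨ 2 * p = 60 ∨ n₂ = 1 ∨ n₃ = 1 := by
  rcases (show a₂ = 2 ∨ a₂ = 3 ∨ 4 ≤ a₂ by omega) with rfl | rfl | h4
  · right; right; right; right; omega
  · rcases (show a₃ = 2 ∨ 3 ≤ a₃ by omega) with rfl | h3
    · right; right; right; left; omega
    · rcases ar3core2 hn₁ hg₁ hn₂ hg₂ h3 hn₃ hg₃ h with h | h | h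
      · exact Or.inl h
      · exact Or.inr (Or.inl h)
      · exact Or.inr (Or.inr (Or.inl h))
  · rcases (show a₃ = 2 ∨ a₃ = 3 ∨ 4 ≤ a₃ by omega) with rfl | rfl | h4'
    · right; right; right; left; omega
    · rcases ar3core2 hn₁ hg₁ hn₃ hg₃ (by omega : 3 ≤ a₂) hn₂ hg₂ (by omega) with h | h | h
      · exact Or.inl h
      · exact Or.inr (Or.inl h)
      · exact Or.inr (Or.inr (Or.inl h))
    · exfalso
      have : n₂ * 4 ≤ n₂ * a₂ := Nat.mul_le_mul_left _ h4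
      have : n₃ * 4 ≤ n₃ * a₃ := Nat.mul_le_mul_left _ h4'
      omega

theorem ar3 {g a₁ e₁ n₁ a₂ e₂ n₂ a₃ e₃ n₃ : ℕ}
    (ha₁ : 2 ≤ a₁) (he₁ : e₁ = 1 ∨ e₁ = 2) (hn₁ : 1 ≤ n₁) (hg₁ : g = n₁ * e₁ * a₁)
    (ha₂ : 2 ≤ a₂) (he₂ : e₂ = 1 ∨ e₂ = 2) (hn₂ : 1 ≤ n₂) (hg₂ : g = n₂ * e₂ * a₂)
    (ha₃ : 2 ≤ a₃) (he₃ : e₃ = 1 ∨ e₃ = 2) (hn₃ : 1 ≤ n₃) (hg₃ : g = n₃ * e₃ * a₃)
    (h : n₁ * a₁ + n₂ * a₂ + n₃ * a₃ + 1 = g + n₁ + n₂ + n₃) :
    g = 12 ∨ g = 24 ∨ g = 60 ∨ e₁ * n₁ = 2 ∨ e₂ * n₂ = 2 ∨ e₃ * n₃ = 2 := by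
  have hP₁ : n₁ * 2 ≤ n₁ * a₁ := Nat.mul_le_mul_left n₁ ha₁
  have hg₁' : g = e₁ * (n₁ * a₁) := by rw [hg₁]; ring
  have hP₂ : n₂ * 2 ≤ n₂ * a₂ := Nat.mul_le_mul_left n₂ ha₂
  have hg₂' : g = e₂ * (n₂ * a₂) := by rw [hg₂]; ring
  have hP₃ : n₃ * 2 ≤ n₃ * a₃ := Nat.mul_le_mul_left n₃ ha₃
  have hg₃' : g = e₃ * (n₃ * a₃) := by rw [hg₃]; ring
  clear hg₁ hg₂ hg₃
  rcases he₁ with rfl | rfl
  · exfalso
    rcases he₂ with rfl | rfl <;> rcases he₃ with rfl | rfl <;> omega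
  rcases he₂ with rfl | rfl
  · exfalso
    rcases he₃ with rfl | rfl <;> omega
  rcases he₃ with rfl | rfl
  · exfalso; omega
  -- all e = 2
  obtain ⟨p, hp⟩ : ∃ p, p = n₁ * a₁ := ⟨_, rfl⟩
  have hp₂ : p = n₂ * a₂ := by omega
  have hp₃ : p = n₃ * a₃ := by omega
  have hgp : g = 2 * p := by omega
  have hsum : n₁ + n₂ + n₃ = p + 1 := by omega
  rw [hgp]
  rcases (show a₁ = 2 ∨ 3 ≤ a₁ by omega) with rfl | h1
  · rcases ar3core hn₁ hp ha₂ hn₂ hp₂ ha₃ hn₃ hp₃ hsum with h | h | h | h | h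
    · exact Or.inl h
    · exact Or.inr (Or.inl h)
    · exact Or.inr (Or.inr (Or.inl h))
    · right; right; right; right; left; omega
    · right; right; right; right; right; omega
  rcases (show a₂ = 2 ∨ 3 ≤ a₂ by omega) with rfl | h2
  · rcases ar3core hn₂ hp₂ ha₁ hn₁ hp ha₃ hn₃ hp₃ (by omega) with h | h | h | h | h
    · exact Or.inl h
    · exact Or.inr (Or.inl h)
    · exact Or.inr (Or.inr (Or.inl h))
    · right; right; right; left; omega
    · right; right; right; right; right; omega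
  rcases (show a₃ = 2 ∨ 3 ≤ a₃ by omega) with rfl | h3
  · rcases ar3core hn₃ hp₃ ha₁ hn₁ hp ha₂ hn₂ hp₂ (by omega) with h | h | h | h | h
    · exact Or.inl h
    · exact Or.inr (Or.inl h)
    · exact Or.inr (Or.inr (Or.inl h))
    · right; right; right; left; omega
    · right; right; right; right; left; omega
  exfalso
  have : n₁ * 3 ≤ n₁ * a₁ := Nat.mul_le_mul_left _ h1
  have : n₂ * 3 ≤ n₂ * a₂ := Nat.mul_le_mul_left _ h2
  have : n₃ * 3 ≤ n₃ * a₃ := Nat.mul_le_mul_left _ h3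
  omega


open Subgroup Finset

section CA

variable {G : Type*} [Group G] [Fintype G]

/-- centralizer of an element -/
abbrev cz (x : G) : Subgroup G := Subgroup.centralizer ({x} : Set G)

theorem mem_cz {x g : G} : g ∈ cz x ↔ g * x = x * g := Subgroup.mem_centralizer_singleton_iff

theorem center_le_cz (x : G) : center G ≤ cz x := Subgroup.center_le_centralizer _

theorem not_mem_center_conj {t : G} (ht : t ∉ center G) (g : G) : g * t * g⁻¹ ∉ center G := by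
  intro h
  apply ht
  have := (inferInstance : (center G).Normal).conj_mem _ h g⁻¹
  simpa [mul_assoc] using this

theorem conj_comm_iff {k h x : G} :
    (k * h * k⁻¹) * (k * x * k⁻¹) = (k * x * k⁻¹) * (k * h * k⁻¹) ↔ h * x = x * h := by
  have e1 : k * h * k⁻¹ * (k * x * k⁻¹) = k * (h * x) * k⁻¹ := by group
  have e2 : k * x * k⁻¹ * (k * h * k⁻¹) = k * (x * h) * k⁻¹ := by group
  rw [e1, e2]
  constructor
  · intro H; exact mul_left_cancel (mul_right_cancel H)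
  · intro H; rw [H]

theorem cz_eq (H1 : ∀ x : G, x ∉ center G → ∀ a b : G, a * x = x * a → b * x = x * b → a * b = b * a)
    {x y : G} (hx : x ∉ center G) (hy : y ∉ center G) (hxy : y * x = x * y) : cz y = cz x := by
  ext g
  rw [mem_cz, mem_cz]
  constructor
  · intro hg
    exact H1 y hy g x hg hxy.symm
  · intro hg
    exact H1 x hx g y hg hxy

theorem norm_iff (H1 : ∀ x : G, x ∉ center G → ∀ a b : G, a * x = x * a → b * x = x * b → a * b = b * a)
    {x s : G} (hx : x ∉ center G) (hs : s ∉ center G) (hsx : s * x = x * s) (k : G) :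
    k ∈ normalizer (cz x : Set G) ↔ (k * s * k⁻¹) * x = x * (k * s * k⁻¹) := by
  have e1 : cz s = cz x := cz_eq H1 hx hs hsx
  constructor
  · intro hk
    rw [← mem_cz]
    exact (Subgroup.mem_normalizer_iff.1 hk s).1 (mem_cz.2 hsx)
  · intro hk
    have e2 : cz (k * s * k⁻¹) = cz x := cz_eq H1 hx (not_mem_center_conj hs k) hk
    rw [Subgroup.mem_normalizer_iff]
    intro h
    constructor
    · intro hh
      rw [← e2, mem_cz]
      rw [← e1, mem_cz] at hh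
      exact conj_comm_iff.2 hh
    · intro hh
      rw [← e1, mem_cz]
      rw [← e2, mem_cz] at hh
      exact conj_comm_iff.1 hh

open Classical in
/-- the type of `x`: non-central elements with a conjugate commuting with `x` -/
noncomputable def ty (x : G) : Finset G :=
  univ.filter (fun y => y ∉ center G ∧ ∃ g : G, (g * y * g⁻¹) * x = x * (g * y * g⁻¹))

theorem mem_ty {x y : G} :
    y ∈ ty x ↔ y ∉ center G ∧ ∃ g : G, (g * y * g⁻¹) * x = x * (g * y * g⁻¹) := by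
  classical
  simp [ty]

theorem ty_disjoint
    (H1 : ∀ x : G, x ∉ center G → ∀ a b : G, a * x = x * a → b * x = x * b → a * b = b * a)
    {x y : G} (hy : y ∉ center G) (hyx : y ∉ ty x) : Disjoint (ty x) (ty y) := by
  rw [Finset.disjoint_left]
  intro t htx hty
  apply hyx
  obtain ⟨ht, g, hg⟩ := mem_ty.1 htx
  obtain ⟨-, h, hh⟩ := mem_ty.1 hty
  refine mem_ty.2 ⟨hy, g * h⁻¹, ?_⟩
  have hs : g * t * g⁻¹ ∉ center G := not_mem_center_conj ht g
  refine H1 (g * t * g⁻¹) hs _ x ?_ hg.symm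
  have h3 : t * (h⁻¹ * y * h) = (h⁻¹ * y * h) * t := by
    have := congrArg (fun u => h⁻¹ * u * h) hh
    simpa [mul_assoc] using this
  calc g * h⁻¹ * y * (g * h⁻¹)⁻¹ * (g * t * g⁻¹) = g * ((h⁻¹ * y * h) * t) * g⁻¹ := by group
    _ = g * (t * (h⁻¹ * y * h)) * g⁻¹ := by rw [h3]
    _ = _ := by group

theorem card_filter_mem (H : Subgroup G) [DecidablePred (· ∈ H)] :
    (univ.filter (· ∈ H)).card = Nat.card H := by
  rw [Nat.card_eq_fintype_card, Fintype.card_subtype]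

theorem card_ty
    (H1 : ∀ x : G, x ∉ center G → ∀ a b : G, a * x = x * a → b * x = x * b → a * b = b * a)
    {x : G} (hx : x ∉ center G) :
    (ty x).card * Nat.card (normalizer (cz x : Set G)) =
      Nat.card G * (Nat.card (cz x) - Nat.card (center G)) := by
  classical
  let r : G → G → Prop := fun g t => t ∉ center G ∧ (g * t * g⁻¹) * x = x * (g * t * g⁻¹)
  have key := Finset.sum_card_bipartiteAbove_eq_sum_card_bipartiteBelow r
    (s := (univ : Finset G)) (t := (univ : Finset G))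
  have hL : ∀ g, ((univ : Finset G).bipartiteAbove r g).card =
      Nat.card (cz x) - Nat.card (center G) := by
    intro g
    have hsub : (univ.filter (· ∈ center G)) ⊆ (univ.filter (· ∈ cz x)) := by
      intro s hs
      rw [mem_filter] at hs ⊢
      exact ⟨hs.1, center_le_cz x hs.2⟩
    rw [← card_filter_mem (cz x), ← card_filter_mem (center G),
      ← Finset.card_sdiff_of_subset hsub]
    apply Finset.card_nbij' (fun t => g * t * g⁻¹) (fun s => g⁻¹ * s * g)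
    · intro t ht
      have ht' := ((mem_bipartiteAbove r).1 ht).2
      simp only [coe_sdiff, Set.mem_sdiff, mem_coe, mem_filter, mem_univ, true_and]
      exact ⟨mem_cz.2 ht'.2, not_mem_center_conj ht'.1 g⟩
    · intro s hs
      simp only [coe_sdiff, Set.mem_sdiff, mem_coe, mem_filter, mem_univ, true_and] at hs
      refine (mem_bipartiteAbove r).2 ⟨mem_univ _, ?_, ?_⟩
      · have := not_mem_center_conj hs.2 g⁻¹
        simpa using this
      · have : g * (g⁻¹ * s * g) * g⁻¹ = s := by group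
        rw [this]
        exact mem_cz.1 hs.1
    · intro t _
      show g⁻¹ * (g * t * g⁻¹) * g = t
      group
    · intro s _
      show g * (g⁻¹ * s * g) * g⁻¹ = s
      group
  have hR : ∀ t, ((univ : Finset G).bipartiteBelow r t).card =
      if t ∈ ty x then Nat.card (normalizer (cz x : Set G)) else 0 := by
    intro t
    split_ifs with ht
    · obtain ⟨htZ, g₀, hg₀⟩ := mem_ty.1 ht
      have hs : g₀ * t * g₀⁻¹ ∉ center G := not_mem_center_conj htZ g₀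
      rw [← card_filter_mem (normalizer (cz x : Set G))]
      apply Finset.card_nbij' (fun g => g * g₀⁻¹) (fun k => k * g₀)
      · intro g hg
        have hg' := ((mem_bipartiteBelow r).1 hg).2
        simp only [mem_coe, mem_filter, mem_univ, true_and]
        rw [norm_iff H1 hx hs hg₀]
        have : g * g₀⁻¹ * (g₀ * t * g₀⁻¹) * (g * g₀⁻¹)⁻¹ = g * t * g⁻¹ := by group
        rw [this]
        exact hg'.2
      · intro k hk
        simp only [mem_coe, mem_filter, mem_univ, true_and] at hk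
        refine (mem_bipartiteBelow r).2 ⟨mem_univ _, htZ, ?_⟩
        rw [norm_iff H1 hx hs hg₀] at hk
        have : k * (g₀ * t * g₀⁻¹) * k⁻¹ = k * g₀ * t * (k * g₀)⁻¹ := by group
        rw [this] at hk
        exact hk
      · intro g _
        show g * g₀⁻¹ * g₀ = g
        group
      · intro k _
        show k * g₀ * g₀⁻¹ = k
        group
    · rw [Finset.card_eq_zero, Finset.eq_empty_iff_forall_notMem]
      intro g hg
      have hg' := ((mem_bipartiteBelow r).1 hg).2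
      exact ht (mem_ty.2 ⟨hg'.1, g, hg'.2⟩)
  rw [Finset.sum_congr rfl (fun g _ => hL g), Finset.sum_congr rfl (fun t _ => hR t),
    Finset.sum_const, Finset.card_univ, smul_eq_mul, Finset.sum_ite_mem, Finset.univ_inter,
    Finset.sum_const, smul_eq_mul, ← Nat.card_eq_fintype_card] at key
  exact key.symm

theorem relIndex_norm
    (H1 : ∀ x : G, x ∉ center G → ∀ a b : G, a * x = x * a → b * x = x * b → a * b = b * a)
    (H2 : ∀ x : G, x ∉ center G → ∀ g h : G, (g * x * g⁻¹) * x = x * (g * x * g⁻¹) →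
      (h * x * h⁻¹) * x = x * (h * x * h⁻¹) → g * x ≠ x * g → h * x ≠ x * h →
      (g * h) * x = x * (g * h))
    {x : G} (hx : x ∉ center G) :
    (cz x).relIndex (normalizer (cz x : Set G)) = 1 ∨
      (cz x).relIndex (normalizer (cz x : Set G)) = 2 := by
  by_cases h : normalizer (cz x : Set G) ≤ cz x
  · left; exact Subgroup.relIndex_eq_one.2 h
  · right
    obtain ⟨a, haN, haA⟩ := SetLike.not_le_iff_exists.1 h
    rw [Subgroup.relIndex, Subgroup.index_eq_two_iff]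
    refine ⟨⟨a, haN⟩, fun b => ?_⟩
    rw [Subgroup.mem_subgroupOf, Subgroup.mem_subgroupOf]
    by_cases hb : (b : G) ∈ cz x
    · right
      refine ⟨hb, fun hba => haA ?_⟩
      have := (cz x).mul_mem ((cz x).inv_mem hb) hba
      simpa using this
    · left
      refine ⟨?_, hb⟩
      rw [mem_cz]
      exact H2 x hx b a ((norm_iff H1 hx hx rfl b).1 b.2) ((norm_iff H1 hx hx rfl a).1 haN)
        (fun h => hb (mem_cz.2 h)) (fun h => haA (mem_cz.2 h))

theorem ty_data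
    (H1 : ∀ x : G, x ∉ center G → ∀ a b : G, a * x = x * a → b * x = x * b → a * b = b * a)
    (H2 : ∀ x : G, x ∉ center G → ∀ g h : G, (g * x * g⁻¹) * x = x * (g * x * g⁻¹) →
      (h * x * h⁻¹) * x = x * (h * x * h⁻¹) → g * x ≠ x * g → h * x ≠ x * h →
      (g * h) * x = x * (g * h))
    {x : G} (hx : x ∉ center G) :
    ∃ a e n : ℕ, 2 ≤ a ∧ (e = 1 ∨ e = 2) ∧ 1 ≤ n ∧ (center G).index = n * e * a ∧
      (cz x).index = e * n ∧ e * n ≠ 1 ∧
      (ty x).card + n * Nat.card (center G) = n * a * Nat.card (center G) := by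
  have hAN : cz x ≤ normalizer (cz x : Set G) := Subgroup.le_normalizer
  have hZA : center G ≤ cz x := center_le_cz x
  have ha2 : 2 ≤ (center G).relIndex (cz x) := by
    have h0 : (center G).relIndex (cz x) ≠ 0 := Subgroup.index_ne_zero_of_finite
    have h1 : (center G).relIndex (cz x) ≠ 1 := by
      rw [Ne, Subgroup.relIndex_eq_one]
      intro hle
      exact hx (hle (mem_cz.2 rfl))
    omega
  refine ⟨(center G).relIndex (cz x), (cz x).relIndex (normalizer (cz x : Set G)),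
    (normalizer (cz x : Set G)).index, ha2, relIndex_norm H1 H2 hx, ?_, ?_, ?_, ?_, ?_⟩
  · have : (normalizer (cz x : Set G)).index ≠ 0 := Subgroup.index_ne_zero_of_finite
    omega
  · rw [← Subgroup.relIndex_mul_index hZA, ← Subgroup.relIndex_mul_index hAN]; ring
  · rw [← Subgroup.relIndex_mul_index hAN]
  · rw [Subgroup.relIndex_mul_index hAN, Ne, Subgroup.index_eq_one]
    intro htop
    apply hx
    rw [Subgroup.mem_center_iff]
    intro g
    have : g ∈ cz x := htop ▸ Subgroup.mem_top g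
    exact mem_cz.1 this
  · have hc := card_ty H1 hx
    have h1 : Nat.card (center G) * (center G).relIndex (cz x) = Nat.card (cz x) :=
      Cfsg.Agent.H56.card_mul_relIndex' hZA
    have h2 : Nat.card (normalizer (cz x : Set G)) * (normalizer (cz x : Set G)).index =
      Nat.card G := Subgroup.card_mul_index _
    have hNpos : 0 < Nat.card (normalizer (cz x : Set G)) := Nat.card_pos
    rw [← h2, ← h1] at hc
    have hc' : (ty x).card = (normalizer (cz x : Set G)).index *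
        (Nat.card (center G) * (center G).relIndex (cz x) - Nat.card (center G)) := by
      apply Nat.eq_of_mul_eq_mul_right hNpos
      rw [hc]; ring
    rw [hc']
    have hle : Nat.card (center G) ≤ Nat.card (center G) * (center G).relIndex (cz x) :=
      Nat.le_mul_of_pos_right _ (by omega)
    rw [mul_assoc, ← Nat.mul_add, mul_comm ((center G).relIndex (cz x)),
      Nat.sub_add_cancel hle]

theorem ca_main
    (H1 : ∀ x : G, x ∉ center G → ∀ a b : G, a * x = x * a → b * x = x * b → a * b = b * a)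
    (H2 : ∀ x : G, x ∉ center G → ∀ g h : G, (g * x * g⁻¹) * x = x * (g * x * g⁻¹) →
      (h * x * h⁻¹) * x = x * (h * x * h⁻¹) → g * x ≠ x * g → h * x ≠ x * h →
      (g * h) * x = x * (g * h))
    (hex : ∃ x : G, x ∉ center G) :
    (center G).index = 12 ∨ (center G).index = 24 ∨ (center G).index = 60 ∨
      ∃ x : G, x ∉ center G ∧ (cz x).index = 2 := by
  classical
  have hz : 0 < Nat.card (center G) := Nat.card_pos
  have hG : Nat.card (center G) * (center G).index = Nat.card G := Subgroup.card_mul_index _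
  obtain ⟨S, hSdef⟩ : ∃ S : Finset G, S = univ.filter (fun y => y ∉ center G) := ⟨_, rfl⟩
  have hS : S.card + Nat.card (center G) = Nat.card (center G) * (center G).index := by
    have := Finset.card_filter_add_card_filter_not (s := (univ : Finset G)) (· ∈ center G)
    rw [card_filter_mem, ← hSdef, Finset.card_univ, ← Nat.card_eq_fintype_card, ← hG] at this
    omega
  have hsub : ∀ x : G, ty x ⊆ S := by
    intro x y hy
    rw [hSdef]
    exact mem_filter.2 ⟨mem_univ _, (mem_ty.1 hy).1⟩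
  have hmemS : ∀ y : G, y ∈ S → y ∉ center G := by
    intro y hy
    rw [hSdef] at hy
    exact (mem_filter.1 hy).2
  generalize hgdef : (center G).index = g at hS
  obtain ⟨x₁, hx₁⟩ := hex
  obtain ⟨a₁, e₁, n₁, ha₁, he₁, hn₁, hg₁, hi₁, hne₁, hc₁⟩ := ty_data H1 H2 hx₁
  rw [hgdef] at hg₁
  by_cases h1 : ∀ y, y ∉ center G → y ∈ ty x₁
  · exfalso
    have hT : ty x₁ = S := by
      apply Finset.Subset.antisymm (hsub x₁)
      intro y hy
      exact h1 y (hmemS y hy)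
    have hcard : (ty x₁).card + Nat.card (center G) = Nat.card (center G) * g := by rw [hT, hS]
    have hsum : n₁ * a₁ + 1 = g + n₁ := by
      apply Nat.eq_of_mul_eq_mul_right hz
      linarith
    exact ar1 ha₁ he₁ hn₁ hg₁ hne₁ hsum
  push Not at h1
  obtain ⟨x₂, hx₂, hx₂₁⟩ := h1
  obtain ⟨a₂, e₂, n₂, ha₂, he₂, hn₂, hg₂, hi₂, hne₂, hc₂⟩ := ty_data H1 H2 hx₂
  rw [hgdef] at hg₂
  have d₁₂ : Disjoint (ty x₁) (ty x₂) := ty_disjoint H1 hx₂ hx₂₁
  by_cases h2 : ∀ y, y ∉ center G → y ∈ ty x₁ ∨ y ∈ ty x₂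
  · have hT : ty x₁ ∪ ty x₂ = S := by
      apply Finset.Subset.antisymm (Finset.union_subset (hsub x₁) (hsub x₂))
      intro y hy
      exact Finset.mem_union.2 (h2 y (hmemS y hy))
    have hcard : (ty x₁).card + (ty x₂).card + Nat.card (center G) = Nat.card (center G) * g := by
      rw [← Finset.card_union_of_disjoint d₁₂, hT, hS]
    have hsum : n₁ * a₁ + n₂ * a₂ + 1 = g + n₁ + n₂ := by
      apply Nat.eq_of_mul_eq_mul_right hz
      linarith
    rcases ar2 ha₁ he₁ hn₁ hg₁ hne₁ ha₂ he₂ hn₂ hg₂ hne₂ hsum with h | h | h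
    · exact Or.inl h
    · right; right; right; exact ⟨x₁, hx₁, by rw [hi₁, h]⟩
    · right; right; right; exact ⟨x₂, hx₂, by rw [hi₂, h]⟩
  push Not at h2
  obtain ⟨x₃, hx₃, hx₃₁, hx₃₂⟩ := h2
  obtain ⟨a₃, e₃, n₃, ha₃, he₃, hn₃, hg₃, hi₃, hne₃, hc₃⟩ := ty_data H1 H2 hx₃
  rw [hgdef] at hg₃
  have d₁₃ : Disjoint (ty x₁) (ty x₃) := ty_disjoint H1 hx₃ hx₃₁
  have d₂₃ : Disjoint (ty x₂) (ty x₃) := ty_disjoint H1 hx₃ hx₃₂
  have d₁₂₃ : Disjoint (ty x₁ ∪ ty x₂) (ty x₃) := Finset.disjoint_union_left.2 ⟨d₁₃, d₂₃⟩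
  by_cases h3 : ∀ y, y ∉ center G → y ∈ ty x₁ ∨ y ∈ ty x₂ ∨ y ∈ ty x₃
  · have hT : ty x₁ ∪ ty x₂ ∪ ty x₃ = S := by
      apply Finset.Subset.antisymm
        (Finset.union_subset (Finset.union_subset (hsub x₁) (hsub x₂)) (hsub x₃))
      intro y hy
      rcases h3 y (hmemS y hy) with h | h | h
      · exact Finset.mem_union_left _ (Finset.mem_union_left _ h)
      · exact Finset.mem_union_left _ (Finset.mem_union_right _ h)
      · exact Finset.mem_union_right _ h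
    have hcard : (ty x₁).card + (ty x₂).card + (ty x₃).card + Nat.card (center G) = Nat.card (center G) * g := by
      rw [← Finset.card_union_of_disjoint d₁₂, ← Finset.card_union_of_disjoint d₁₂₃, hT, hS]
    have hsum : n₁ * a₁ + n₂ * a₂ + n₃ * a₃ + 1 = g + n₁ + n₂ + n₃ := by
      apply Nat.eq_of_mul_eq_mul_right hz
      linarith
    rcases ar3 ha₁ he₁ hn₁ hg₁ ha₂ he₂ hn₂ hg₂ ha₃ he₃ hn₃ hg₃ hsum with h | h | h | h | h | h
    · exact Or.inl h
    · exact Or.inr (Or.inl h)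
    · exact Or.inr (Or.inr (Or.inl h))
    · right; right; right; exact ⟨x₁, hx₁, by rw [hi₁, h]⟩
    · right; right; right; exact ⟨x₂, hx₂, by rw [hi₂, h]⟩
    · right; right; right; exact ⟨x₃, hx₃, by rw [hi₃, h]⟩
  push Not at h3
  obtain ⟨x₄, hx₄, hx₄₁, hx₄₂, hx₄₃⟩ := h3
  obtain ⟨a₄, e₄, n₄, ha₄, he₄, hn₄, hg₄, hi₄, hne₄, hc₄⟩ := ty_data H1 H2 hx₄
  rw [hgdef] at hg₄
  exfalso
  have d₁₄ : Disjoint (ty x₁) (ty x₄) := ty_disjoint H1 hx₄ hx₄₁
  have d₂₄ : Disjoint (ty x₂) (ty x₄) := ty_disjoint H1 hx₄ hx₄₂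
  have d₃₄ : Disjoint (ty x₃) (ty x₄) := ty_disjoint H1 hx₄ hx₄₃
  have d₁₂₃₄ : Disjoint (ty x₁ ∪ ty x₂ ∪ ty x₃) (ty x₄) :=
    Finset.disjoint_union_left.2 ⟨Finset.disjoint_union_left.2 ⟨d₁₄, d₂₄⟩, d₃₄⟩
  have hTs : ty x₁ ∪ ty x₂ ∪ ty x₃ ∪ ty x₄ ⊆ S :=
    Finset.union_subset (Finset.union_subset (Finset.union_subset (hsub x₁) (hsub x₂))
      (hsub x₃)) (hsub x₄)
  have hcard : (ty x₁).card + (ty x₂).card + (ty x₃).card + (ty x₄).card + Nat.card (center G) ≤ Nat.card (center G) * g := by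
    rw [← Finset.card_union_of_disjoint d₁₂, ← Finset.card_union_of_disjoint d₁₂₃,
      ← Finset.card_union_of_disjoint d₁₂₃₄, ← hS]
    exact Nat.add_le_add_right (Finset.card_le_card hTs) _
  have hsum : n₁ * a₁ + n₂ * a₂ + n₃ * a₃ + n₄ * a₄ + 1 ≤ g + n₁ + n₂ + n₃ + n₄ := by
    apply Nat.le_of_mul_le_mul_right _ hz
    linarith
  exact ar4 ha₁ he₁ hn₁ hg₁ ha₂ he₂ hn₂ hg₂ ha₃ he₃ hn₃ hg₃ ha₄ he₄ hn₄ hg₄ hsum

end CA

end Cfsg.Agent.H70.Prim2
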