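import Cfsg.Agent.S4441

/-!
# The regular case `e = p - 1` of the Brauer theorem on blocks of defect one (helper70)
-/

set_option autoImplicit false
open Cfsg

namespace Cfsg.Agent.H70.RegBlock

theorem regular_block {G : Type*} [Group G] [Finite G] (p : ℕ) [Fact p.Prime]
    (M : Ideal AlgInt) (hM : IsPModular p M) (hodd : p ≠ 2) (P : Sylow p G)
    (hP : Nat.card P = p)
    (he : (Subgroup.centralizer ((P : Subgroup G) : Set G)).relIndex
        (Subgroup.normalizer ((P : Subgroup G) : Set G)) = p - 1) :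
    (principalBlock M G).ncard = p ∧
    ∃ s : IrrCharacter G → ℤ,
      (∀ χ ∈ principalBlock M G, (s χ = 1 ∨ s χ = -1) ∧
        (charDegree (χ : G → ℂ) : ℤ) ≡ s χ [ZMOD p]) ∧
      ∀ g : G, ¬ p ∣ orderOf g → ∑ᶠ χ ∈ principalBlock M G, (s χ : ℂ) * (χ : G → ℂ) g = 0 := by
  classical
  let : Fintype G := Fintype.ofFinite G
  let : Fintype (IrrCharacter G) := Cfsg.Agent.H4.fintypeIrr G
  have hp : p.Prime := Fact.out
  have hp1 : 1 ≤ p := hp.one_lt.le
  obtain ⟨X, Y, hB, hdisj, hX, hY, εX, ε, hXp, hε, hYdeg, hYeq, hYsum⟩ :=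
    Cfsg.Agent.S4441.result p M hM hodd P hP (p - 1) he
  have hY1 : Nat.card Y = 1 := by
    rw [hY]; exact Nat.div_self (by have := hp.one_lt; omega)
  rw [Nat.card_coe_set_eq] at hY1 hX
  obtain ⟨θ, rfl⟩ := Set.ncard_eq_one.mp hY1
  have hXfin : X.Finite := Set.toFinite X
  refine ⟨?_, fun χ => if χ ∈ X then εX χ else -ε, ?_, ?_⟩
  · rw [hB, Set.ncard_union_eq hdisj hXfin (Set.finite_singleton θ), hX, Set.ncard_singleton]
    omega
  · intro χ hχ
    rw [hB] at hχ
    by_cases hχX : χ ∈ X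
    · simp only [if_pos hχX]
      exact ⟨(hXp χ hχX).1, (hXp χ hχX).2.1⟩
    · simp only [if_neg hχX]
      have hχθ : χ = θ := by
        rcases hχ with h | h
        · exact absurd h hχX
        · exact h
      subst hχθ
      refine ⟨?_, ?_⟩
      · rcases hε with h | h
        · right; rw [h]
        · left; rw [h]; norm_num
      · have h := hYdeg χ rfl
        rw [Int.modEq_iff_dvd] at h ⊢
        obtain ⟨c, hc⟩ := h
        refine ⟨c - ε, ?_⟩
        rw [mul_sub, ← hc]
        push_cast [Nat.cast_sub hp1]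
        ring
  · intro g hg
    have hθX : θ ∉ X := fun h => (Set.disjoint_left.mp hdisj h) rfl
    rw [hB, finsum_mem_union hdisj hXfin (Set.finite_singleton θ), finsum_mem_singleton]
    simp only [if_neg hθX]
    have h1 : (∑ᶠ χ ∈ X, (((if χ ∈ X then εX χ else -ε : ℤ)) : ℂ) * (χ : G → ℂ) g) =
        ∑ᶠ χ ∈ X, (εX χ : ℂ) * (χ : G → ℂ) g := by
      refine finsum_mem_congr rfl fun χ hχ => ?_
      rw [if_pos hχ]
    rw [h1, ← hYsum θ rfl g hg]
    push_cast
    ring

end Cfsg.Agent.H70.RegBlock
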