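import Cfsg.Agent.H23.StbDefs

/-!
# S2125-ASM1: every automorphism is, up to an inner automorphism, one that maps the root subgroup
of each fundamental root and of its negative to itself, through additive bijections of the field
(assembly of the pieces SYL, OPP, NEG, POS, MATCH, ROOTMAP)
-/

set_option autoImplicit false

namespace Cfsg.Agent.H70.Stb

open Cfsg.Lie Cfsg.Agent.H23 Cfsg.Agent.H23.Stb

universe u

/-- S2125-ASM1 -/
theorem asm1 (h1 : StSyl.{u}) (h2 : StOpp.{u}) (h3 : StNeg.{u}) (h4 : StPos.{u})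
    (h5 : StMatch.{u}) (h6 : StRootMap.{u}) : StAsm1.{u} := by
  intro D F _ _ p _ z η rT w0 hC adj hSyl hw0 hc2 hadj hrig θ
  obtain ⟨g₁, hg₁⟩ := h1 D F p θ hSyl
  obtain ⟨u, hu1, hu2⟩ := h2 D F z η rT w0 hC (conjL g₁ θ) hg₁
  have hconj : conjL u (conjL g₁ θ) = conjL (u * g₁) θ := by
    apply MulEquiv.ext
    intro y
    rw [conjL_apply, conjL_apply, conjL_apply]
    group
  refine ⟨u * g₁, ?_⟩
  rw [← hconj]
  have hneg := h3 D F z η rT w0 hC (conjL u (conjL g₁ θ)) hu1 hu2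
  have hpos := h4 D F z η rT w0 hC (conjL u (conjL g₁ θ)) hw0 hu1 hu2
  have hm := h5 D F z η rT w0 hC (conjL u (conjL g₁ θ)) adj hpos hneg hc2 hadj hrig
  intro i hi
  obtain ⟨hr1, hr2⟩ := hm i hi
  have hlt : D.simple i < D.nroots := hC.hP.tab.simple_lt i hi
  obtain ⟨φ, hφ⟩ := h6 D F z η hC.hP (conjL u (conjL g₁ θ)) (D.simple i) hlt hr1
  obtain ⟨ψ, hψ⟩ := h6 D F z η hC.hP (conjL u (conjL g₁ θ)) (D.neg (D.simple i))
    (hC.hP.tab.neg_lt _ hlt) hr2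
  exact ⟨φ, ψ, hφ, hψ⟩

example (h1 : StSyl.{u}) (h2 : StOpp.{u}) (h3 : StNeg.{u}) (h4 : StPos.{u})
    (h5 : StMatch.{u}) (h6 : StRootMap.{u}) : Cfsg.Agent.H23.Stb.StAsm1.{u} :=
  asm1 h1 h2 h3 h4 h5 h6

end Cfsg.Agent.H70.Stb
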