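import Cfsg.Agent.H78.StbGrDefs
import Cfsg.Agent.H53.StbFinalH

/-!
# S2123-FINALG (helper70, for helper78): the count `|Out| · |H| = 2 · |Ĥ| · |Aut F|` in the presence of a
graph automorphism (adapts helper53's `StbFinalH`, whose fibre argument is copied)
-/

set_option autoImplicit false

namespace Cfsg.Agent.H70.StbG

open Cfsg.Lie Cfsg.Agent.H23 Cfsg.Agent.H23.Stb Cfsg.Agent.H78.StbG

universe u

section

variable {D : ChevalleyDatum} {F : Type u} [Field F] {z : ℕ → ℕ → ℤ}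

theorem pres_comp_symm (A A' : ↥(D.group F) ≃* ↥(D.group F)) (K : Subgroup (GL D.Idx F))
    (hA : Pres A K K) (hA' : Pres A' K K) : Pres (A'.symm.trans A) K K := by
  intro g
  show ((A (A'.symm g) : ↥(D.group F)) : GL D.Idx F) ∈ K ↔ _
  rw [hA (A'.symm g), ← hA' (A'.symm g), MulEquiv.apply_symm_apply]

theorem rootTo_comp_symm (hS : Sem D F z) (A A' : ↥(D.group F) ≃* ↥(D.group F)) (r : ℕ)
    (hA : RootTo hS A r r) (hA' : RootTo hS A' r r) : RootTo hS (A'.symm.trans A) r r := by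
  constructor
  · intro t
    obtain ⟨s, hs⟩ := hA'.2 t
    obtain ⟨t', ht'⟩ := hA.1 s
    refine ⟨t', ?_⟩
    show A (A'.symm (xG hS r t)) = _
    rw [← hs, MulEquiv.symm_apply_apply, ht']
  · intro t'
    obtain ⟨s, hs⟩ := hA.2 t'
    obtain ⟨t, ht⟩ := hA'.1 s
    refine ⟨t, ?_⟩
    show A (A'.symm (xG hS r t)) = _
    rw [← ht, MulEquiv.symm_apply_apply, hs]

end

/-- **S2123-FINALG**. -/
theorem finalG (h1 : StInnH.{u}) (h2 : StField.{u}) (h3 : StHatAut.{u}) (h4 : StNotGamma.{u})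
    (h5 : StTorusPres.{u}) (h6 : StFieldPres.{u}) : StFinalG.{u} := by
  intro D F _ _ z η rT w0 hC sig γ hrank hγ hsig hc2 hθ
  have hS : Sem D F z := hC.hP.sem
  have hT : Tab D := hC.hP.tab
  choose Φ hΦ using fun σ : F ≃+* F => h2 D F z hS σ
  have hδ' : ∀ k : ↥(torusGroup D F), ∃ δ : ↥(D.group F) ≃* ↥(D.group F), ∀ y : ↥(D.group F),
      ((δ y : ↥(D.group F)) : GL D.Idx F) =
        (k : GL D.Idx F) * (y : GL D.Idx F) * (k : GL D.Idx F)⁻¹ :=
    fun k => h3 D F z hS k.1 k.2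
  choose δ hδ using hδ'
  let Hs : Subgroup ↥(torusGroup D F) := (D.diagonalSubgroup F).subgroupOf (torusGroup D F)
  let Γ : Bool → MulAut ↥(D.group F) := fun b => gpow γ b
  let Ψ : ↥(torusGroup D F) × ((F ≃+* F) × Bool) → Cfsg.Out ↥(D.group F) :=
    fun p => QuotientGroup.mk ((Γ p.2.2)⁻¹ *
      ((δ p.1 : MulAut ↥(D.group F)) * (Φ p.2.1 : MulAut ↥(D.group F))))
  have hcard : Nat.card ↥Hs = Nat.card ↥(D.diagonalSubgroup F) :=
    Nat.card_congr (Subgroup.subgroupOfEquivOfLe (diagonal_le_torus hS hT)).toEquiv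
  -- the automorphisms `δ k * Φ σ`
  have hAval : ∀ (k : ↥(torusGroup D F)) (σ : F ≃+* F) (y : ↥(D.group F)),
      ((((δ k : MulAut ↥(D.group F)) * Φ σ) y : ↥(D.group F)) : GL D.Idx F) =
        (k : GL D.Idx F) * glMap D (σ : F →+* F) (y : GL D.Idx F) * (k : GL D.Idx F)⁻¹ := by
    intro k σ y
    rw [MulAut.mul_apply, hδ, hΦ]
  have hApres : ∀ (k : ↥(torusGroup D F)) (σ : F ≃+* F),
      Pres ((δ k : MulAut ↥(D.group F)) * Φ σ) (D.posUnipotent F) (D.posUnipotent F) ∧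
      Pres ((δ k : MulAut ↥(D.group F)) * Φ σ) (D.negUnipotent F) (D.negUnipotent F) := by
    intro k σ
    constructor
    · intro g
      rw [hAval, ← (h5 D F z hS k.1 k.2 _).1, ← (h6 D F z hS σ _).1]
    · intro g
      rw [hAval, ← (h5 D F z hS k.1 k.2 _).2, ← (h6 D F z hS σ _).2]
  have hAroot : ∀ (k : ↥(torusGroup D F)) (σ : F ≃+* F), ∀ r < D.nroots,
      RootTo hC.hP.sem ((δ k : MulAut ↥(D.group F)) * Φ σ) r r := by
    intro k σ r hr
    obtain ⟨χ, hχ⟩ := k.2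
    have key : ∀ t : F, ((δ k : MulAut ↥(D.group F)) * Φ σ) (xG hS r t) = xG hS r (χ r * σ t) := by
      intro t
      apply Subtype.ext
      rw [hAval]
      show (k : GL D.Idx F) * glMap D (σ : F →+* F) (xU hS r t) * (k : GL D.Idx F)⁻¹ =
        xU hS r (χ r * σ t)
      rw [glMap_xU hS hS, isTorus_conj hS χ k.1 hχ r hr]
      rfl
    constructor
    · intro t
      exact ⟨_, key t⟩
    · intro t'
      refine ⟨σ.symm ((χ r)⁻¹ * t'), ?_⟩
      rw [key, σ.apply_symm_apply, mul_inv_cancel_left₀ (hχ.1 r)]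
  -- `γ` does not lie in the coset of a diagonal-field automorphism
  have hno : ∀ (k k' : ↥(torusGroup D F)) (σ σ' : F ≃+* F),
      (QuotientGroup.mk ((γ : MulAut ↥(D.group F))⁻¹ * ((δ k : MulAut ↥(D.group F)) * Φ σ)) :
        Cfsg.Out ↥(D.group F)) ≠ QuotientGroup.mk ((δ k' : MulAut ↥(D.group F)) * Φ σ') := by
    intro k k' σ σ' h
    have h' : ((γ : MulAut ↥(D.group F))⁻¹ * ((δ k : MulAut ↥(D.group F)) * Φ σ))⁻¹ *
        ((δ k' : MulAut ↥(D.group F)) * Φ σ') ∈ Cfsg.Inn ↥(D.group F) := QuotientGroup.eq.mp h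
    obtain ⟨x, hx⟩ := h'
    have hx' : ((δ k : MulAut ↥(D.group F)) * Φ σ) * MulAut.conj x =
        (γ : MulAut ↥(D.group F)) * ((δ k' : MulAut ↥(D.group F)) * Φ σ') := by
      rw [hx]
      group
    obtain ⟨A, hA⟩ : ∃ A : ↥(D.group F) ≃* ↥(D.group F),
        A = (δ k : MulAut ↥(D.group F)) * Φ σ := ⟨_, rfl⟩
    obtain ⟨A', hA'⟩ : ∃ A' : ↥(D.group F) ≃* ↥(D.group F),
        A' = (δ k' : MulAut ↥(D.group F)) * Φ σ' := ⟨_, rfl⟩
    rw [← hA, ← hA'] at hx'
    have hall : ∀ y : ↥(D.group F), (A'.symm.trans A) (A' x * y * (A' x)⁻¹) = γ y := by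
      intro y
      show A (A'.symm (A' x * y * (A' x)⁻¹)) = γ y
      have e1 : A'.symm (A' x * y * (A' x)⁻¹) = x * A'.symm y * x⁻¹ := by
        rw [map_mul, map_mul, map_inv, MulEquiv.symm_apply_apply]
      rw [e1]
      have e2 := congrArg (fun a : MulAut ↥(D.group F) => a (A'.symm y)) hx'
      simp only [MulAut.mul_apply, MulAut.conj_apply] at e2
      rw [e2, MulEquiv.apply_symm_apply]
    refine h4 D F z η rT w0 hC sig γ hγ hsig hc2 (A'.symm.trans A)
      (pres_comp_symm A A' _ ?_ ?_) (pres_comp_symm A A' _ ?_ ?_) ?_ (A' x) hall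
    · rw [hA]; exact (hApres k σ).1
    · rw [hA']; exact (hApres k' σ').1
    · rw [hA]; exact (hApres k σ).2
    · rw [hA']; exact (hApres k' σ').2
    · intro i hi
      apply rootTo_comp_symm hC.hP.sem A A'
      · rw [hA]; exact hAroot k σ _ (hT.simple_lt i hi)
      · rw [hA']; exact hAroot k' σ' _ (hT.simple_lt i hi)
  -- helper53's fibre argument
  have hiff0 : ∀ (k : ↥(torusGroup D F)) (σ : F ≃+* F) (k' : ↥(torusGroup D F)) (σ' : F ≃+* F),
      (QuotientGroup.mk ((δ k : MulAut ↥(D.group F)) * Φ σ) : Cfsg.Out ↥(D.group F)) =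
        QuotientGroup.mk ((δ k' : MulAut ↥(D.group F)) * Φ σ') ↔ σ = σ' ∧ k⁻¹ * k' ∈ Hs := by
    intro k σ k' σ'
    constructor
    · intro h
      have h' : ((δ k : MulAut ↥(D.group F)) * Φ σ)⁻¹ * ((δ k' : MulAut ↥(D.group F)) * Φ σ') ∈
          Cfsg.Inn ↥(D.group F) := QuotientGroup.eq.mp h
      obtain ⟨x, hx⟩ := h'
      have hx' : ((δ k : MulAut ↥(D.group F)) * Φ σ) * MulAut.conj x =
          (δ k' : MulAut ↥(D.group F)) * Φ σ' := by
        rw [hx, mul_inv_cancel_left]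
      -- the element `gx`
      have hgx : glMap D (σ : F →+* F) (x : GL D.Idx F) ∈ D.group F := by
        rw [← hΦ σ x]; exact (Φ σ x).2
      let ρ : F ≃ F := σ.symm.toEquiv.trans σ'.toEquiv
      have hρ : ∀ t : F, ρ t = σ' (σ.symm t) := fun t => rfl
      have hconj : ∀ r < D.nroots, ∀ t : F,
          glMap D (σ : F →+* F) (x : GL D.Idx F) * xU hC.hP.sem r t *
              (glMap D (σ : F →+* F) (x : GL D.Idx F))⁻¹ =
            ((k : GL D.Idx F)⁻¹ * (k' : GL D.Idx F)) * xU hC.hP.sem r (ρ t) *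
              ((k : GL D.Idx F)⁻¹ * (k' : GL D.Idx F))⁻¹ := by
        intro r _ t
        have hy := congrArg (fun a : MulAut ↥(D.group F) =>
          ((a (xG hS r (σ.symm t)) : ↥(D.group F)) : GL D.Idx F)) hx'
        simp only [MulAut.mul_apply, MulAut.conj_apply, hδ, hΦ, Subgroup.coe_mul,
          InvMemClass.coe_inv, map_mul, map_inv] at hy
        have e1 : ((xG hS r (σ.symm t) : ↥(D.group F)) : GL D.Idx F) = xU hS r (σ.symm t) := rfl
        rw [e1, glMap_xU hS hS, glMap_xU hS hS] at hy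
        have e2 : (σ : F →+* F) (σ.symm t) = t := σ.apply_symm_apply t
        have e3 : (σ' : F →+* F) (σ.symm t) = ρ t := rfl
        rw [e2, e3] at hy
        calc glMap D (σ : F →+* F) (x : GL D.Idx F) * xU hS r t *
              (glMap D (σ : F →+* F) (x : GL D.Idx F))⁻¹
            = (k : GL D.Idx F)⁻¹ * ((k : GL D.Idx F) * glMap D (σ : F →+* F) (x : GL D.Idx F) *
                (k : GL D.Idx F)⁻¹ * ((k : GL D.Idx F) * xU hS r t * (k : GL D.Idx F)⁻¹) *
                ((k : GL D.Idx F) * glMap D (σ : F →+* F) (x : GL D.Idx F) *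
                  (k : GL D.Idx F)⁻¹)⁻¹) * (k : GL D.Idx F) := by group
          _ = (k : GL D.Idx F)⁻¹ * ((k' : GL D.Idx F) * xU hS r (ρ t) * (k' : GL D.Idx F)⁻¹) *
                (k : GL D.Idx F) := by rw [hy]
          _ = _ := by group
      have hmem : (k : GL D.Idx F)⁻¹ * (k' : GL D.Idx F) ∈ torusGroup D F :=
        (torusGroup D F).mul_mem ((torusGroup D F).inv_mem k.2) k'.2
      have hρ1 : ρ 1 = 1 := by rw [hρ, map_one, map_one]
      obtain ⟨hid, hH⟩ := h1 D F z η rT w0 hC _ hgx _ hmem ρ hconj hρ1 hrank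
      refine ⟨?_, ?_⟩
      · apply RingEquiv.ext
        intro s
        have := hid (σ s)
        rw [hρ, σ.symm_apply_apply] at this
        exact this.symm
      · show ((k⁻¹ * k' : ↥(torusGroup D F)) : GL D.Idx F) ∈ D.diagonalSubgroup F
        exact hH
    · rintro ⟨rfl, hH⟩
      have hH' : (k : GL D.Idx F)⁻¹ * (k' : GL D.Idx F) ∈ D.diagonalSubgroup F := hH
      let hG : ↥(D.group F) := ⟨(k : GL D.Idx F)⁻¹ * (k' : GL D.Idx F), diagonal_le_group hS hH'⟩
      show (QuotientGroup.mk ((δ k : MulAut ↥(D.group F)) * Φ σ) : Cfsg.Out ↥(D.group F)) =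
        QuotientGroup.mk ((δ k' : MulAut ↥(D.group F)) * Φ σ)
      rw [QuotientGroup.eq]
      refine ⟨(Φ σ).symm hG, ?_⟩
      rw [eq_inv_mul_iff_mul_eq]
      apply MulEquiv.ext
      intro y
      apply Subtype.ext
      simp only [MulAut.mul_apply, MulAut.conj_apply, hδ, map_mul, map_inv,
        MulEquiv.apply_symm_apply, Subgroup.coe_mul, InvMemClass.coe_inv]
      have ehG : ((hG : ↥(D.group F)) : GL D.Idx F) = (k : GL D.Idx F)⁻¹ * (k' : GL D.Idx F) := rfl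
      rw [ehG]
      group
  rw [← hcard]
  have hfinal := Cfsg.Agent.H53.Stb.card_of_fibres Hs Ψ ?_ ?_
  · rw [hfinal, Nat.card_prod, Nat.card_eq_fintype_card (α := Bool), Fintype.card_bool]
    ring
  · -- surjectivity
    intro o
    obtain ⟨θ, rfl⟩ := QuotientGroup.mk_surjective o
    obtain ⟨g, b, k, hk, σ, hE⟩ := hθ θ
    refine ⟨((⟨k, hk⟩ : ↥(torusGroup D F))⁻¹, (σ, b)), ?_⟩
    have e : (θ : MulAut ↥(D.group F)) = MulAut.conj g⁻¹ * ((Γ b)⁻¹ *
        ((δ (⟨k, hk⟩ : ↥(torusGroup D F))⁻¹ : MulAut ↥(D.group F)) * Φ σ)) := by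
      apply MulEquiv.ext
      intro y
      have hw : Γ b (conjL g θ y) =
          ((δ (⟨k, hk⟩ : ↥(torusGroup D F))⁻¹ : MulAut ↥(D.group F)) * Φ σ) y := by
        apply Subtype.ext
        rw [hAval]
        have hy := hE y
        show ((gpow γ b (conjL g θ y) : ↥(D.group F)) : GL D.Idx F) = _
        rw [← hy]
        simp only [InvMemClass.coe_inv]
        group
      rw [MulAut.mul_apply, MulAut.mul_apply, ← hw, MulAut.inv_apply_self, conjL_apply,
        MulAut.conj_apply]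
      group
    show (QuotientGroup.mk ((Γ b)⁻¹ *
      ((δ (⟨k, hk⟩ : ↥(torusGroup D F))⁻¹ : MulAut ↥(D.group F)) * Φ σ)) :
        Cfsg.Out ↥(D.group F)) = QuotientGroup.mk θ
    have h1' : (QuotientGroup.mk (MulAut.conj g⁻¹ : MulAut ↥(D.group F)) :
        Cfsg.Out ↥(D.group F)) = 1 :=
      (QuotientGroup.eq_one_iff _).mpr ⟨g⁻¹, rfl⟩
    have e' : (QuotientGroup.mk (MulAut.conj g⁻¹ * ((Γ b)⁻¹ *
        ((δ (⟨k, hk⟩ : ↥(torusGroup D F))⁻¹ : MulAut ↥(D.group F)) * Φ σ))) :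
          Cfsg.Out ↥(D.group F)) =
        QuotientGroup.mk ((Γ b)⁻¹ *
          ((δ (⟨k, hk⟩ : ↥(torusGroup D F))⁻¹ : MulAut ↥(D.group F)) * Φ σ)) := by
      rw [QuotientGroup.mk_mul, h1', one_mul]
    rw [e]
    exact e'.symm
  · -- fibres
    rintro k ⟨σ, b⟩ k' ⟨σ', b'⟩
    have e0 : Γ false = 1 := rfl
    have e1 : Γ true = γ := rfl
    constructor
    · intro h
      have h' : (QuotientGroup.mk ((Γ b)⁻¹ * ((δ k : MulAut ↥(D.group F)) * Φ σ)) :
          Cfsg.Out ↥(D.group F)) =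
          QuotientGroup.mk ((Γ b')⁻¹ * ((δ k' : MulAut ↥(D.group F)) * Φ σ')) := h
      cases b <;> cases b'
      · rw [e0, inv_one, one_mul, one_mul] at h'
        obtain ⟨hσ, hk⟩ := (hiff0 k σ k' σ').mp h'
        exact ⟨by rw [hσ], hk⟩
      · exfalso
        rw [e0, e1, inv_one, one_mul] at h'
        exact hno k' k σ' σ h'.symm
      · exfalso
        rw [e0, e1, inv_one, one_mul] at h'
        exact hno k k' σ σ' h'
      · rw [QuotientGroup.mk_mul _ ((Γ true)⁻¹) ((δ k : MulAut ↥(D.group F)) * Φ σ),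
          QuotientGroup.mk_mul _ ((Γ true)⁻¹) ((δ k' : MulAut ↥(D.group F)) * Φ σ')] at h'
        obtain ⟨hσ, hk⟩ := (hiff0 k σ k' σ').mp (mul_left_cancel h')
        exact ⟨by rw [hσ], hk⟩
    · rintro ⟨hs, hH⟩
      have hσ : σ = σ' := congrArg Prod.fst hs
      have hb : b = b' := congrArg Prod.snd hs
      subst hσ
      subst hb
      have h'' := (hiff0 k σ k' σ).mpr ⟨rfl, hH⟩
      show (QuotientGroup.mk ((Γ b)⁻¹ * ((δ k : MulAut ↥(D.group F)) * Φ σ)) :
          Cfsg.Out ↥(D.group F)) =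
          QuotientGroup.mk ((Γ b)⁻¹ * ((δ k' : MulAut ↥(D.group F)) * Φ σ))
      rw [QuotientGroup.mk_mul _ ((Γ b)⁻¹) ((δ k : MulAut ↥(D.group F)) * Φ σ),
        QuotientGroup.mk_mul _ ((Γ b)⁻¹) ((δ k' : MulAut ↥(D.group F)) * Φ σ), h'']

example (h1 : Cfsg.Agent.H23.Stb.StInnH.{u}) (h2 : Cfsg.Agent.H23.Stb.StField.{u})
    (h3 : Cfsg.Agent.H23.Stb.StHatAut.{u}) (h4 : Cfsg.Agent.H78.StbG.StNotGamma.{u})
    (h5 : Cfsg.Agent.H78.StbG.StTorusPres.{u}) (h6 : Cfsg.Agent.H78.StbG.StFieldPres.{u}) :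
    Cfsg.Agent.H78.StbG.StFinalG.{u} := finalG h1 h2 h3 h4 h5 h6

end Cfsg.Agent.H70.StbG
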