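import Cfsg.Agent.H23.StbDefs

/-!
# S2125-OPP: if `θ(U) = U` then, after conjugation by some `u ∈ U`, also `θ(V) = V`
-/

set_option autoImplicit false

namespace Cfsg.Agent.H70.Stb

open Cfsg.Lie Cfsg.Agent.H23 Cfsg.Agent.H23.Stb

universe u

/-- S2125-OPP -/
theorem opp (hW : StW0.{u}) : StOpp.{u} := by
  intro D F _ _ z η rT w0 hC θ hU
  have hS := hC.hP.sem
  have hN := hC.hP.semN
  have hT := hC.hP.tab
  have hT2 := hC.hP.tab2
  have hV := hC.hV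
  obtain ⟨n₀, hn₀⟩ : ∃ n₀ : GL D.Idx F, n₀ = nWU hS w0 := ⟨_, rfl⟩
  have hW1 : ∀ g : GL D.Idx F, g ∈ D.posUnipotent F ↔ n₀ * g * n₀⁻¹ ∈ D.negUnipotent F := by
    intro g; rw [hn₀]; exact (hW D F z η rT w0 hC g).1
  have hW2 : ∀ g : GL D.Idx F, g ∈ D.negUnipotent F ↔ n₀ * g * n₀⁻¹ ∈ D.posUnipotent F := by
    intro g; rw [hn₀]; exact (hW D F z η rT w0 hC g).2
  -- a generic conjugation fact
  have hcj : ∀ (K : Subgroup (GL D.Idx F)) (a : GL D.Idx F), a ∈ K → ∀ x : GL D.Idx F,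
      (a⁻¹ * x * a ∈ K ↔ x ∈ K) := by
    intro K a ha x
    rw [Subgroup.mul_mem_cancel_right K ha, Subgroup.mul_mem_cancel_left K (K.inv_mem ha)]
  -- the image `m` of `n₀`
  obtain ⟨m, hmdef⟩ : ∃ m : GL D.Idx F, m = ((θ (nWG hS w0) : ↥(D.group F)) : GL D.Idx F) :=
    ⟨_, rfl⟩
  have hm : m ∈ D.group F := by rw [hmdef]; exact (θ (nWG hS w0)).2
  have hA : ∀ y : ↥(D.group F), (y : GL D.Idx F) ∈ D.negUnipotent F ↔
      m⁻¹ * ((θ y : ↥(D.group F)) : GL D.Idx F) * m ∈ D.posUnipotent F := by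
    intro y
    have h1 := hW1 (n₀⁻¹ * (y : GL D.Idx F) * n₀)
    have h2 : n₀ * (n₀⁻¹ * (y : GL D.Idx F) * n₀) * n₀⁻¹ = (y : GL D.Idx F) := by group
    rw [h2] at h1
    have h3 := hU ((nWG hS w0)⁻¹ * y * nWG hS w0)
    have h4 : (((nWG hS w0)⁻¹ * y * nWG hS w0 : ↥(D.group F)) : GL D.Idx F) =
        n₀⁻¹ * (y : GL D.Idx F) * n₀ := by rw [hn₀]; rfl
    have h5 : ((θ ((nWG hS w0)⁻¹ * y * nWG hS w0) : ↥(D.group F)) : GL D.Idx F) =
        m⁻¹ * ((θ y : ↥(D.group F)) : GL D.Idx F) * m := by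
      rw [map_mul, map_mul, map_inv, hmdef]; rfl
    rw [h4, h5] at h3
    rw [← h1, h3]
  obtain ⟨b, hb, w, hw, u', hu', hmeq⟩ := canon_exists_word hC.hP hV hC.hTT hC.hL m hm
  have hu'U : u' ∈ D.posUnipotent F := UmG_le_pos _ hu'
  obtain ⟨nw, hnw⟩ : ∃ nw : GL D.Idx F, nw = nWU hS w := ⟨_, rfl⟩
  have hmeq' : m = b * nw * u' := by rw [hnw]; exact hmeq
  have hA' : ∀ y : ↥(D.group F), (y : GL D.Idx F) ∈ D.negUnipotent F ↔
      nw⁻¹ * (b⁻¹ * ((θ y : ↥(D.group F)) : GL D.Idx F) * b) * nw ∈ D.posUnipotent F := by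
    intro y
    rw [hA y, ← hcj (D.posUnipotent F) u' hu'U
      (nw⁻¹ * (b⁻¹ * ((θ y : ↥(D.group F)) : GL D.Idx F) * b) * nw)]
    have e : m⁻¹ * ((θ y : ↥(D.group F)) : GL D.Idx F) * m =
        u'⁻¹ * (nw⁻¹ * (b⁻¹ * ((θ y : ↥(D.group F)) : GL D.Idx F) * b) * nw) * u' := by
      rw [hmeq']; group
    rw [e]
  have hBU : D.borelSubgroup F ≤ Subgroup.normalizer (D.posUnipotent F : Set (GL D.Idx F)) :=
    sup_le Subgroup.le_normalizer
      (diagonal_le_normalizer_rootGen hS D.IsPosRoot (fun _ hr => hr.1))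
  -- (1) `n_w U n_w⁻¹ ∩ U = 1`
  have h1 : ∀ g ∈ D.posUnipotent F, nw⁻¹ * g * nw ∈ D.posUnipotent F → g = 1 := by
    intro g hg hg'
    have hxU : b * g * b⁻¹ ∈ D.posUnipotent F := (Subgroup.mem_normalizer_iff.1 (hBU hb) g).1 hg
    have hxG : b * g * b⁻¹ ∈ D.group F := posUnipotent_le_group hS hxU
    obtain ⟨y, hy⟩ : ∃ y : ↥(D.group F), θ y = ⟨b * g * b⁻¹, hxG⟩ := θ.surjective _
    have hyc : ((θ y : ↥(D.group F)) : GL D.Idx F) = b * g * b⁻¹ := by rw [hy]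
    have hyV : (y : GL D.Idx F) ∈ D.negUnipotent F := by
      rw [hA' y, hyc]
      have e : nw⁻¹ * (b⁻¹ * (b * g * b⁻¹) * b) * nw = nw⁻¹ * g * nw := by group
      rw [e]; exact hg'
    have hyU : (y : GL D.Idx F) ∈ D.posUnipotent F := by
      rw [← hU y, hyc]; exact hxU
    have hy1 : (y : GL D.Idx F) ∈ D.posUnipotent F ⊓ D.negUnipotent F :=
      Subgroup.mem_inf.2 ⟨hyU, hyV⟩
    rw [pos_inf_neg hS hV, Subgroup.mem_bot] at hy1
    have hy1' : y = 1 := Subtype.ext hy1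
    rw [hy1', map_one] at hyc
    have h0 : b * g * b⁻¹ = 1 := hyc.symm
    have e : g = b⁻¹ * (b * g * b⁻¹) * b := by group
    rw [e, h0]; group
  -- (2) every positive root is made negative by `w`
  have h2 : ∀ r, D.IsPosRoot r → D.IsNegRoot (reflW D w r) := by
    intro r hr
    have hs := reflW_lt hT w hw r hr.1
    refine (pos_or_neg hT _ hs).resolve_left ?_
    intro hpos
    obtain ⟨c, hc, hconj⟩ := nWU_conj hS hN hT w hw r hr.1
    have hcc : c * c = 1 := by rcases hc with rfl | rfl <;> simp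
    have hg : xU hS (reflW D w r) 1 ∈ D.posUnipotent F :=
      xU_mem_rootGen hS D.IsPosRoot _ hpos 1
    have hg' : nw⁻¹ * xU hS (reflW D w r) 1 * nw ∈ D.posUnipotent F := by
      have e := hconj c
      rw [hcc, ← hnw] at e
      rw [← e]
      have e2 : nw⁻¹ * (nw * xU hS r c * nw⁻¹) * nw = xU hS r c := by group
      rw [e2]
      exact xU_mem_rootGen hS D.IsPosRoot r hr c
    have h0 := h1 _ hg hg'
    exact one_ne_zero (xU_eq_one_imp hS hT hT2 _ hs 1 h0)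
  -- (3) `n_w U n_w⁻¹ ≤ V`
  have h3 : ∀ g ∈ D.posUnipotent F, nw * g * nw⁻¹ ∈ D.negUnipotent F := by
    intro g hg
    apply conj_mem_of_closure _ (D.negUnipotent F) nw _ g hg
    rintro x ⟨r, t, hr, hx⟩
    rw [eq_xU hS x r t hx]
    obtain ⟨c, -, hconj⟩ := nWU_conj hS hN hT w hw r hr.1
    rw [hnw, hconj t]
    exact xU_mem_rootGen hS D.IsNegRoot _ (h2 r hr) _
  -- (4) equality, by finiteness
  have h4 : ∀ v ∈ D.negUnipotent F, nw⁻¹ * v * nw ∈ D.posUnipotent F := by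
    intro v hv
    let f : ↥(D.negUnipotent F) → ↥(D.negUnipotent F) := fun v' =>
      ⟨nw * (n₀ * v'.1 * n₀⁻¹) * nw⁻¹, h3 _ ((hW2 v'.1).1 v'.2)⟩
    have hf : Function.Injective f := by
      intro a b' hab
      have e : nw * (n₀ * a.1 * n₀⁻¹) * nw⁻¹ = nw * (n₀ * b'.1 * n₀⁻¹) * nw⁻¹ :=
        congrArg Subtype.val hab
      apply Subtype.ext
      have e' := mul_left_cancel (mul_right_cancel e)
      exact mul_left_cancel (mul_right_cancel e')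
    obtain ⟨v', hv'⟩ := Finite.surjective_of_injective hf ⟨v, hv⟩
    have e : nw * (n₀ * v'.1 * n₀⁻¹) * nw⁻¹ = v := congrArg Subtype.val hv'
    have e2 : nw⁻¹ * v * nw = n₀ * v'.1 * n₀⁻¹ := by rw [← e]; group
    rw [e2]; exact (hW2 v'.1).1 v'.2
  have h5 : ∀ g : GL D.Idx F, nw⁻¹ * g * nw ∈ D.posUnipotent F ↔ g ∈ D.negUnipotent F := by
    intro g
    constructor
    · intro hg
      have h0 := h3 _ hg
      have e : nw * (nw⁻¹ * g * nw) * nw⁻¹ = g := by group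
      rwa [e] at h0
    · exact h4 g
  -- the Borel part `b = u₁ h`
  obtain ⟨u₁, hu₁, h, hh, hbeq⟩ := exists_mul_of_mem_sup _ _
    (diagonal_le_normalizer_rootGen hS D.IsPosRoot (fun _ hr => hr.1)) b hb
  have hu₁U : u₁ ∈ D.posUnipotent F := hu₁
  have hHV : h ∈ Subgroup.normalizer (D.negUnipotent F : Set (GL D.Idx F)) :=
    diagonal_le_normalizer_rootGen hS D.IsNegRoot (fun _ hr => hr.1) hh
  have hu₁G : u₁⁻¹ ∈ D.group F := (D.group F).inv_mem (posUnipotent_le_group hS hu₁U)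
  have hco : ∀ y : ↥(D.group F),
      ((conjL ⟨u₁⁻¹, hu₁G⟩ θ y : ↥(D.group F)) : GL D.Idx F) =
        u₁⁻¹ * ((θ y : ↥(D.group F)) : GL D.Idx F) * u₁ := by
    intro y
    rw [conjL_apply]
    show u₁⁻¹ * ((θ y : ↥(D.group F)) : GL D.Idx F) * (u₁⁻¹)⁻¹ = _
    rw [inv_inv]
  refine ⟨⟨u₁⁻¹, hu₁G⟩, ?_, ?_⟩
  · intro y
    rw [hco y, hcj (D.posUnipotent F) u₁ hu₁U, hU y]
  · intro y
    rw [hco y, hA' y, h5]
    have e2 : b⁻¹ * ((θ y : ↥(D.group F)) : GL D.Idx F) * b =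
        h⁻¹ * (u₁⁻¹ * ((θ y : ↥(D.group F)) : GL D.Idx F) * u₁) * h := by rw [hbeq]; group
    rw [e2]
    have h6 := Subgroup.mem_normalizer_iff.1 hHV
      (h⁻¹ * (u₁⁻¹ * ((θ y : ↥(D.group F)) : GL D.Idx F) * u₁) * h)
    have e3 : h * (h⁻¹ * (u₁⁻¹ * ((θ y : ↥(D.group F)) : GL D.Idx F) * u₁) * h) * h⁻¹ =
        u₁⁻¹ * ((θ y : ↥(D.group F)) : GL D.Idx F) * u₁ := by group
    rw [e3] at h6
    exact h6.symm

example (hW : StW0.{u}) : Cfsg.Agent.H23.Stb.StOpp.{u} := opp hW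

end Cfsg.Agent.H70.Stb
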