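import Cfsg.Agent.H23.StbDefs

/-!
# S2125-POS: an automorphism fixing `U` and `V` permutes the root subgroups of the fundamental
roots, when `w₀` maps `-α_i` to `α_i`
-/

set_option autoImplicit false

namespace Cfsg.Agent.H70.Stb

open Cfsg.Lie Cfsg.Agent.H23 Cfsg.Agent.H23.Stb

universe u

/-- S2125-POS -/
theorem pos (h1 : StNeg.{u}) (h2 : StW0.{u}) : StPos.{u} := by
  intro D F _ z η rT w0 hC θ hw0 hU hV' i hi
  have hS := hC.hP.sem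
  have hN := hC.hP.semN
  have hT := hC.hP.tab
  obtain ⟨n₀, hn₀⟩ : ∃ n₀ : ↥(D.group F), n₀ = nWG hS w0 := ⟨_, rfl⟩
  have hn₀c : (n₀ : GL D.Idx F) = nWU hS w0 := by rw [hn₀]; rfl
  have hW1 : ∀ g : GL D.Idx F, g ∈ D.posUnipotent F ↔
      (n₀ : GL D.Idx F) * g * (n₀ : GL D.Idx F)⁻¹ ∈ D.negUnipotent F := by
    intro g; rw [hn₀c]; exact (h2 D F z η rT w0 hC g).1
  have hW2 : ∀ g : GL D.Idx F, g ∈ D.negUnipotent F ↔
      (n₀ : GL D.Idx F) * g * (n₀ : GL D.Idx F)⁻¹ ∈ D.posUnipotent F := by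
    intro g; rw [hn₀c]; exact (h2 D F z η rT w0 hC g).2
  -- the twisted automorphism `θ' y = n₀⁻¹ θ(n₀ y n₀⁻¹) n₀`
  obtain ⟨θ', hθ'def⟩ : ∃ θ' : ↥(D.group F) ≃* ↥(D.group F), θ' = conjL (n₀⁻¹ * θ n₀) θ :=
    ⟨_, rfl⟩
  have hθ' : ∀ y : ↥(D.group F), θ' y = n₀⁻¹ * θ (n₀ * y * n₀⁻¹) * n₀ := by
    intro y
    rw [hθ'def, conjL_apply, map_mul, map_mul, map_inv]
    group
  have hθ'' : ∀ y : ↥(D.group F), θ (n₀ * y * n₀⁻¹) = n₀ * θ' y * n₀⁻¹ := by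
    intro y; rw [hθ' y]; group
  have hθ'c : ∀ y : ↥(D.group F), ((θ' y : ↥(D.group F)) : GL D.Idx F) =
      (n₀ : GL D.Idx F)⁻¹ * ((θ (n₀ * y * n₀⁻¹) : ↥(D.group F)) : GL D.Idx F) *
        (n₀ : GL D.Idx F) := by
    intro y; rw [hθ' y]; rfl
  have hU' : Pres θ' (D.posUnipotent F) (D.posUnipotent F) := by
    intro y
    rw [hθ'c y]
    have e1 := hW1 ((n₀ : GL D.Idx F)⁻¹ *
      ((θ (n₀ * y * n₀⁻¹) : ↥(D.group F)) : GL D.Idx F) * (n₀ : GL D.Idx F))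
    have e2 : (n₀ : GL D.Idx F) * ((n₀ : GL D.Idx F)⁻¹ *
        ((θ (n₀ * y * n₀⁻¹) : ↥(D.group F)) : GL D.Idx F) * (n₀ : GL D.Idx F)) *
        (n₀ : GL D.Idx F)⁻¹ = ((θ (n₀ * y * n₀⁻¹) : ↥(D.group F)) : GL D.Idx F) := by group
    rw [e2] at e1
    rw [e1, hV' (n₀ * y * n₀⁻¹)]
    exact (hW1 (y : GL D.Idx F)).symm
  have hV'' : Pres θ' (D.negUnipotent F) (D.negUnipotent F) := by
    intro y
    rw [hθ'c y]
    have e1 := hW2 ((n₀ : GL D.Idx F)⁻¹ *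
      ((θ (n₀ * y * n₀⁻¹) : ↥(D.group F)) : GL D.Idx F) * (n₀ : GL D.Idx F))
    have e2 : (n₀ : GL D.Idx F) * ((n₀ : GL D.Idx F)⁻¹ *
        ((θ (n₀ * y * n₀⁻¹) : ↥(D.group F)) : GL D.Idx F) * (n₀ : GL D.Idx F)) *
        (n₀ : GL D.Idx F)⁻¹ = ((θ (n₀ * y * n₀⁻¹) : ↥(D.group F)) : GL D.Idx F) := by group
    rw [e2] at e1
    rw [e1, hU (n₀ * y * n₀⁻¹)]
    exact (hW2 (y : GL D.Idx F)).symm
  obtain ⟨j, hj, hr1, hr2⟩ := h1 D F z η rT w0 hC θ' hU' hV'' i hi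
  -- conjugation by `n₀`
  have hcj : ∀ k < D.rank, ∃ c : F, c * c = 1 ∧ ∀ t : F,
      n₀ * xG hS (D.neg (D.simple k)) t * n₀⁻¹ = xG hS (D.simple k) (c * t) := by
    intro k hk
    obtain ⟨c, hc, hconj⟩ := nWU_conj hS hN hT w0 hC.hW.lt (D.neg (D.simple k))
      (hT.neg_lt _ (hT.simple_lt k hk))
    refine ⟨c, by rcases hc with rfl | rfl <;> simp, fun t => ?_⟩
    apply Subtype.ext
    have h0 := hconj t
    rw [hw0 k hk] at h0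
    show (n₀ : GL D.Idx F) * xU hS (D.neg (D.simple k)) t * (n₀ : GL D.Idx F)⁻¹ =
      xU hS (D.simple k) (c * t)
    rw [hn₀c]; exact h0
  obtain ⟨ci, hci, hconji⟩ := hcj i hi
  obtain ⟨cj, hcj', hconjj⟩ := hcj j hj
  refine ⟨j, hj, ?_, ?_⟩
  · intro t
    obtain ⟨s, hs⟩ := hr1 (ci * t)
    refine ⟨cj * s, ?_⟩
    have e : xG hS (D.simple i) t = n₀ * xG hS (D.neg (D.simple i)) (ci * t) * n₀⁻¹ := by
      rw [hconji, ← mul_assoc, hci, one_mul]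
    rw [e, hθ'', hs, hconjj]
  · intro t'
    obtain ⟨s, hs⟩ := hr2 (cj * t')
    refine ⟨ci * s, ?_⟩
    rw [← hconji s, hθ'', hs, hconjj, ← mul_assoc, hcj', one_mul]

example (h1 : StNeg.{u}) (h2 : StW0.{u}) : Cfsg.Agent.H23.Stb.StPos.{u} := pos h1 h2

end Cfsg.Agent.H70.Stb
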