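import Mathlib
import Cfsg.Agent.H78.SvDefs

/-!
# helper70: piece HOMADD of S2425 -- equivariant maps out of a direct sum of invariant subspaces
-/

set_option autoImplicit false

namespace Cfsg.Agent.H70.Sv

open Cfsg.Agent.H78.Sv

section inv

variable {F : Type*} [Field F] {V : Type*} [AddCommGroup V] [Module F V]

/-- The sum map `U₁ × U₂ → U₁ ⊔ U₂`. -/
def sumMap (U₁ U₂ : Submodule F V) : (↥U₁ × ↥U₂) →ₗ[F] ↥(U₁ ⊔ U₂) :=
  (Submodule.inclusion (le_sup_left : U₁ ≤ U₁ ⊔ U₂)).coprod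
    (Submodule.inclusion (le_sup_right : U₂ ≤ U₁ ⊔ U₂))

theorem sumMap_val (U₁ U₂ : Submodule F V) (x : ↥U₁ × ↥U₂) :
    ((sumMap U₁ U₂ x : ↥(U₁ ⊔ U₂)) : V) = (x.1 : V) + (x.2 : V) := by
  simp [sumMap]

theorem sumMap_bijective (U₁ U₂ : Submodule F V) (h : U₁ ⊓ U₂ = ⊥) :
    Function.Bijective (sumMap U₁ U₂) := by
  constructor
  · rw [← LinearMap.ker_eq_bot, LinearMap.ker_eq_bot']
    rintro ⟨u₁, u₂⟩ hx
    have hv : (u₁ : V) + (u₂ : V) = 0 := by
      have := congrArg Subtype.val hx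
      rw [sumMap_val] at this
      simpa using this
    have h1 : (u₁ : V) ∈ U₁ ⊓ U₂ := by
      refine ⟨u₁.2, ?_⟩
      have : (u₁ : V) = -(u₂ : V) := eq_neg_of_add_eq_zero_left hv
      rw [this]
      exact U₂.neg_mem u₂.2
    rw [h, Submodule.mem_bot] at h1
    have h2 : (u₂ : V) = 0 := by
      rw [h1, zero_add] at hv
      exact hv
    exact Prod.ext (Subtype.ext h1) (Subtype.ext h2)
  · rintro ⟨w, hw⟩
    obtain ⟨y, hy, z, hz, rfl⟩ := Submodule.mem_sup.mp hw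
    exact ⟨(⟨y, hy⟩, ⟨z, hz⟩), Subtype.ext (sumMap_val _ _ _)⟩

end inv

section main

variable {F : Type*} [Field F] {V : Type*} [AddCommGroup V] [Module F V] [FiniteDimensional F V]

theorem card_homT_sup [Finite F] (T : Module.End F V) (U₁ U₂ A : ↥(Module.End.invtSubmodule T))
    (h : U₁ ⊓ U₂ = ⊥) :
    Nat.card (HomT T (U₁ ⊔ U₂) A) = Nat.card (HomT T U₁ A) * Nat.card (HomT T U₂ A) := by
  have hbot : U₁.1 ⊓ U₂.1 = ⊥ := by
    have := congrArg Subtype.val h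
    exact this
  have hbij := sumMap_bijective U₁.1 U₂.1 hbot
  -- the sum map as an equivalence onto `(U₁ ⊔ U₂).1`
  let e : (↥U₁.1 × ↥U₂.1) ≃ₗ[F] ↥(U₁ ⊔ U₂).1 := LinearEquiv.ofBijective (sumMap U₁.1 U₂.1) hbij
  have he : ∀ x : ↥U₁.1 × ↥U₂.1, ((e x : ↥(U₁ ⊔ U₂).1) : V) = (x.1 : V) + (x.2 : V) :=
    fun x => sumMap_val U₁.1 U₂.1 x
  let i₁ : ↥U₁.1 →ₗ[F] ↥(U₁ ⊔ U₂).1 := Submodule.inclusion (le_sup_left : U₁.1 ≤ U₁.1 ⊔ U₂.1)
  let i₂ : ↥U₂.1 →ₗ[F] ↥(U₁ ⊔ U₂).1 := Submodule.inclusion (le_sup_right : U₂.1 ≤ U₁.1 ⊔ U₂.1)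
  have hi₁ : ∀ u : ↥U₁.1, ((i₁ u : ↥(U₁ ⊔ U₂).1) : V) = u := fun u => rfl
  have hi₂ : ∀ u : ↥U₂.1, ((i₂ u : ↥(U₁ ⊔ U₂).1) : V) = u := fun u => rfl
  -- restriction
  let res : HomT T (U₁ ⊔ U₂) A → HomT T U₁ A × HomT T U₂ A := fun φ =>
    (⟨φ.1 ∘ₗ i₁, fun u => by
        have h1 : i₁ (resT T U₁ u) = resT T (U₁ ⊔ U₂) (i₁ u) := Subtype.ext rfl
        show φ.1 (i₁ (resT T U₁ u)) = resT T A (φ.1 (i₁ u))
        rw [h1, φ.2]⟩,
     ⟨φ.1 ∘ₗ i₂, fun u => by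
        have h1 : i₂ (resT T U₂ u) = resT T (U₁ ⊔ U₂) (i₂ u) := Subtype.ext rfl
        show φ.1 (i₂ (resT T U₂ u)) = resT T A (φ.1 (i₂ u))
        rw [h1, φ.2]⟩)
  have hdec : ∀ w : ↥(U₁ ⊔ U₂).1, ∃ u₁ : ↥U₁.1, ∃ u₂ : ↥U₂.1, w = i₁ u₁ + i₂ u₂ := by
    intro w
    obtain ⟨x, hx⟩ := e.surjective w
    refine ⟨x.1, x.2, ?_⟩
    apply Subtype.ext
    rw [← hx, he]
    rfl
  have hres : Function.Bijective res := by
    constructor
    · intro φ φ' hφ
      have h1 : φ.1 ∘ₗ i₁ = φ'.1 ∘ₗ i₁ := congrArg Subtype.val (congrArg Prod.fst hφ)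
      have h2 : φ.1 ∘ₗ i₂ = φ'.1 ∘ₗ i₂ := congrArg Subtype.val (congrArg Prod.snd hφ)
      apply Subtype.ext
      apply LinearMap.ext
      intro w
      obtain ⟨u₁, u₂, rfl⟩ := hdec w
      rw [map_add, map_add]
      have h1' := LinearMap.congr_fun h1 u₁
      have h2' := LinearMap.congr_fun h2 u₂
      simp only [LinearMap.comp_apply] at h1' h2'
      rw [h1', h2']
    · rintro ⟨φ₁, φ₂⟩
      refine ⟨⟨(φ₁.1.coprod φ₂.1) ∘ₗ (e.symm : ↥(U₁ ⊔ U₂).1 →ₗ[F] ↥U₁.1 × ↥U₂.1), ?_⟩, ?_⟩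
      · intro w
        obtain ⟨x, rfl⟩ := e.surjective w
        have h1 : resT T (U₁ ⊔ U₂) (e x) = e (resT T U₁ x.1, resT T U₂ x.2) := by
          apply Subtype.ext
          rw [he]
          show T ((e x : ↥(U₁ ⊔ U₂).1) : V) = T (x.1 : V) + T (x.2 : V)
          rw [he, map_add]
        rw [h1]
        simp only [LinearMap.comp_apply, LinearEquiv.coe_coe, LinearEquiv.symm_apply_apply,
          LinearMap.coprod_apply]
        rw [φ₁.2, φ₂.2, map_add]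
      · have hx1 : ∀ u : ↥U₁.1, e.symm (i₁ u) = (u, 0) := by
          intro u
          rw [LinearEquiv.symm_apply_eq]
          apply Subtype.ext
          rw [he]
          simp [hi₁]
        have hx2 : ∀ u : ↥U₂.1, e.symm (i₂ u) = (0, u) := by
          intro u
          rw [LinearEquiv.symm_apply_eq]
          apply Subtype.ext
          rw [he]
          simp [hi₂]
        apply Prod.ext
        · apply Subtype.ext
          apply LinearMap.ext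
          intro u
          show (φ₁.1.coprod φ₂.1) (e.symm (i₁ u)) = φ₁.1 u
          rw [hx1]
          simp
        · apply Subtype.ext
          apply LinearMap.ext
          intro u
          show (φ₁.1.coprod φ₂.1) (e.symm (i₂ u)) = φ₂.1 u
          rw [hx2]
          simp
  rw [Nat.card_congr (Equiv.ofBijective res hres), Nat.card_prod]

theorem card_homT_bot [Finite F] (T : Module.End F V) (A : ↥(Module.End.invtSubmodule T)) :
    Nat.card (HomT T ⊥ A) = 1 := by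
  rw [Nat.card_eq_one_iff_unique]
  have hz : ∀ u : ↥(⊥ : ↥(Module.End.invtSubmodule T)).1, u = 0 := by
    intro u
    apply Subtype.ext
    exact (Submodule.mem_bot F).mp u.2
  constructor
  · refine ⟨fun φ φ' => ?_⟩
    apply Subtype.ext
    apply LinearMap.ext
    intro u
    rw [hz u, map_zero, map_zero]
  · exact ⟨⟨0, fun u => by simp⟩⟩

end main

end Cfsg.Agent.H70.Sv
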