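import Mathlib
import Cfsg.Agent.H78.SvDefs

/-!
# helper70: piece HOMNE of S2425 -- no nonzero equivariant maps between atoms with different
characteristic polynomials
-/

set_option autoImplicit false

namespace Cfsg.Agent.H70.Sv

open Cfsg.Agent.H78.Sv

section main

variable {F : Type*} [Field F] {V : Type*} [AddCommGroup V] [Module F V] [FiniteDimensional F V]

/-- A nonzero equivariant map between atoms is bijective. -/
theorem homT_bijective_of_ne_zero (T : Module.End F V) (A B : ↥(Module.End.invtSubmodule T))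
    (hA : IsAtom A) (hB : IsAtom B) (f : ↥B.1 →ₗ[F] ↥A.1)
    (hf : ∀ u : ↥B.1, f (resT T B u) = resT T A (f u)) (hφ : f ≠ 0) :
    Function.Bijective f := by
  -- the kernel
  have hKinv : (LinearMap.ker f).map B.1.subtype ∈ Module.End.invtSubmodule T := by
    rw [Module.End.mem_invtSubmodule_iff_forall_mem_of_mem]
    rintro x ⟨u, hu, rfl⟩
    have hu' : f u = 0 := hu
    refine ⟨resT T B u, ?_, rfl⟩
    show f (resT T B u) = 0
    rw [hf, hu', map_zero]
  have hKle : (⟨(LinearMap.ker f).map B.1.subtype, hKinv⟩ : ↥(Module.End.invtSubmodule T)) ≤ B :=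
    Submodule.map_subtype_le B.1 _
  have hinj : Function.Injective f := by
    rcases hB.le_iff.mp hKle with hK | hK
    · rw [← LinearMap.ker_eq_bot, LinearMap.ker_eq_bot']
      intro u hu
      have h1 : (u : V) ∈ (LinearMap.ker f).map B.1.subtype := ⟨u, hu, rfl⟩
      have h2 : (LinearMap.ker f).map B.1.subtype = ⊥ := congrArg Subtype.val hK
      rw [h2, Submodule.mem_bot] at h1
      exact Subtype.ext h1
    · exfalso
      apply hφ
      apply LinearMap.ext
      intro u
      have h2 : (LinearMap.ker f).map B.1.subtype = B.1 := congrArg Subtype.val hK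
      have h1 : (u : V) ∈ (LinearMap.ker f).map B.1.subtype := by rw [h2]; exact u.2
      obtain ⟨u', hu', hu'u⟩ := h1
      have : u' = u := Subtype.ext hu'u
      rw [← this]
      exact hu'
  -- the range
  have hRinv : (LinearMap.range f).map A.1.subtype ∈ Module.End.invtSubmodule T := by
    rw [Module.End.mem_invtSubmodule_iff_forall_mem_of_mem]
    rintro x ⟨a, ⟨u, rfl⟩, rfl⟩
    exact ⟨resT T A (f u), ⟨resT T B u, hf u⟩, rfl⟩
  have hRle : (⟨(LinearMap.range f).map A.1.subtype, hRinv⟩ : ↥(Module.End.invtSubmodule T)) ≤ A :=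
    Submodule.map_subtype_le A.1 _
  have hsurj : Function.Surjective f := by
    rcases hA.le_iff.mp hRle with hR | hR
    · exfalso
      apply hφ
      apply LinearMap.ext
      intro u
      have h2 : (LinearMap.range f).map A.1.subtype = ⊥ := congrArg Subtype.val hR
      have h1 : ((f u : ↥A.1) : V) ∈ (LinearMap.range f).map A.1.subtype :=
        ⟨f u, ⟨u, rfl⟩, rfl⟩
      rw [h2, Submodule.mem_bot] at h1
      exact Subtype.ext h1
    · intro a
      have h2 : (LinearMap.range f).map A.1.subtype = A.1 := congrArg Subtype.val hR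
      have h1 : (a : V) ∈ (LinearMap.range f).map A.1.subtype := by rw [h2]; exact a.2
      obtain ⟨a', ⟨u, hu⟩, ha'a⟩ := h1
      have : a' = a := Subtype.ext ha'a
      exact ⟨u, hu.trans this⟩
  exact ⟨hinj, hsurj⟩

theorem card_homT_of_ne [Finite F] (T : Module.End F V) (A B : ↥(Module.End.invtSubmodule T))
    (hA : IsAtom A) (hB : IsAtom B) (h : cp T B ≠ cp T A) : Nat.card (HomT T B A) = 1 := by
  rw [Nat.card_eq_one_iff_unique]
  have hzero : ∀ (f : ↥B.1 →ₗ[F] ↥A.1), (∀ u : ↥B.1, f (resT T B u) = resT T A (f u)) →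
      f = 0 := by
    intro f hf
    by_contra hφ
    have hbij := homT_bijective_of_ne_zero T A B hA hB f hf hφ
    let e : ↥B.1 ≃ₗ[F] ↥A.1 := LinearEquiv.ofBijective f hbij
    have hconj : e.conj (resT T B) = resT T A := by
      apply LinearMap.ext
      intro a
      rw [LinearEquiv.conj_apply]
      show f (resT T B (e.symm a)) = resT T A a
      rw [hf]
      congr 1
      exact e.apply_symm_apply a
    apply h
    show (resT T B).charpoly = (resT T A).charpoly
    rw [← hconj, LinearEquiv.charpoly_conj]
  constructor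
  · refine ⟨fun φ φ' => ?_⟩
    obtain ⟨f, hf⟩ := φ
    obtain ⟨f', hf'⟩ := φ'
    have h1 := hzero f hf
    have h2 := hzero f' hf'
    subst h1
    subst h2
    rfl
  · exact ⟨⟨0, fun u => by simp⟩⟩

end main

end Cfsg.Agent.H70.Sv
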