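import Cfsg.Agent.H77.TpDefs

/-!
# S5980-ORTHINV (helper70, piece for helper77): orthogonal involutions with a fixed space of
prescribed dimension (orthogonal basis `P`, `D = P E P⁻¹` with `E` diagonal of signs).
-/

set_option autoImplicit false
open scoped MatrixGroups
open scoped Matrix
open scoped Kronecker

namespace Cfsg.Agent.H70.Tp

universe u

theorem orthInv (hGram : Cfsg.Agent.H77.Tp.StGram.{u}) : Cfsg.Agent.H77.Tp.StOrthInv.{u} := by
  classical
  intro F _ b f h2 hf j hj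
  obtain ⟨hGt, hGu, hGf⟩ := (hGram F b f).1 hf
  obtain ⟨G, hG⟩ : ∃ G, G = Cfsg.Geo.gramMatrix f := ⟨_, rfl⟩
  rw [← hG] at hGt hGu hGf ⊢
  have hinv2 : Invertible (2 : F) := invertibleOfNonzero h2
  have hsymm : (Matrix.toBilin' G).IsSymm := by
    refine ⟨fun x y => ?_⟩
    rw [Matrix.toBilin'_apply', Matrix.toBilin'_apply', ← hGf, ← hGf]
    exact hf.symm x y
  obtain ⟨v0, hv0⟩ := LinearMap.BilinForm.exists_orthogonal_basis (LinearMap.BilinForm.isSymm_iff.1 hsymm)
  have hfr : Module.finrank F (Fin b → F) = b := Module.finrank_fin_fun F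
  obtain ⟨v, hvdef⟩ : ∃ v : Module.Basis (Fin b) F (Fin b → F), v = v0.reindex (finCongr hfr) :=
    ⟨_, rfl⟩
  have hv : ∀ k l : Fin b, k ≠ l → v k ⬝ᵥ G *ᵥ v l = 0 := by
    intro k l hkl
    have h1 := LinearMap.isOrthoᵢ_def.1 hv0 ((finCongr hfr).symm k) ((finCongr hfr).symm l)
      (fun h => hkl ((finCongr hfr).symm.injective h))
    rw [Matrix.toBilin'_apply'] at h1
    rw [hvdef, Module.Basis.reindex_apply, Module.Basis.reindex_apply]
    exact h1
  obtain ⟨P, hPdef⟩ : ∃ P : Matrix (Fin b) (Fin b) F, P = (Pi.basisFun F (Fin b)).toMatrix v :=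
    ⟨_, rfl⟩
  obtain ⟨P', hP'def⟩ : ∃ P' : Matrix (Fin b) (Fin b) F,
      P' = v.toMatrix (Pi.basisFun F (Fin b)) := ⟨_, rfl⟩
  have hPP' : P * P' = 1 := by
    rw [hPdef, hP'def]
    exact Module.Basis.toMatrix_mul_toMatrix_flip _ _
  have hP'P : P' * P = 1 := by
    rw [hPdef, hP'def]
    exact Module.Basis.toMatrix_mul_toMatrix_flip _ _
  have hPentry : ∀ i k, P i k = v k i := by
    intro i k
    rw [hPdef, Module.Basis.toMatrix_apply, Pi.basisFun_repr]
  have hΔ : ∀ k l, (Pᵀ * G * P) k l = v k ⬝ᵥ G *ᵥ v l := by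
    intro k l
    rw [Matrix.mul_assoc, Matrix.mul_apply]
    simp only [Matrix.transpose_apply, Matrix.mul_apply, hPentry, dotProduct, Matrix.mulVec]
  obtain ⟨δ, hδ⟩ : ∃ δ : Fin b → F, δ = fun k => (Pᵀ * G * P) k k :=
    ⟨fun k => (Pᵀ * G * P) k k, rfl⟩
  have hΔdiag : Pᵀ * G * P = Matrix.diagonal δ := by
    ext k l
    rw [Matrix.diagonal_apply]
    by_cases hkl : k = l
    · rw [if_pos hkl, hδ, hkl]
    · rw [if_neg hkl, hΔ, hv k l hkl]
  obtain ⟨ε, hεdef⟩ : ∃ ε : Fin b → F, ε = (fun i : Fin b => if (i : ℕ) < j then (1 : F) else -1) :=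
    ⟨fun i : Fin b => if (i : ℕ) < j then (1 : F) else -1, rfl⟩
  have hε : ∀ i, ε i * ε i = 1 := by
    intro i
    rw [hεdef]
    by_cases hi : (i : ℕ) < j
    · simp only [if_pos hi, mul_one]
    · simp only [if_neg hi, mul_neg, mul_one, neg_neg]
  have hEE : Matrix.diagonal ε * Matrix.diagonal ε = 1 := by
    rw [Matrix.diagonal_mul_diagonal]
    have h1 : (fun i => ε i * ε i) = fun _ => (1 : F) := funext hε
    rw [h1, Matrix.diagonal_one]
  have hEt : (Matrix.diagonal ε)ᵀ = Matrix.diagonal ε := Matrix.diagonal_transpose ε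
  have hEΔE : Matrix.diagonal ε * Matrix.diagonal δ * Matrix.diagonal ε = Matrix.diagonal δ := by
    rw [Matrix.diagonal_mul_diagonal, Matrix.diagonal_mul_diagonal]
    congr 1
    funext i
    rw [mul_comm (ε i) (δ i), mul_assoc, hε, mul_one]
  refine ⟨P * Matrix.diagonal ε * P', ?_, ?_, ?_⟩
  · have h1 : P * Matrix.diagonal ε * P' * (P * Matrix.diagonal ε * P') =
        P * (Matrix.diagonal ε * ((P' * P) * (Matrix.diagonal ε * P'))) := by
      simp only [Matrix.mul_assoc]
    rw [h1, hP'P, Matrix.one_mul, ← Matrix.mul_assoc (Matrix.diagonal ε), hEE, Matrix.one_mul,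
      hPP']
  · have e1 : (P * Matrix.diagonal ε * P')ᵀ * G * (P * Matrix.diagonal ε * P') =
        P'ᵀ * (Matrix.diagonal ε * (Pᵀ * G * P) * Matrix.diagonal ε) * P' := by
      rw [Matrix.transpose_mul, Matrix.transpose_mul, hEt]
      simp only [Matrix.mul_assoc]
    rw [e1, hΔdiag, hEΔE, ← hΔdiag]
    have e2 : P'ᵀ * (Pᵀ * G * P) * P' = (P * P')ᵀ * G * (P * P') := by
      rw [Matrix.transpose_mul]
      simp only [Matrix.mul_assoc]
    rw [e2, hPP', Matrix.transpose_one, Matrix.one_mul, Matrix.mul_one]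
  · have e1 : P * Matrix.diagonal ε * P' - 1 = P * (Matrix.diagonal ε - 1) * P' := by
      rw [Matrix.mul_sub, Matrix.sub_mul, Matrix.mul_one, hPP']
    have hPu : IsUnit P.det := Matrix.isUnit_det_of_right_inverse hPP'
    have hP'u : IsUnit P'.det := Matrix.isUnit_det_of_left_inverse hPP'
    rw [e1, Matrix.rank_mul_eq_left_of_isUnit_det P' _ hP'u,
      Matrix.rank_mul_eq_right_of_isUnit_det P _ hPu, ← Matrix.diagonal_one,
      Matrix.diagonal_sub, Matrix.rank_diagonal]
    have e2 : Fintype.card {i : Fin b // ε i - 1 ≠ 0} =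
        Fintype.card {i : Fin b // ¬ (i : ℕ) < j} := by
      apply Fintype.card_congr
      apply Equiv.subtypeEquivRight
      intro i
      rw [hεdef]
      by_cases hi : (i : ℕ) < j
      · simp [hi]
      · simp only [if_neg hi]
        constructor
        · intro _
          exact hi
        · intro _ h0
          apply h2
          have h3 : (2 : F) = -((-1 : F) - 1) := by ring
          rw [h3, h0, neg_zero]
    rw [e2, Fintype.card_subtype_compl, Fintype.card_fin, Fintype.card_subtype,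
      Fin.card_filter_val_lt, min_eq_right hj]

example : Cfsg.Agent.H77.Tp.StGram.{u} → Cfsg.Agent.H77.Tp.StOrthInv.{u} := orthInv

end Cfsg.Agent.H70.Tp
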