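import Cfsg.Agent.H77.TpDefs
import Cfsg.Agent.H18.TenRANK

/-!
# S5980-TRI (helper70, piece for helper77): ranks and powers of a conjugate of a Kronecker product
(index type `Fin d ⊕ Fin d`; adapted from helper99's `rank_transfer` / `pow_transfer`).
-/

set_option autoImplicit false
set_option linter.unusedSectionVars false
open scoped MatrixGroups
open scoped Matrix
open scoped Kronecker

namespace Cfsg.Agent.H70.Tp

open Cfsg.Agent.H77.Fx Cfsg.Agent.H18.Ten

universe u

section gen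

variable {F : Type*} [Field F] {n m : Type*} [Fintype n] [DecidableEq n] [Fintype m]
  [DecidableEq m]

theorem reindex_one (e : n ≃ m) :
    Matrix.reindex e.symm e.symm (1 : Matrix m m F) = 1 := by
  ext i j
  simp [Matrix.reindex_apply, Matrix.submatrix_apply, Matrix.one_apply]

theorem rank_transfer (e : n ≃ m) (x Q : Matrix n n F) (M : Matrix m m F) (hQ : IsUnit Q.det)
    (h : x * Q = Q * Matrix.reindex e.symm e.symm M) (ν : F) :
    (x - ν • (1 : Matrix n n F)).rank = (M - ν • (1 : Matrix m m F)).rank := by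
  have h1 : Matrix.reindex e.symm e.symm (M - ν • (1 : Matrix m m F))
      = Matrix.reindex e.symm e.symm M - ν • (1 : Matrix n n F) := by
    ext i j
    simp [Matrix.reindex_apply, Matrix.submatrix_apply, Matrix.one_apply]
  have h2 : (x - ν • (1 : Matrix n n F)) * Q
      = Q * Matrix.reindex e.symm e.symm (M - ν • (1 : Matrix m m F)) := by
    rw [h1, Matrix.sub_mul, Matrix.mul_sub, h, Matrix.smul_mul, Matrix.mul_smul, Matrix.one_mul,
      Matrix.mul_one]
  rw [← Matrix.rank_mul_eq_left_of_isUnit_det Q _ hQ, h2,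
    Matrix.rank_mul_eq_right_of_isUnit_det Q _ hQ, Matrix.rank_reindex]

theorem pow_conj (e : n ≃ m) (x Q : Matrix n n F) (M : Matrix m m F)
    (h : x * Q = Q * Matrix.reindex e.symm e.symm M) (j : ℕ) :
    x ^ j * Q = Q * Matrix.reindex e.symm e.symm (M ^ j) := by
  induction j with
  | zero => rw [pow_zero, pow_zero, Matrix.one_mul, reindex_one, Matrix.mul_one]
  | succ j ih =>
    have h2 : Matrix.reindex e.symm e.symm (M ^ (j + 1))
        = Matrix.reindex e.symm e.symm (M ^ j) * Matrix.reindex e.symm e.symm M := by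
      rw [pow_succ]
      simp [Matrix.reindex_apply, Matrix.submatrix_mul_equiv]
    rw [pow_succ, Matrix.mul_assoc, h, ← Matrix.mul_assoc, ih, Matrix.mul_assoc, ← h2]

theorem pow_transfer (e : n ≃ m) (x Q : Matrix n n F) (M : Matrix m m F) (hQ : IsUnit Q.det)
    (h : x * Q = Q * Matrix.reindex e.symm e.symm M) (k : ℕ) (hx : x ^ k = 1) : M ^ k = 1 := by
  have h3 := pow_conj e x Q M h k
  rw [hx, Matrix.one_mul] at h3
  have h4 : Matrix.reindex e.symm e.symm (M ^ k) = 1 := by
    have hQ' : IsUnit Q := (Matrix.isUnit_iff_isUnit_det Q).mpr hQ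
    obtain ⟨u, rfl⟩ := hQ'
    have h5 : (u : Matrix n n F) * 1 = (u : Matrix n n F) * Matrix.reindex e.symm e.symm (M ^ k) := by
      rw [Matrix.mul_one]
      exact h3
    exact (Units.mul_right_inj u).mp h5.symm
  have h6 : Matrix.reindex e e (Matrix.reindex e.symm e.symm (M ^ k)) = M ^ k := by
    ext i j
    simp [Matrix.reindex_apply, Matrix.submatrix_apply]
  rw [← h6, h4]
  ext i j
  simp [Matrix.reindex_apply, Matrix.submatrix_apply, Matrix.one_apply]

theorem pow_transfer_smul (e : n ≃ m) (x Q : Matrix n n F) (M : Matrix m m F)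
    (hQ : IsUnit Q.det) (h : x * Q = Q * Matrix.reindex e.symm e.symm M) (k : ℕ) (c : F)
    (hM : M ^ k = c • (1 : Matrix m m F)) : x ^ k = c • (1 : Matrix n n F) := by
  have h3 := pow_conj e x Q M h k
  have h1 : Matrix.reindex e.symm e.symm (c • (1 : Matrix m m F)) = c • (1 : Matrix n n F) := by
    ext i j
    simp [Matrix.reindex_apply, Matrix.submatrix_apply, Matrix.one_apply]
  rw [hM, h1, Matrix.mul_smul, Matrix.mul_one] at h3
  have hQ' : IsUnit Q := (Matrix.isUnit_iff_isUnit_det Q).mpr hQ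
  obtain ⟨u, rfl⟩ := hQ'
  have h5 : x ^ k * (u : Matrix n n F) = (c • (1 : Matrix n n F)) * (u : Matrix n n F) := by
    rw [h3, Matrix.smul_mul, Matrix.one_mul]
  exact (Units.mul_left_inj u).mp h5

end gen

section kron

variable {F : Type*} [Field F] {a b : ℕ}

theorem kronecker_one_eq (C : Matrix (Fin a) (Fin a) F) :
    C ⊗ₖ (1 : Matrix (Fin b) (Fin b) F) =
      Matrix.reindex (Equiv.prodComm (Fin b) (Fin a)) (Equiv.prodComm (Fin b) (Fin a))
        ((1 : Matrix (Fin b) (Fin b) F) ⊗ₖ C) := by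
  ext ⟨i, j⟩ ⟨i', j'⟩
  simp [Matrix.reindex_apply, Matrix.submatrix_apply, Matrix.kroneckerMap_apply, mul_comm]

theorem rank_kronecker_one (C : Matrix (Fin a) (Fin a) F) :
    (C ⊗ₖ (1 : Matrix (Fin b) (Fin b) F)).rank = b * C.rank := by
  rw [kronecker_one_eq, Matrix.rank_reindex, rank_one_kronecker]

theorem kronecker_one_pow (C : Matrix (Fin a) (Fin a) F) (k : ℕ) :
    (C ⊗ₖ (1 : Matrix (Fin b) (Fin b) F)) ^ k = (C ^ k) ⊗ₖ (1 : Matrix (Fin b) (Fin b) F) := by
  induction k with
  | zero => simp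
  | succ k ih => rw [pow_succ, ih, ← Matrix.mul_kronecker_mul, mul_one, pow_succ]

theorem kronecker_one_pow_eq_one (hb : 0 < b) (C : Matrix (Fin a) (Fin a) F) (k : ℕ)
    (h : (C ⊗ₖ (1 : Matrix (Fin b) (Fin b) F)) ^ k = 1) : C ^ k = 1 := by
  rw [kronecker_one_pow] at h
  ext i i'
  have h1 := congrFun (congrFun h (i, ⟨0, hb⟩)) (i', ⟨0, hb⟩)
  simp only [Matrix.kroneckerMap_apply, Matrix.one_apply, Prod.mk.injEq, and_true, if_true,
    mul_one] at h1
  rw [h1, Matrix.one_apply]

end kron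

theorem tri : Cfsg.Agent.H77.Tp.StTri.{u} := by
  intro F _ d a b e x Q A B ha hb hQ hA hB h
  have hr1 : (x - 1).rank = (A ⊗ₖ B - 1).rank := by
    have h1 := rank_transfer e x Q (A ⊗ₖ B) hQ h 1
    rwa [one_smul, one_smul] at h1
  have hp1 : ∀ k : ℕ, x ^ k = 1 → (A ⊗ₖ B) ^ k = 1 := fun k hk =>
    pow_transfer e x Q (A ⊗ₖ B) hQ h k hk
  have hp2 : ∀ (k : ℕ) (c : F), (A ⊗ₖ B) ^ k = c • 1 → x ^ k = c • 1 := fun k c hk =>
    pow_transfer_smul e x Q (A ⊗ₖ B) hQ h k c hk
  have hle := le_rank_kronecker_sub A B hA hB 1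
  rw [one_smul] at hle
  refine ⟨hr1, hp1, hp2, ?_, ?_, ?_, ?_, ?_⟩
  · intro hns
    rw [hr1]
    exact hle.1 hns
  · intro hns
    rw [hr1]
    exact hle.2 hns
  · intro α hα
    constructor
    · rw [hr1, hα]
      have h1 := rank_scalar_kronecker_sub (a := a) α B 1
      rwa [one_smul, one_smul] at h1
    · intro k hk
      have h1 := hp1 k hk
      rw [hα] at h1
      exact scalar_kronecker_pow_eq_one ha α B k h1
  · intro β hβ
    have e1 : A ⊗ₖ B = (β • A) ⊗ₖ (1 : Matrix (Fin b) (Fin b) F) := by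
      rw [hβ, Matrix.kronecker_smul, Matrix.smul_kronecker]
    constructor
    · rw [hr1, e1]
      have e2 : (β • A) ⊗ₖ (1 : Matrix (Fin b) (Fin b) F) - 1 =
          (β • A - 1) ⊗ₖ (1 : Matrix (Fin b) (Fin b) F) := by
        rw [sub_eq_iff_eq_add, ← Matrix.one_kronecker_one (α := F) (m := Fin a) (n := Fin b),
          ← Matrix.add_kronecker, sub_add_cancel]
      rw [e2, rank_kronecker_one]
    · intro k hk
      have h1 := hp1 k hk
      rw [e1] at h1
      exact kronecker_one_pow_eq_one hb (β • A) k h1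
  · rintro ⟨α, hα⟩ ⟨β, hβ⟩
    refine ⟨α * β, ?_⟩
    have h1 := hp2 1 (α * β) (by
      rw [pow_one, hα, hβ, Matrix.smul_kronecker, Matrix.kronecker_smul, Matrix.one_kronecker_one,
        smul_smul])
    rwa [pow_one] at h1

end Cfsg.Agent.H70.Tp

example : Cfsg.Agent.H77.Tp.StTri := Cfsg.Agent.H70.Tp.tri
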