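import Cfsg.Agent.H81.TypePDefs

/-!
# S1511-CONJ (helper70, piece for helper81): in a group of type P, an element of `W = W₁ ⊔ W₂`
outside `W₂` is only conjugated into `W` by elements of `W`.
-/

set_option autoImplicit false

namespace Cfsg.Agent.H70.TyP

open Cfsg.Agent.H81.TyP

universe u

theorem conj_pow' {L : Type u} [Group L] (g w : L) (n : ℕ) :
    (g⁻¹ * w * g) ^ n = g⁻¹ * w ^ n * g := by
  have h := conj_pow (a := g⁻¹) (b := w) (i := n)
  rwa [inv_inv] at h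

theorem conj : StmtConj.{u} := by
  intro L _ _ K W₁ W₂ hT w g hw hw2 hgw
  have hKn : K.Normal := hT.normal
  -- `W₁` is commutative
  have hW1c : ∀ x ∈ W₁, ∀ y ∈ W₁, x * y = y * x := by
    intro x hx y hy
    have hc1 := hT.cyc₁
    obtain ⟨c, hc⟩ := IsCyclic.exists_generator (α := W₁)
    obtain ⟨m, hm⟩ := Subgroup.mem_zpowers_iff.1 (hc ⟨x, hx⟩)
    obtain ⟨n, hn⟩ := Subgroup.mem_zpowers_iff.1 (hc ⟨y, hy⟩)
    have e : (⟨x, hx⟩ : W₁) * ⟨y, hy⟩ = ⟨y, hy⟩ * ⟨x, hx⟩ := by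
      rw [← hm, ← hn]
      exact ((Commute.refl c).zpow_zpow m n).eq
    exact congrArg Subtype.val e
  -- `W₁` and `W₂` commute elementwise
  have hcomm : ∀ a ∈ W₁, ∀ b ∈ W₂, a * b = b * a := by
    intro a ha b hb
    by_cases h1 : a = 1
    · rw [h1, one_mul, mul_one]
    · have hb' : b ∈ K ⊓ Subgroup.centralizer ({a} : Set L) := by
        rw [hT.cent a ha h1]
        exact hb
      exact Subgroup.mem_centralizer_iff.1 hb'.2 a rfl
  -- elements of `W₁ ⊔ W₂` are products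
  have hprod : ∀ y ∈ W₁ ⊔ W₂, ∃ a ∈ W₁, ∃ b ∈ W₂, y = a * b := by
    let S : Subgroup L :=
      { carrier := {y | ∃ a ∈ W₁, ∃ b ∈ W₂, y = a * b}
        one_mem' := ⟨1, W₁.one_mem, 1, W₂.one_mem, (mul_one 1).symm⟩
        mul_mem' := by
          rintro _ _ ⟨a, ha, b, hb, rfl⟩ ⟨a', ha', b', hb', rfl⟩
          refine ⟨a * a', W₁.mul_mem ha ha', b * b', W₂.mul_mem hb hb', ?_⟩
          calc a * b * (a' * b') = a * (b * a') * b' := by simp only [mul_assoc]
            _ = a * (a' * b) * b' := by rw [hcomm a' ha' b hb]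
            _ = a * a' * (b * b') := by simp only [mul_assoc]
        inv_mem' := by
          rintro _ ⟨a, ha, b, hb, rfl⟩
          refine ⟨a⁻¹, W₁.inv_mem ha, b⁻¹, W₂.inv_mem hb, ?_⟩
          rw [mul_inv_rev, hcomm a⁻¹ (W₁.inv_mem ha) b⁻¹ (W₂.inv_mem hb)] }
    have hle : W₁ ⊔ W₂ ≤ S := by
      apply sup_le
      · intro a ha
        exact ⟨a, ha, 1, W₂.one_mem, (mul_one a).symm⟩
      · intro b hb
        exact ⟨1, W₁.one_mem, b, hb, (one_mul b).symm⟩
    intro y hy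
    exact hle hy
  obtain ⟨a, ha, b, hb, rfl⟩ := hprod w hw
  have ha1 : a ≠ 1 := by
    rintro rfl
    rw [one_mul] at hw2
    exact hw2 hb
  obtain ⟨a', ha', b', hb', hab'⟩ := hprod _ hgw
  -- `g = k * u`
  have hgtop : g ∈ K ⊔ W₁ := by
    rw [hT.sup]
    trivial
  obtain ⟨k, hk, u, hu, rfl⟩ := (Subgroup.mem_sup_of_normal_left (hs := hKn)).1 hgtop
  -- `a' = a`
  have hπ : ∀ y ∈ K, (QuotientGroup.mk' K) y = 1 := fun y hy => (QuotientGroup.eq_one_iff y).2 hy
  have haa : a' = a := by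
    have e1 : QuotientGroup.mk' K a' = QuotientGroup.mk' K a := by
      have e2 : QuotientGroup.mk' K ((k * u)⁻¹ * (a * b) * (k * u)) =
          QuotientGroup.mk' K (a' * b') := by rw [hab']
      simp only [map_mul, map_inv, hπ k hk, hπ b (hT.le hb), hπ b' (hT.le hb'), one_mul, mul_one] at e2
      rw [← e2, ← map_inv, ← map_mul, ← map_mul]
      congr 1
      rw [mul_assoc, hW1c a ha u hu, inv_mul_cancel_left]
    have e3 : a⁻¹ * a' ∈ K := QuotientGroup.eq.1 e1.symm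
    have e4 : a⁻¹ * a' ∈ K ⊓ W₁ := ⟨e3, W₁.mul_mem (W₁.inv_mem ha) ha'⟩
    rw [hT.inf, Subgroup.mem_bot] at e4
    exact (inv_mul_eq_one.1 e4).symm
  rw [haa] at hab'
  -- the `|W₂|`-th power
  have hbn : ∀ c ∈ W₂, c ^ Nat.card W₂ = 1 := by
    intro c hc
    have h1 : (⟨c, hc⟩ : W₂) ^ Nat.card W₂ = 1 := pow_card_eq_one'
    exact congrArg Subtype.val h1
  have hpow : ∀ c ∈ W₂, (a * c) ^ Nat.card W₂ = a ^ Nat.card W₂ := by
    intro c hc
    have hcm : Commute a c := hcomm a ha c hc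
    rw [hcm.mul_pow, hbn c hc, mul_one]
  have hx : (k * u)⁻¹ * a ^ Nat.card W₂ * (k * u) = a ^ Nat.card W₂ := by
    calc (k * u)⁻¹ * a ^ Nat.card W₂ * (k * u)
        = (k * u)⁻¹ * (a * b) ^ Nat.card W₂ * (k * u) := by rw [hpow b hb]
      _ = ((k * u)⁻¹ * (a * b) * (k * u)) ^ Nat.card W₂ := (conj_pow' _ _ _).symm
      _ = (a * b') ^ Nat.card W₂ := by rw [hab']
      _ = a ^ Nat.card W₂ := hpow b' hb'
  -- `x = a ^ |W₂| ≠ 1`
  have hcompl : Subgroup.IsComplement' K W₁ := by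
    apply Subgroup.isComplement'_of_disjoint_and_mul_eq_univ (disjoint_iff.2 hT.inf)
    rw [← Subgroup.normal_mul, hT.sup]
    rfl
  have hidx : W₁.index = Nat.card K := hcompl.index_eq_card
  have hx1 : a ^ Nat.card W₂ ≠ 1 := by
    intro h
    apply ha1
    have d1 : orderOf a ∣ Nat.card W₂ := orderOf_dvd_of_pow_eq_one h
    have d2 : orderOf a ∣ Nat.card W₁ := Subgroup.orderOf_dvd_natCard W₁ ha
    have d3 : Nat.card W₂ ∣ W₁.index := by
      rw [hidx]
      exact Subgroup.card_dvd_of_le hT.le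
    have d4 : orderOf a ∣ Nat.gcd (Nat.card W₁) W₁.index := Nat.dvd_gcd d2 (d1.trans d3)
    rw [Nat.Coprime.gcd_eq_one hT.hall, Nat.dvd_one] at d4
    exact orderOf_eq_one_iff.1 d4
  have hxW : a ^ Nat.card W₂ ∈ W₁ := W₁.pow_mem ha _
  -- `k` centralizes `x`
  have hux : u * a ^ Nat.card W₂ = a ^ Nat.card W₂ * u := hW1c u hu _ hxW
  have hkx : a ^ Nat.card W₂ * k = k * a ^ Nat.card W₂ := by
    have e1 : a ^ Nat.card W₂ * (k * u) = (k * u) * a ^ Nat.card W₂ := by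
      calc a ^ Nat.card W₂ * (k * u)
          = (k * u) * ((k * u)⁻¹ * a ^ Nat.card W₂ * (k * u)) := by
            simp only [mul_assoc, mul_inv_cancel_left]
        _ = (k * u) * a ^ Nat.card W₂ := by rw [hx]
    have e2 : a ^ Nat.card W₂ * k * u = k * a ^ Nat.card W₂ * u := by
      rw [mul_assoc, e1, mul_assoc, hux, mul_assoc]
    exact mul_right_cancel e2
  have hkW : k ∈ W₂ := by
    rw [← hT.cent _ hxW hx1]
    refine ⟨hk, ?_⟩
    refine Subgroup.mem_centralizer_iff.2 (fun h hh => ?_)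
    rw [Set.mem_singleton_iff.1 hh]
    exact hkx
  exact Subgroup.mul_mem _ (Subgroup.mem_sup_right hkW) (Subgroup.mem_sup_left hu)

end Cfsg.Agent.H70.TyP
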