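import Cfsg.Agent.H81.TypePDefs
import Cfsg.Agent.H4.Induction
import Cfsg.Agent.H4.BrauerBasic
import Cfsg.Agent.H32.SNC

/-!
# S1511-LINEQ (helper70, piece for helper81): a linear character of `L` extending a nontrivial
`φ` trivial on `W₂` is the member `χ φ` of the cyclic TI family.
-/

set_option autoImplicit false

namespace Cfsg.Agent.H70.TyP

open Cfsg Cfsg.Agent.H81.TyP Cfsg.Agent.H4 Cfsg.Agent.H32

universe u

theorem linEq : StmtLinEq.{u} := by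
  classical
  intro L _ _ W₁ W₂ _hSNC χ hχ φ ψ₁ ψ₂ hφ1 hφ hψ₁1 hψ₂1 hψne hψ₁ hψ₂ Λ hΛ
  let _ : Fintype ↥(W₁ ⊔ W₂) := Fintype.ofFinite _
  obtain ⟨lam, hlam⟩ : ∃ lam : L → ℂ, lam = fun x => ((Λ x : ℂˣ) : ℂ) := ⟨_, rfl⟩
  rw [← hlam]
  have hΛirr : IsIrrCharacter L lam := by
    rw [hlam]
    exact isIrrCharacter_of_hom Λ
  have hΛcf : IsClassFunction L lam :=
    isClassFunction_of_isCharacter (isCharacter_of_isIrrCharacter hΛirr)
  have hΛ1 : (1 : L →* ℂˣ) ≠ Λ := by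
    intro h
    apply hφ1
    ext w
    rw [← hΛ w, ← h]
    rfl
  have hone : classInner (fun _ : L => (1 : ℂ)) lam = 0 := by
    have h := classInner_unitsHom (1 : L →* ℂˣ) Λ
    simp only [MonoidHom.one_apply, Units.val_one] at h
    rw [hlam, h, if_neg hΛ1]
  have hself : classInner lam lam = 1 := irr_inner_self ⟨lam, hΛirr⟩
  have hB2 : ∀ ω, classInner (χ ω) lam ≠ 0 → ∃ s : ℂ, (s = 1 ∨ s = -1) ∧ χ ω = s • lam := by
    intro ω hne
    rcases hχ.irr_or_neg ω with h | h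
    · have h1 := irr_inner ⟨χ ω, h⟩ ⟨lam, hΛirr⟩
      by_cases he : (⟨χ ω, h⟩ : IrrCharacter L) = ⟨lam, hΛirr⟩
      · refine ⟨1, Or.inl rfl, ?_⟩
        rw [one_smul]
        exact congrArg Subtype.val he
      · rw [if_neg he] at h1
        exact absurd h1 hne
    · have h1 := irr_inner ⟨-χ ω, h⟩ ⟨lam, hΛirr⟩
      by_cases he : (⟨-χ ω, h⟩ : IrrCharacter L) = ⟨lam, hΛirr⟩
      · refine ⟨-1, Or.inr rfl, ?_⟩
        have e : -χ ω = lam := congrArg Subtype.val he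
        rw [neg_one_smul, ← e, neg_neg]
      · rw [if_neg he] at h1
        have h2 : classInner (-χ ω) lam = 0 := h1
        rw [classInner_neg_left, neg_eq_zero] at h2
        exact absurd h2 hne
  have hB1 : ∀ ω ω', classInner (χ ω) lam ≠ 0 → classInner (χ ω') lam ≠ 0 → ω = ω' := by
    intro ω ω' h h'
    obtain ⟨s, hs, e⟩ := hB2 ω h
    obtain ⟨s', hs', e'⟩ := hB2 ω' h'
    by_contra hne
    have h1 := hχ.orthonormal ω ω'
    rw [if_neg hne, e, e', classInner_smul_left, classInner_smul_right, hself, mul_one] at h1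
    rcases hs with rfl | rfl <;> rcases hs' with rfl | rfl <;> simp at h1
  have hA : ∀ ψ : ↥(W₁ ⊔ W₂) →* ℂˣ, ψ ≠ 1 → (∀ w : ↥(W₁ ⊔ W₂), (w : L) ∈ W₁ → ψ w = 1) →
      classInner (χ φ) lam + classInner (χ ψ) lam - classInner (χ (φ * ψ)) lam = 1 ∧
        ψ ≠ φ ∧ φ * ψ ≠ φ := by
    intro ψ hψ1 hψ
    have n1 : (1 : ↥(W₁ ⊔ W₂) →* ℂˣ) ≠ φ := fun h => hφ1 h.symm
    have n2 : ψ ≠ φ := by
      intro h
      have h' := snc_mul_eq_mul W₁ W₂ 1 φ ψ 1 (fun _ _ => rfl) hφ hψ (fun _ _ => rfl)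
        ((one_mul ψ).trans (h.trans (mul_one φ).symm))
      exact hφ1 h'.1.symm
    have n3 : φ * ψ ≠ φ := by
      intro h
      have h' := snc_mul_eq_mul W₁ W₂ φ φ ψ 1 hφ hφ hψ (fun _ _ => rfl)
        (h.trans (mul_one φ).symm)
      exact hψ1 h'.2
    refine ⟨?_, n2, n3⟩
    have hind := hχ.induced_eq φ ψ hφ1 hψ1 hφ hψ
    have hfr := frobenius_reciprocity (W₁ ⊔ W₂)
      (fun w => 1 - (φ w : ℂ) - (ψ w : ℂ) + (φ w : ℂ) * (ψ w : ℂ)) lam hΛcf
    rw [hind] at hfr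
    have hres : (fun h : ↥(W₁ ⊔ W₂) => lam h) = fun w => ((φ w : ℂˣ) : ℂ) := by
      funext w
      rw [hlam]
      show ((Λ (w : L) : ℂˣ) : ℂ) = _
      rw [hΛ w]
    rw [hres] at hfr
    have hl : (fun g => 1 - χ φ g - χ ψ g + χ (φ * ψ) g) =
        (fun _ : L => (1 : ℂ)) - χ φ - χ ψ + χ (φ * ψ) := rfl
    have hr : (fun w : ↥(W₁ ⊔ W₂) => 1 - (φ w : ℂ) - (ψ w : ℂ) + (φ w : ℂ) * (ψ w : ℂ)) =
        (fun w => (((1 : ↥(W₁ ⊔ W₂) →* ℂˣ) w : ℂˣ) : ℂ)) - (fun w => ((φ w : ℂˣ) : ℂ)) -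
          (fun w => ((ψ w : ℂˣ) : ℂ)) + (fun w => (((φ * ψ) w : ℂˣ) : ℂ)) := by
      funext w
      simp only [Pi.add_apply, Pi.sub_apply, MonoidHom.one_apply, Units.val_one,
        MonoidHom.mul_apply, Units.val_mul]
    rw [hl, hr, classInner_add_left, classInner_sub_left, classInner_sub_left,
      classInner_add_left, classInner_sub_left, classInner_sub_left, hone,
      classInner_unitsHom, classInner_unitsHom, classInner_unitsHom, classInner_unitsHom,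
      if_neg n1, if_pos rfl, if_neg n2, if_neg n3] at hfr
    linear_combination -hfr
  obtain ⟨e1, m1, m2⟩ := hA ψ₁ hψ₁1 hψ₁
  obtain ⟨e2, -, -⟩ := hA ψ₂ hψ₂1 hψ₂
  have hIφ : classInner (χ φ) lam ≠ 0 := by
    intro h0
    rw [h0, zero_add] at e1 e2
    have c1 : classInner (χ ψ₁) lam ≠ 0 ∨ classInner (χ (φ * ψ₁)) lam ≠ 0 := by
      by_contra hcon
      push Not at hcon
      rw [hcon.1, hcon.2] at e1
      norm_num at e1
    have c2 : classInner (χ ψ₂) lam ≠ 0 ∨ classInner (χ (φ * ψ₂)) lam ≠ 0 := by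
      by_contra hcon
      push Not at hcon
      rw [hcon.1, hcon.2] at e2
      norm_num at e2
    rcases c1 with c1 | c1 <;> rcases c2 with c2 | c2
    · exact hψne (hB1 _ _ c1 c2)
    · have h := hB1 _ _ c1 c2
      have h' := snc_mul_eq_mul W₁ W₂ 1 φ ψ₁ ψ₂ (fun _ _ => rfl) hφ hψ₁ hψ₂
        ((one_mul ψ₁).trans h)
      exact hφ1 h'.1.symm
    · have h := hB1 _ _ c1 c2
      have h' := snc_mul_eq_mul W₁ W₂ φ 1 ψ₁ ψ₂ hφ (fun _ _ => rfl) hψ₁ hψ₂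
        (h.trans (one_mul ψ₂).symm)
      exact hφ1 h'.1
    · have h := hB1 _ _ c1 c2
      have h' := snc_mul_eq_mul W₁ W₂ φ φ ψ₁ ψ₂ hφ hφ hψ₁ hψ₂ h
      exact hψne h'.2
  have z1 : classInner (χ ψ₁) lam = 0 := by
    by_contra h
    exact m1 (hB1 _ _ h hIφ)
  have z2 : classInner (χ (φ * ψ₁)) lam = 0 := by
    by_contra h
    exact m2 (hB1 _ _ h hIφ)
  rw [z1, z2, add_zero, sub_zero] at e1
  obtain ⟨s, hs, e⟩ := hB2 φ hIφ
  rw [e, classInner_smul_left, hself, mul_one] at e1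
  rw [e, e1, one_smul]

end Cfsg.Agent.H70.TyP
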