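import Cfsg.Agent.H81.TypePDefs
import Cfsg.Agent.H4.Blich1
import Cfsg.Agent.H4.Exceptional

/-!
# S1511-PACK (helper70, piece for helper81): packaging the exceptional characters `μ`, `δ`.
-/

set_option autoImplicit false

namespace Cfsg.Agent.H70.TyP

open Cfsg Cfsg.Agent.H81.TyP Cfsg.Agent.H4

universe u

/-- the value at `1` of an irreducible character is a positive natural number -/
theorem irr_one_pos {L : Type u} [Group L] {θ : L → ℂ} (h : IsIrrCharacter L θ) :
    ∃ n : ℕ, 0 < n ∧ θ 1 = (n : ℂ) :=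
  ⟨charDegree θ, irr_charDegree_pos ⟨θ, h⟩, isCharacter_one_eq (isCharacter_of_isIrrCharacter h)⟩

theorem pack : StmtPack.{u} := by
  classical
  intro L _ _ W₁ W₂ χ hχ hD he hf hg
  let δ : (↥(W₁ ⊔ W₂) →* ℂˣ) → ℂ := fun ω => if IsIrrCharacter L (χ ω) then 1 else -1
  let μ : (↥(W₁ ⊔ W₂) →* ℂˣ) → (L → ℂ) := fun ω => δ ω • χ ω
  have hδ : ∀ ω, δ ω = 1 ∨ δ ω = -1 := by
    intro ω
    by_cases h : IsIrrCharacter L (χ ω)
    · left
      exact if_pos h
    · right
      exact if_neg h
  have hδ2 : ∀ ω, δ ω * δ ω = 1 := by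
    intro ω
    rcases hδ ω with h | h <;> rw [h] <;> norm_num
  have hμdef : ∀ ω, μ ω = δ ω • χ ω := fun _ => rfl
  have hμirr : ∀ ω, IsIrrCharacter L (μ ω) := by
    intro ω
    by_cases h : IsIrrCharacter L (χ ω)
    · have e : μ ω = χ ω := by
        rw [hμdef, show δ ω = 1 from if_pos h, one_smul]
      rw [e]
      exact h
    · have e : μ ω = -χ ω := by
        rw [hμdef, show δ ω = -1 from if_neg h, neg_one_smul]
      rw [e]
      exact (hχ.irr_or_neg ω).resolve_left h
  have hχμ : ∀ ω, χ ω = δ ω • μ ω := by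
    intro ω
    rw [hμdef, smul_smul, hδ2, one_smul]
  have hinj : Function.Injective μ := by
    intro ω ω' h
    by_contra hne
    have h1 : classInner (μ ω) (μ ω') = 1 := by
      rw [← h]
      exact irr_inner_self ⟨μ ω, hμirr ω⟩
    have h2 : classInner (μ ω) (μ ω') = 0 := by
      rw [hμdef, hμdef, classInner_smul_left, classInner_smul_right, hχ.orthonormal, if_neg hne,
        mul_zero, mul_zero]
    rw [h2] at h1
    exact zero_ne_one h1
  have hsign : ∀ ω, ∃ n : ℕ, 0 < n ∧ χ ω 1 = δ ω * (n : ℂ) := by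
    intro ω
    obtain ⟨n, hn, h1⟩ := irr_one_pos (hμirr ω)
    refine ⟨n, hn, ?_⟩
    rw [← h1, hμdef, Pi.smul_apply, smul_eq_mul, ← mul_assoc, hδ2, one_mul]
  refine ⟨μ, δ, hinj, hμirr, hδ, ?_, ?_, ?_, ?_⟩
  · intro ω ω' hag
    have hd := hD ω ω' hag
    have h1 : χ ω 1 = χ ω' 1 := by
      have h0 : indFun (W₁ ⊔ W₂) (fun w => (ω w : ℂ) - (ω' w : ℂ)) 1 = 0 := by
        apply indFun_one_eq_zero
        rw [map_one, map_one, sub_self]
      rw [hd, Pi.sub_apply] at h0
      exact sub_eq_zero.1 h0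
    have hδeq : δ ω = δ ω' := by
      obtain ⟨n, hn, e1⟩ := hsign ω
      obtain ⟨m, hm, e2⟩ := hsign ω'
      rw [e1, e2] at h1
      rcases hδ ω with ha | ha <;> rcases hδ ω' with hb | hb
      · rw [ha, hb]
      · exfalso
        rw [ha, hb] at h1
        have h3 : ((n + m : ℕ) : ℂ) = 0 := by
          push_cast
          linear_combination h1
        have h4 := Nat.cast_eq_zero.1 h3
        omega
      · exfalso
        rw [ha, hb] at h1
        have h3 : ((n + m : ℕ) : ℂ) = 0 := by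
          push_cast
          linear_combination -h1
        have h4 := Nat.cast_eq_zero.1 h3
        omega
      · rw [ha, hb]
    refine ⟨hδeq, ?_⟩
    rw [hd, hμdef, hμdef, ← hδeq, ← smul_sub, smul_smul, hδ2, one_smul]
  · intro ω w hw
    rw [hμdef, Pi.smul_apply, smul_eq_mul, he ω w hw]
  · intro θ hθ hne w hw
    apply hf θ (isClassFunction_of_isCharacter (isCharacter_of_isIrrCharacter hθ)) _ w hw
    intro ω
    have h0 : classInner θ (μ ω) = 0 :=
      irr_inner_ne (χ := ⟨θ, hθ⟩) (ψ := ⟨μ ω, hμirr ω⟩)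
        (fun h => hne ω (congrArg Subtype.val h))
    rw [hχμ ω, classInner_smul_right, h0, mul_zero]
  · intro ω
    obtain ⟨n, hn⟩ := hg ω
    rcases hδ ω with h | h
    · refine ⟨n, ?_⟩
      rw [hμdef, Pi.smul_apply, smul_eq_mul, h, one_mul]
      exact hn
    · refine ⟨-n, ?_⟩
      rw [hμdef, Pi.smul_apply, smul_eq_mul, h]
      push_cast
      linear_combination -hn

end Cfsg.Agent.H70.TyP
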