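import Cfsg.Agent.H70.UqSAbsCore
import Cfsg.Agent.H14.SnGL
import Cfsg.Agent.H89.SnGLA

/-!
# UQ-SABS (helper58's project S2950): `J(X)` normalizes `[V, K]`

Hypothesis-free form of `Cfsg.Agent.H70.Uq.sAbs_of`, with the GL piece of S2942
(`Cfsg.Agent.H14.Sn.gl`, `Cfsg.Agent.H89.Sn.gla`).
-/

set_option autoImplicit false
open Cfsg

namespace Cfsg.Agent.H70.Uq

open Cfsg.Agent.H58.Uq

universe u

theorem sAbs : StSAbs.{u} := sAbs_of (Cfsg.Agent.H14.Sn.gl Cfsg.Agent.H89.Sn.gla)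

example : StSAbs.{u} := sAbs

end Cfsg.Agent.H70.Uq
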