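import Mathlib
import Cfsg.Agent.H74.W2PDefs

/-!
# S0720, piece LA8: Galois transfer for the scalars `wch` of integer matrices (helper70)
-/

set_option autoImplicit false
namespace Cfsg.Agent.H70.W2P
open Cfsg.Agent.H74.W2P Equiv MulAction
variable {Ω : Type*} [Fintype Ω] [DecidableEq Ω]

theorem zeta_prim {p : ℕ} (hp : p ≠ 0) : IsPrimitiveRoot (zeta p) p :=
  Complex.isPrimitiveRoot_exp p hp

/-- an integer relation between powers of a primitive `p`-th root of unity `ζ` stays true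
when `ζ` is replaced by `ζ ^ k`, `k` prime to `p` -/
theorem transfer_aux {p : ℕ} (hp : p.Prime) {ζ : ℂ} (hζ : IsPrimitiveRoot ζ p) (c : ℕ → ℤ)
    (m m' k : ℕ) (hk : Nat.Coprime k p)
    (h : ∑ z ∈ Finset.range p, (c z : ℂ) * ζ ^ (m * z) =
      ∑ z ∈ Finset.range p, (c z : ℂ) * ζ ^ (m' * z)) :
    ∑ z ∈ Finset.range p, (c z : ℂ) * ζ ^ (k * m * z) =
      ∑ z ∈ Finset.range p, (c z : ℂ) * ζ ^ (k * m' * z) := by
  classical
  set r : Polynomial ℤ := ∑ z ∈ Finset.range p, Polynomial.C (c z) * Polynomial.X ^ z with hr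
  have hev : ∀ w : ℂ, Polynomial.aeval w r = ∑ z ∈ Finset.range p, (c z : ℂ) * w ^ z := by
    intro w
    simp [hr, map_sum]
  have hex : ∀ (n : ℕ) (w : ℂ), Polynomial.aeval w (Polynomial.expand ℤ n r) =
      ∑ z ∈ Finset.range p, (c z : ℂ) * w ^ (n * z) := by
    intro n w
    rw [Polynomial.expand_aeval, hev]
    refine Finset.sum_congr rfl fun z _ => ?_
    rw [pow_mul]
  set R : Polynomial ℤ := Polynomial.expand ℤ m r - Polynomial.expand ℤ m' r with hR
  have h0 : Polynomial.aeval ζ R = 0 := by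
    rw [hR, map_sub, hex, hex, h, sub_self]
  have hint : IsIntegral ℤ ζ := hζ.isIntegral hp.pos
  have hdvd : minpoly ℤ ζ ∣ R := minpoly.isIntegrallyClosed_dvd hint h0
  rw [hζ.minpoly_eq_pow_coprime hk] at hdvd
  obtain ⟨q, hq⟩ := hdvd
  have h1 : Polynomial.aeval (ζ ^ k) R = 0 := by
    rw [hq, map_mul, minpoly.aeval, zero_mul]
  rw [hR, map_sub, hex, hex, sub_eq_zero] at h1
  simpa [← pow_mul, mul_assoc] using h1

theorem wch_transfer {G : Subgroup (Perm Ω)} {p : ℕ} {x : Perm Ω} (hyp : Hyp G p x) (a₀ b₀ : Ω) :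
    Transfer x a₀ b₀ p := by
  intro A h h' k hk heq
  have hp := hyp.hp
  have : Fact p.Prime := ⟨hp⟩
  have hζ := zeta_prim hp.ne_zero
  set c : ℕ → ℤ := fun z => A a₀ ((x ^ z) a₀) + A b₀ ((x ^ z) b₀) with hc
  have hw : ∀ h : ZMod p, wch x a₀ b₀ p (A.map (Int.cast : ℤ → ℂ)) h =
      (∑ z ∈ Finset.range p, (c z : ℂ) * zeta p ^ (h.val * z)) -
        ∑ j, (A.map (Int.cast : ℤ → ℂ)) a₀ j * sig x a₀ j := by
    intro h
    unfold wch
    congr 1
    refine Finset.sum_congr rfl fun z _ => ?_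
    simp [hc, Matrix.map_apply]
  rw [hw, hw] at heq ⊢
  have heq' := sub_left_injective heq
  have hkcop : Nat.Coprime k.val p := by
    have h1 : k.val ≠ 0 := by rwa [Ne, ZMod.val_eq_zero]
    have h2 : k.val < p := ZMod.val_lt k
    exact Nat.Coprime.symm ((Nat.Prime.coprime_iff_not_dvd hp).mpr
      (Nat.not_dvd_of_pos_of_lt (Nat.pos_of_ne_zero h1) h2))
  have key := transfer_aux hp hζ c h.val h'.val k.val hkcop heq'
  have hval : ∀ (h : ZMod p) (z : ℕ),
      zeta p ^ ((k * h).val * z) = zeta p ^ (k.val * h.val * z) := by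
    intro h z
    rw [ZMod.val_mul, pow_mul, pow_mul (zeta p) (k.val * h.val)]
    congr 1
    conv_rhs => rw [← Nat.mod_add_div (k.val * h.val) p]
    rw [pow_add, pow_mul, hζ.pow_eq_one, one_pow, mul_one]
  congr 1
  simp only [hval]
  exact key

end Cfsg.Agent.H70.W2P
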