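import Mathlib
import Cfsg.Agent.H74.W2PDefs
import Cfsg.Agent.H70.W2PLA8
import Cfsg.Agent.H73.W2PCyc

/-!
# S0720, piece LA10 (rank of the centralizer algebra): the characters `n`, `a`, `wch · h`
(helper70)
-/

set_option autoImplicit false
namespace Cfsg.Agent.H70.W2P
open Cfsg.Agent.H74.W2P Equiv MulAction
variable {Ω : Type*} [Fintype Ω] [DecidableEq Ω]

/-! ### the three kinds of characters as linear functionals on all matrices -/

/-- the functional `n(A) = ∑ j, A a₀ j` -/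
noncomputable def nL (a₀ : Ω) : Matrix Ω Ω ℂ →ₗ[ℂ] ℂ where
  toFun A := ∑ j, A a₀ j
  map_add' A B := by simp [Finset.sum_add_distrib]
  map_smul' c A := by simp [Finset.mul_sum]

/-- the functional `a(A) = ∑ j, A a₀ j * σ j` -/
noncomputable def aL (x : Perm Ω) (a₀ : Ω) : Matrix Ω Ω ℂ →ₗ[ℂ] ℂ where
  toFun A := ∑ j, A a₀ j * sig x a₀ j
  map_add' A B := by simp [add_mul, Finset.sum_add_distrib]
  map_smul' c A := by simp [Finset.mul_sum, mul_assoc]

/-- the functional `wch · h` -/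
noncomputable def wL (x : Perm Ω) (a₀ b₀ : Ω) (p : ℕ) (h : ZMod p) : Matrix Ω Ω ℂ →ₗ[ℂ] ℂ where
  toFun A := wch x a₀ b₀ p A h
  map_add' A B := by
    unfold wch
    simp only [Matrix.add_apply, add_mul, Finset.sum_add_distrib]
    ring
  map_smul' c A := by
    unfold wch
    simp only [Matrix.smul_apply, smul_eq_mul, RingHom.id_apply, mul_sub, Finset.mul_sum]
    congr 1
    · exact Finset.sum_congr rfl fun z _ => by ring
    · exact Finset.sum_congr rfl fun z _ => by ring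

/-- the all-ones matrix -/
def Jm : Matrix Ω Ω ℂ := Matrix.of fun _ _ => 1

theorem centC_J (G : Subgroup (Perm Ω)) : CentC G (Jm : Matrix Ω Ω ℂ) := fun _ _ _ _ => rfl

theorem centC_one (G : Subgroup (Perm Ω)) : CentC G (1 : Matrix Ω Ω ℂ) := by
  intro g _ i j
  simp [Matrix.one_apply]

theorem centC_mul {G : Subgroup (Perm Ω)} {A B : Matrix Ω Ω ℂ} (hA : CentC G A)
    (hB : CentC G B) : CentC G (A * B) := by
  intro g hg i j
  rw [Matrix.mul_apply, Matrix.mul_apply, ← Equiv.sum_comp g]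
  exact Finset.sum_congr rfl fun k _ => by rw [hA g hg, hB g hg]

theorem row_sum {G : Subgroup (Perm Ω)} [IsPretransitive G Ω] {A : Matrix Ω Ω ℂ}
    (hA : CentC G A) (a₀ i : Ω) : ∑ j, A i j = ∑ j, A a₀ j := by
  obtain ⟨g, hg⟩ := MulAction.exists_smul_eq G a₀ i
  have hg' : (g : Perm Ω) a₀ = i := hg
  rw [← hg', ← Equiv.sum_comp (g : Perm Ω) (fun j => A ((g : Perm Ω) a₀) j)]
  exact Finset.sum_congr rfl fun j _ => hA g g.2 a₀ j

theorem mulVec_one_of_centC {G : Subgroup (Perm Ω)} [IsPretransitive G Ω] (a₀ : Ω)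
    (A : Matrix Ω Ω ℂ) (hA : CentC G A) :
    A.mulVec (fun _ : Ω => (1 : ℂ)) = nL a₀ A • (fun _ : Ω => (1 : ℂ)) := by
  funext i
  simp only [Matrix.mulVec, dotProduct, mul_one, Pi.smul_apply, smul_eq_mul, nL,
    LinearMap.coe_mk, AddHom.coe_mk]
  exact row_sum hA a₀ i

theorem sig_mem_U0 (G : Subgroup (Perm Ω)) (x : Perm Ω) (a₀ : Ω) : sig x a₀ ∈ U0 G x a₀ :=
  Submodule.subset_span ⟨1, G.one_mem, rfl⟩

theorem sig_ne_zero (x : Perm Ω) (a₀ : Ω) : sig x a₀ ≠ 0 := by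
  intro h
  have h1 := congrFun h a₀
  rw [sig, if_pos (Perm.SameCycle.refl x a₀)] at h1
  exact one_ne_zero h1

theorem mul_of_eig {G : Subgroup (Perm Ω)} (χ : Matrix Ω Ω ℂ →ₗ[ℂ] ℂ) (v : Ω → ℂ) (hv : v ≠ 0)
    (h : ∀ A, CentC G A → A.mulVec v = χ A • v) :
    χ 1 = 1 ∧ ∀ A B, CentC G A → CentC G B → χ (A * B) = χ A * χ B := by
  have hinj := smul_left_injective ℂ hv
  refine ⟨?_, ?_⟩
  · apply hinj
    show χ 1 • v = (1 : ℂ) • v
    rw [← h 1 (centC_one G), Matrix.one_mulVec, one_smul]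
  · intro A B hA hB
    apply hinj
    show χ (A * B) • v = (χ A * χ B) • v
    rw [← h _ (centC_mul hA hB), ← Matrix.mulVec_mulVec, h B hB, Matrix.mulVec_smul, h A hA,
      smul_smul, mul_comm]

/-- the common eigenspace of the centralizer algebra for the functional `χ` -/
def eigSub (G : Subgroup (Perm Ω)) (χ : Matrix Ω Ω ℂ →ₗ[ℂ] ℂ) : Submodule ℂ (Ω → ℂ) where
  carrier := {f | ∀ A, CentC G A → A.mulVec f = χ A • f}
  add_mem' := by
    intro f g hf hg A hA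
    rw [Matrix.mulVec_add, hf A hA, hg A hA, smul_add]
  zero_mem' := by
    intro A _
    simp
  smul_mem' := by
    intro c f hf A hA
    rw [Matrix.mulVec_smul, hf A hA, smul_comm]

theorem exists_mem_ne_zero_of_finrank {V : Type*} [AddCommGroup V] [Module ℂ V]
    (S : Submodule ℂ V) (h : Module.finrank ℂ ↥S = 1) : ∃ v ∈ S, v ≠ 0 := by
  apply Submodule.exists_mem_ne_zero_of_ne_bot
  rintro rfl
  rw [finrank_bot] at h
  omega

/-! ### values at the all-ones matrix -/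

theorem nL_J (a₀ : Ω) : nL a₀ (Jm : Matrix Ω Ω ℂ) = (Fintype.card Ω : ℂ) := by
  simp [nL, Jm]

theorem aL_J {G : Subgroup (Perm Ω)} {p : ℕ} {x : Perm Ω} (hyp : Hyp G p x) (a₀ : Ω) :
    aL x a₀ (Jm : Matrix Ω Ω ℂ) = 0 := by
  simp only [aL, Jm, LinearMap.coe_mk, AddHom.coe_mk, Matrix.of_apply, one_mul]
  exact Cfsg.Agent.H73.W2P.sum_sig hyp a₀

theorem val_coprime {p : ℕ} (hp : p.Prime) {k : ZMod p} (hk : k ≠ 0) : Nat.Coprime k.val p := by
  have : Fact p.Prime := ⟨hp⟩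
  have h1 : k.val ≠ 0 := by rwa [Ne, ZMod.val_eq_zero]
  have h2 : k.val < p := ZMod.val_lt k
  exact Nat.Coprime.symm ((Nat.Prime.coprime_iff_not_dvd hp).mpr
    (Nat.not_dvd_of_pos_of_lt (Nat.pos_of_ne_zero h1) h2))

theorem zeta_pow_val_mul {p : ℕ} (hp : p.Prime) (k h : ZMod p) (z : ℕ) :
    zeta p ^ ((k * h).val * z) = zeta p ^ (k.val * h.val * z) := by
  have : Fact p.Prime := ⟨hp⟩
  have hζ := zeta_prim hp.ne_zero
  rw [ZMod.val_mul, pow_mul, pow_mul (zeta p) (k.val * h.val)]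
  congr 1
  conv_rhs => rw [← Nat.mod_add_div (k.val * h.val) p]
  rw [pow_add, pow_mul, hζ.pow_eq_one, one_pow, mul_one]

theorem wch_J {G : Subgroup (Perm Ω)} {p : ℕ} {x : Perm Ω} (hyp : Hyp G p x) (a₀ b₀ : Ω)
    (h : ZMod p) (hh : h ≠ 0) : wch x a₀ b₀ p (Jm : Matrix Ω Ω ℂ) h = 0 := by
  have hp := hyp.hp
  have hζ := (zeta_prim hp.ne_zero).pow_of_coprime h.val (val_coprime hp hh)
  have hgeom := hζ.geom_sum_eq_zero hp.one_lt
  unfold wch
  simp only [Jm, Matrix.of_apply, one_mul]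
  rw [Cfsg.Agent.H73.W2P.sum_sig hyp a₀, sub_zero, ← Finset.mul_sum]
  have : ∑ z ∈ Finset.range p, zeta p ^ (h.val * z) = ∑ z ∈ Finset.range p, (zeta p ^ h.val) ^ z :=
    Finset.sum_congr rfl fun z _ => by rw [pow_mul]
  rw [this, hgeom, mul_zero]

/-! ### equality of the characters `wch · h` -/

theorem wL_eq_iff {G : Subgroup (Perm Ω)} {p : ℕ} [Fact p.Prime] {x : Perm Ω} (a₀ b₀ : Ω)
    (htr : Transfer x a₀ b₀ p) (hspan : SpanInt G) {h h' : ZMod p} (hh : h ≠ 0)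
    (hh' : h' ≠ 0) :
    (∀ A, CentC G A → wch x a₀ b₀ p A h' = wch x a₀ b₀ p A h) ↔
      h⁻¹ * h' ∈ Eset G x a₀ b₀ p := by
  constructor
  · intro H
    refine ⟨mul_ne_zero (inv_ne_zero hh) hh', fun B hB => ?_⟩
    have hBc : CentC G (B.map (Int.cast : ℤ → ℂ)) := fun g hg i j => by
      simp only [Matrix.map_apply, hB g hg i j]
    have h1 := htr B h' h h⁻¹ (inv_ne_zero hh) (H _ hBc)
    rwa [inv_mul_cancel₀ hh] at h1
  · intro hE A hA
    have hA' : A ∈ centSub G := hA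
    have hs : centSub G = Submodule.span ℂ
        {A | ∃ B : Matrix Ω Ω ℤ, Cent G B ∧ A = B.map (Int.cast : ℤ → ℂ)} := hspan
    rw [hs] at hA'
    refine LinearMap.eqOn_span (f := wL x a₀ b₀ p h') (g := wL x a₀ b₀ p h) ?_ hA'
    rintro _ ⟨B, hB, rfl⟩
    have h1 := htr B (h⁻¹ * h') 1 h hh (hE.2 B hB)
    rw [mul_inv_cancel_left₀ hh, mul_one] at h1
    exact h1

/-! ### `a` is not one of the `wch · h` -/

theorem transfer_aux2 {p : ℕ} (hp : p.Prime) {ζ : ℂ} (hζ : IsPrimitiveRoot ζ p) (c : ℕ → ℤ)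
    (d : ℤ) (m k : ℕ) (hk : Nat.Coprime k p)
    (h : ∑ z ∈ Finset.range p, (c z : ℂ) * ζ ^ (m * z) = (d : ℂ)) :
    ∑ z ∈ Finset.range p, (c z : ℂ) * ζ ^ (k * m * z) = (d : ℂ) := by
  classical
  set r : Polynomial ℤ := ∑ z ∈ Finset.range p, Polynomial.C (c z) * Polynomial.X ^ z with hr
  have hev : ∀ w : ℂ, Polynomial.aeval w r = ∑ z ∈ Finset.range p, (c z : ℂ) * w ^ z := by
    intro w
    simp [hr, map_sum]
  have hex : ∀ (n : ℕ) (w : ℂ), Polynomial.aeval w (Polynomial.expand ℤ n r) =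
      ∑ z ∈ Finset.range p, (c z : ℂ) * w ^ (n * z) := by
    intro n w
    rw [Polynomial.expand_aeval, hev]
    refine Finset.sum_congr rfl fun z _ => ?_
    rw [pow_mul]
  set R : Polynomial ℤ := Polynomial.expand ℤ m r - Polynomial.C d with hR
  have h0 : Polynomial.aeval ζ R = 0 := by
    rw [hR, map_sub, hex, h, Polynomial.aeval_C]
    simp
  have hint : IsIntegral ℤ ζ := hζ.isIntegral hp.pos
  have hdvd : minpoly ℤ ζ ∣ R := minpoly.isIntegrallyClosed_dvd hint h0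
  rw [hζ.minpoly_eq_pow_coprime hk] at hdvd
  obtain ⟨q, hq⟩ := hdvd
  have h1 : Polynomial.aeval (ζ ^ k) R = 0 := by
    rw [hq, map_mul, minpoly.aeval, zero_mul]
  rw [hR, map_sub, hex, Polynomial.aeval_C, sub_eq_zero] at h1
  simpa [← pow_mul, mul_assoc] using h1

theorem w_eq_a_all {G : Subgroup (Perm Ω)} {p : ℕ} {x : Perm Ω} (hyp : Hyp G p x) (a₀ b₀ : Ω)
    (hspan : SpanInt G) (h : ZMod p) (hh : h ≠ 0)
    (hag : ∀ A, CentC G A → wch x a₀ b₀ p A h = aL x a₀ A) (k : ZMod p) (hk : k ≠ 0) :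
    ∀ A, CentC G A → wch x a₀ b₀ p A k = aL x a₀ A := by
  have hp := hyp.hp
  have : Fact p.Prime := ⟨hp⟩
  have hζ := zeta_prim hp.ne_zero
  intro A hA
  have hA' : A ∈ centSub G := hA
  have hs : centSub G = Submodule.span ℂ
      {A | ∃ B : Matrix Ω Ω ℤ, Cent G B ∧ A = B.map (Int.cast : ℤ → ℂ)} := hspan
  rw [hs] at hA'
  refine LinearMap.eqOn_span (f := wL x a₀ b₀ p k) (g := aL x a₀) ?_ hA'
  rintro _ ⟨B, hB, rfl⟩
  have hBc : CentC G (B.map (Int.cast : ℤ → ℂ)) := fun g hg i j => by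
    simp only [Matrix.map_apply, hB g hg i j]
  have h1 := hag _ hBc
  set c : ℕ → ℤ := fun z => B a₀ ((x ^ z) a₀) + B b₀ ((x ^ z) b₀) with hc
  set e : ℤ := ∑ j, B a₀ j * (if x.SameCycle a₀ j then 1 else -1) with he
  have hae : aL x a₀ (B.map (Int.cast : ℤ → ℂ)) = (e : ℂ) := by
    simp only [aL, LinearMap.coe_mk, AddHom.coe_mk, he, Matrix.map_apply, sig]
    push_cast
    refine Finset.sum_congr rfl fun j _ => ?_
    split_ifs <;> simp
  have hw : ∀ h : ZMod p, wch x a₀ b₀ p (B.map (Int.cast : ℤ → ℂ)) h =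
      (∑ z ∈ Finset.range p, (c z : ℂ) * zeta p ^ (h.val * z)) - (e : ℂ) := by
    intro h
    rw [← hae]
    unfold wch
    congr 1
    refine Finset.sum_congr rfl fun z _ => ?_
    simp [hc, Matrix.map_apply]
  rw [hw, hae] at h1
  have h2 : ∑ z ∈ Finset.range p, (c z : ℂ) * zeta p ^ (h.val * z) = ((2 * e : ℤ) : ℂ) := by
    push_cast; linear_combination h1
  have hkcop : Nat.Coprime (k * h⁻¹).val p := val_coprime hp (mul_ne_zero hk (inv_ne_zero hh))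
  have h3 := transfer_aux2 hp hζ c (2 * e) h.val (k * h⁻¹).val hkcop h2
  show wch x a₀ b₀ p (B.map (Int.cast : ℤ → ℂ)) k = aL x a₀ (B.map (Int.cast : ℤ → ℂ))
  rw [hw, hae]
  have h4 : ∀ z : ℕ, zeta p ^ (k.val * z) = zeta p ^ ((k * h⁻¹).val * h.val * z) := by
    intro z
    rw [← zeta_pow_val_mul hp (k * h⁻¹) h z, inv_mul_cancel_right₀ hh]
  simp only [h4]
  rw [h3]; push_cast; ring

/-- piece `S0720-LA10-GAL` (statement of helper11) -/
theorem a_eq_wch_all {G : Subgroup (Perm Ω)} {p : ℕ} {x : Perm Ω} (hyp : Hyp G p x) (a₀ b₀ : Ω)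
    (hb₀ : ¬ x.SameCycle a₀ b₀) (htr : Transfer x a₀ b₀ p) (hspan : SpanInt G)
    (h₀ : ZMod p) (hh₀ : h₀ ≠ 0)
    (heq : ∀ A : Matrix Ω Ω ℂ, CentC G A → wch x a₀ b₀ p A h₀ = ∑ j, A a₀ j * sig x a₀ j) :
    ∀ A : Matrix Ω Ω ℂ, CentC G A → ∀ h : ZMod p, h ≠ 0 →
      wch x a₀ b₀ p A h = ∑ j, A a₀ j * sig x a₀ j :=
  fun A hA h hh => w_eq_a_all hyp a₀ b₀ hspan h₀ hh₀ heq h hh A hA

end Cfsg.Agent.H70.W2P
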