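import Mathlib
import Cfsg.Agent.H74.W2PDefs

/-!
# S0720, piece LA10b: the centralizer algebra is spanned by its integer matrices (helper70)
-/

set_option autoImplicit false
namespace Cfsg.Agent.H70.W2P
open Cfsg.Agent.H74.W2P Equiv MulAction
variable {Ω : Type*} [Fintype Ω] [DecidableEq Ω]

open Classical in
/-- `orbMat G i j k l` is the number of `g ∈ G` with `g i = k` and `g j = l` -/
noncomputable def orbMat (G : Subgroup (Perm Ω)) (i j : Ω) : Matrix Ω Ω ℤ :=
  fun k l => ∑ g : G, if ((g : Perm Ω) i = k ∧ (g : Perm Ω) j = l) then 1 else 0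

theorem orbMat_cent (G : Subgroup (Perm Ω)) (i j : Ω) : Cent G (orbMat G i j) := by
  classical
  intro h hh k l
  unfold orbMat
  refine (Fintype.sum_equiv (Equiv.mulLeft (⟨h, hh⟩ : G)) _ _ ?_).symm
  intro g
  simp [Perm.mul_apply]

theorem spanInt (G : Subgroup (Perm Ω)) : SpanInt G := by
  classical
  unfold SpanInt
  apply le_antisymm
  · intro A hA
    have hA' : CentC G A := hA
    have hcard : (Fintype.card G : ℂ) ≠ 0 := Nat.cast_ne_zero.mpr Fintype.card_ne_zero
    have hdecomp : A = ∑ i, ∑ j, (A i j / (Fintype.card G : ℂ)) •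
        (orbMat G i j).map (Int.cast : ℤ → ℂ) := by
      ext k l
      simp only [Matrix.sum_apply, Matrix.smul_apply, Matrix.map_apply, smul_eq_mul]
      unfold orbMat
      push_cast
      have h1 : ∀ g : G, ∑ i, ∑ j, A i j *
          (if ((g : Perm Ω) i = k ∧ (g : Perm Ω) j = l) then (1 : ℂ) else 0) = A k l := by
        intro g
        rw [Finset.sum_eq_single ((g : Perm Ω)⁻¹ k) (fun i _ hi => ?_)
          (fun h => absurd (Finset.mem_univ _) h)]
        · rw [Finset.sum_eq_single ((g : Perm Ω)⁻¹ l) (fun j _ hj => ?_)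
            (fun h => absurd (Finset.mem_univ _) h)]
          · have := hA' (g : Perm Ω) g.2 ((g : Perm Ω)⁻¹ k) ((g : Perm Ω)⁻¹ l)
            have e1 : ∀ k : Ω, (g : Perm Ω) ((g : Perm Ω)⁻¹ k) = k := fun k => by simp
            rw [e1, e1] at this
            simp [this]
          · have : ¬ ((g : Perm Ω) j = l) := fun h => hj (by rw [← h]; simp)
            simp [this]
        · have : ¬ ((g : Perm Ω) i = k) := fun h => hi (by rw [← h]; simp)
          simp [this]
      calc A k l = (1 / (Fintype.card G : ℂ)) * ∑ _g : G, A k l := by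
            rw [Finset.sum_const, Finset.card_univ, nsmul_eq_mul]; field_simp
        _ = (1 / (Fintype.card G : ℂ)) * ∑ g : G, ∑ i, ∑ j, A i j *
              (if ((g : Perm Ω) i = k ∧ (g : Perm Ω) j = l) then (1 : ℂ) else 0) := by
            congr 1; exact Finset.sum_congr rfl (fun g _ => (h1 g).symm)
        _ = _ := by
            rw [Finset.sum_comm, Finset.mul_sum]
            refine Finset.sum_congr rfl fun i _ => ?_
            rw [Finset.sum_comm, Finset.mul_sum]
            refine Finset.sum_congr rfl fun j _ => ?_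
            rw [← Finset.mul_sum]
            ring
    rw [hdecomp]
    exact Submodule.sum_mem _ fun i _ => Submodule.sum_mem _ fun j _ =>
      Submodule.smul_mem _ _ (Submodule.subset_span ⟨orbMat G i j, orbMat_cent G i j, rfl⟩)
  · rw [Submodule.span_le]
    rintro A ⟨B, hB, rfl⟩
    intro g hg i j
    simp only [Matrix.map_apply, hB g hg i j]

end Cfsg.Agent.H70.W2P
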