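import Mathlib
import Cfsg.Agent.H74.W2PDefs
import Cfsg.Agent.H70.W2PLA10b

/-!
# S0720, piece LA10X3: a scalar action of the centralizer algebra on the sum-zero functions
forces 2-transitivity (helper70)
-/

set_option autoImplicit false
namespace Cfsg.Agent.H70.W2P
open Cfsg.Agent.H74.W2P Equiv MulAction
variable {Ω : Type*} [Fintype Ω] [DecidableEq Ω]

theorem scal_false {G : Subgroup (Perm Ω)} {p : ℕ} {x : Perm Ω} (hyp : Hyp G p x) (a₀ : Ω)
    (hsc : ∀ A : Matrix Ω Ω ℂ, CentC G A → ∀ f : Ω → ℂ, ∑ ω, f ω = 0 →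
      A.mulVec f = (∑ j, A a₀ j * sig x a₀ j) • f) : False := by
  classical
  have : IsPretransitive G Ω := hyp.hprim.toIsPretransitive
  have hstab : ∀ δ j : Ω, δ ≠ a₀ → j ≠ a₀ → ∃ g ∈ G, g a₀ = a₀ ∧ g δ = j := by
    intro δ j hδ hj
    by_cases hjδ : j = δ
    · exact ⟨1, G.one_mem, rfl, by rw [hjδ]; rfl⟩
    set A : Matrix Ω Ω ℂ := (orbMat G a₀ δ).map (Int.cast : ℤ → ℂ) with hA
    have hAc : CentC G A := fun g hg i k => by
      simp only [hA, Matrix.map_apply, orbMat_cent G a₀ δ g hg i k]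
    set f : Ω → ℂ := Pi.single δ 1 - Pi.single j 1 with hf
    have hfsum : ∑ ω, f ω = 0 := by
      simp [hf, Finset.sum_sub_distrib]
    have h1 := congrFun (hsc A hAc f hfsum) a₀
    have h2 : (A.mulVec f) a₀ = A a₀ δ - A a₀ j := by
      simp [hf, Matrix.mulVec_sub]
    have h3 : f a₀ = 0 := by
      simp [hf, hδ.symm, hj.symm]
    rw [h2, Pi.smul_apply, h3, smul_zero, sub_eq_zero] at h1
    have h4 : ((orbMat G a₀ δ a₀ j : ℤ) : ℂ) = ((orbMat G a₀ δ a₀ δ : ℤ) : ℂ) := by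
      simpa [hA] using h1.symm
    have h5 : orbMat G a₀ δ a₀ j = orbMat G a₀ δ a₀ δ := by exact_mod_cast h4
    have h6 : 0 < orbMat G a₀ δ a₀ δ := by
      unfold orbMat
      refine Finset.sum_pos' (fun g _ => by split_ifs <;> norm_num) ⟨1, Finset.mem_univ _, ?_⟩
      simp
    rw [← h5] at h6
    unfold orbMat at h6
    by_contra hcon
    push Not at hcon
    have h7 : ∑ g : G, (if ((g : Perm Ω) a₀ = a₀ ∧ (g : Perm Ω) δ = j) then (1 : ℤ) else 0) = 0 := by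
      apply Finset.sum_eq_zero
      intro g _
      rw [if_neg]
      rintro ⟨h8, h9⟩
      exact hcon g g.2 h8 h9
    omega
  apply hyp.hnot2
  rw [MulAction.is_two_pretransitive_iff]
  intro a b c d hab hcd
  obtain ⟨g₁, hg₁⟩ := MulAction.exists_smul_eq G a a₀
  obtain ⟨g₂, hg₂⟩ := MulAction.exists_smul_eq G c a₀
  have hg₁' : (g₁ : Perm Ω) a = a₀ := hg₁
  have hg₂' : (g₂ : Perm Ω) c = a₀ := hg₂
  have h1 : (g₁ : Perm Ω) b ≠ a₀ := by
    rw [← hg₁']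
    intro h
    exact hab ((g₁ : Perm Ω).injective h).symm
  have h2 : (g₂ : Perm Ω) d ≠ a₀ := by
    rw [← hg₂']
    intro h
    exact hcd ((g₂ : Perm Ω).injective h).symm
  obtain ⟨s, hs, hs1, hs2⟩ := hstab _ _ h1 h2
  refine ⟨g₂⁻¹ * ⟨s, hs⟩ * g₁, ?_, ?_⟩
  · show ((g₂ : Perm Ω)⁻¹ * s * (g₁ : Perm Ω)) a = c
    rw [Perm.mul_apply, Perm.mul_apply, hg₁', hs1, ← hg₂']
    simp
  · show ((g₂ : Perm Ω)⁻¹ * s * (g₁ : Perm Ω)) b = d
    rw [Perm.mul_apply, Perm.mul_apply, hs2]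
    simp

end Cfsg.Agent.H70.W2P
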