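import Mathlib
import Cfsg.Agent.H74.W2PDefs
import Cfsg.Agent.H70.W2PLA10Core
import Cfsg.Agent.H70.W2PLA10X3
import Cfsg.Agent.H67.W2PLA10DEC
import Cfsg.Agent.H80.W2PLA10X2

/-!
# S0720, piece LA10: the rank of the centralizer algebra is `t + 2` (helper70)
-/

set_option autoImplicit false
namespace Cfsg.Agent.H70.W2P
open Cfsg.Agent.H74.W2P Equiv MulAction
variable {Ω : Type*} [Fintype Ω] [DecidableEq Ω]

theorem a_ne_w {G : Subgroup (Perm Ω)} {p : ℕ} {x : Perm Ω} (hyp : Hyp G p x) (a₀ b₀ : Ω)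
    (core : Core G p x a₀ b₀) (hspan : SpanInt G) (h : ZMod p) (hh : h ≠ 0)
    (hag : ∀ A, CentC G A → wch x a₀ b₀ p A h = aL x a₀ A) : False := by
  have hp := hyp.hp
  have hall := w_eq_a_all hyp a₀ b₀ hspan h hh hag
  apply scal_false hyp a₀
  have hK : (Submodule.span ℂ {(fun _ : Ω => (1 : ℂ))} ⊔ eigSub G (aL x a₀)) = ⊤ := by
    apply Cfsg.Agent.H67.W2P.eq_top_of_parts hyp a₀ core.dimU core.dimW
    · exact Submodule.mem_sup_left (Submodule.mem_span_singleton_self _)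
    · intro f hf
      exact Submodule.mem_sup_right (fun A hA => core.scalU A hA f hf)
    · intro k hk f hf
      refine Submodule.mem_sup_right (fun A hA => ?_)
      rw [core.scalW A hA k hk f hf, hall k hk A hA]
  intro A hA f hf
  have hfK : f ∈ Submodule.span ℂ {(fun _ : Ω => (1 : ℂ))} ⊔ eigSub G (aL x a₀) := by
    rw [hK]; trivial
  obtain ⟨u, hu, z, hz, rfl⟩ := Submodule.mem_sup.mp hfK
  obtain ⟨c, rfl⟩ := Submodule.mem_span_singleton.mp hu
  have hJz := hz Jm (centC_J G)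
  rw [aL_J hyp a₀, zero_smul] at hJz
  have hJf : (Jm : Matrix Ω Ω ℂ).mulVec (c • (fun _ : Ω => (1 : ℂ)) + z) = 0 := by
    funext i
    simp only [Jm, Matrix.mulVec, dotProduct, Matrix.of_apply, one_mul, Pi.zero_apply]
    exact hf
  rw [Matrix.mulVec_add, hJz, add_zero, Matrix.mulVec_smul] at hJf
  have hc : c = 0 := by
    have h1 := congrFun hJf a₀
    simp only [Jm, Matrix.mulVec, dotProduct, Matrix.of_apply, Pi.smul_apply,
      Finset.sum_const, Finset.card_univ, nsmul_eq_mul, mul_one, smul_eq_mul,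
      Pi.zero_apply, mul_eq_zero] at h1
    rcases h1 with h1 | h1
    · exact h1
    · exfalso
      rw [hyp.hcard] at h1
      have : (2 * p : ℕ) ≠ 0 := by have := hp.pos; omega
      exact this (by exact_mod_cast h1)
  subst hc
  simp only [zero_smul, zero_add]
  exact hz A hA

/-! ### the main statement -/

theorem rank_eq {G : Subgroup (Perm Ω)} {p : ℕ} {x : Perm Ω} (hyp : Hyp G p x) (a₀ b₀ : Ω)
    (_hb₀ : ¬ x.SameCycle a₀ b₀) (core : Core G p x a₀ b₀) (htr : Transfer x a₀ b₀ p)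
    (hspan : SpanInt G)
    (hfr : Module.finrank ℂ ↥(centSub G) = Nat.card (orbitRel.Quotient (stabilizer G a₀) Ω)) :
    ∃ t : ℕ, 1 ≤ t ∧ t * (Eset G x a₀ b₀ p).ncard = p - 1 ∧
      Nat.card (orbitRel.Quotient (stabilizer G a₀) Ω) = t + 2 := by
  classical
  have hp := hyp.hp
  have : Fact p.Prime := ⟨hp⟩
  have : IsPretransitive G Ω := hyp.hprim.toIsPretransitive
  have hn_eig : ∀ A, CentC G A → A.mulVec (fun _ : Ω => (1 : ℂ)) =
      nL a₀ A • (fun _ : Ω => (1 : ℂ)) := mulVec_one_of_centC a₀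
  have hσ_mem : sig x a₀ ∈ U0 G x a₀ := sig_mem_U0 G x a₀
  have ha_eig : ∀ A, CentC G A → ∀ f ∈ U0 G x a₀, A.mulVec f = aL x a₀ A • f := core.scalU
  have hw_eig : ∀ A, CentC G A → ∀ h : ZMod p, h ≠ 0 → ∀ f ∈ Uperp G x a₀ ⊓ Vh x p h,
      A.mulVec f = wL x a₀ b₀ p h A • f := core.scalW
  let L : Option (Option {h : ZMod p // h ≠ 0}) → (Matrix Ω Ω ℂ →ₗ[ℂ] ℂ) := fun i =>
    match i with
    | none => nL a₀
    | some none => aL x a₀
    | some (some h) => wL x a₀ b₀ p h.1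
  have hone : (fun _ : Ω => (1 : ℂ)) ≠ 0 := by
    intro h
    have := congrFun h a₀
    simp at this
  have hmul : ∀ i, L i 1 = 1 ∧ ∀ A B, CentC G A → CentC G B → L i (A * B) = L i A * L i B := by
    intro i
    rcases i with _ | _ | ⟨h, hh⟩
    · exact mul_of_eig (nL a₀) _ hone hn_eig
    · exact mul_of_eig (aL x a₀) (sig x a₀) (sig_ne_zero x a₀)
        (fun A hA => ha_eig A hA _ hσ_mem)
    · obtain ⟨v, hv, hv0⟩ := exists_mem_ne_zero_of_finrank _ (core.dimW h hh)
      exact mul_of_eig (wL x a₀ b₀ p h) v hv0 (fun A hA => hw_eig A hA h hh v hv)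
  have hinj : ∀ A, CentC G A → (∀ i, L i A = 0) → A = 0 := by
    intro A hA h0
    have hK := Cfsg.Agent.H67.W2P.eq_top_of_parts hyp a₀ core.dimU core.dimW (LinearMap.ker (Matrix.mulVecLin A))
      ?_ ?_ ?_
    · ext i j
      have h1 : (Pi.single j (1 : ℂ) : Ω → ℂ) ∈ LinearMap.ker (Matrix.mulVecLin A) := by
        rw [hK]; trivial
      rw [LinearMap.mem_ker, Matrix.mulVecLin_apply] at h1
      have h2 := congrFun h1 i
      simpa using h2
    · rw [LinearMap.mem_ker, Matrix.mulVecLin_apply, hn_eig A hA,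
        (h0 none : nL a₀ A = 0), zero_smul]
    · intro f hf
      rw [LinearMap.mem_ker, Matrix.mulVecLin_apply, ha_eig A hA f hf,
        (h0 (some none) : aL x a₀ A = 0), zero_smul]
    · intro h hh f hf
      rw [LinearMap.mem_ker, Matrix.mulVecLin_apply, hw_eig A hA h hh f hf,
        (h0 (some (some ⟨h, hh⟩)) : wL x a₀ b₀ p h A = 0), zero_smul]
  have hdim := Cfsg.Agent.H80.W2P.finrank_centSub_eq_ncard G L hmul hinj
  set Rn := (nL a₀).domRestrict (centSub G) with hRn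
  set Ra := (aL x a₀).domRestrict (centSub G) with hRa
  set Rw : ZMod p → (centSub G →ₗ[ℂ] ℂ) :=
    fun h => (wL x a₀ b₀ p h).domRestrict (centSub G) with hRw
  set X : Finset (ZMod p) := Finset.univ.erase 0 with hX
  set T : Finset (centSub G →ₗ[ℂ] ℂ) := X.image Rw with hT
  have hrange : Set.range (fun i => (L i).domRestrict (centSub G)) =
      insert Rn (insert Ra (T : Set (centSub G →ₗ[ℂ] ℂ))) := by
    ext φ
    simp only [Set.mem_range, Set.mem_insert_iff, Finset.mem_coe, hT, Finset.mem_image, hX,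
      Finset.mem_erase, Finset.mem_univ, and_true]
    constructor
    · rintro ⟨i, rfl⟩
      rcases i with _ | _ | ⟨h, hh⟩
      · left; rfl
      · right; left; rfl
      · right; right; exact ⟨h, hh, rfl⟩
    · rintro (rfl | rfl | ⟨h, hh, rfl⟩)
      · exact ⟨none, rfl⟩
      · exact ⟨some none, rfl⟩
      · exact ⟨some (some ⟨h, hh⟩), rfl⟩
  have hJ : CentC G (Jm : Matrix Ω Ω ℂ) := centC_J G
  have hJmem : (Jm : Matrix Ω Ω ℂ) ∈ centSub G := hJ
  have hnJ : nL a₀ (Jm : Matrix Ω Ω ℂ) = (Fintype.card Ω : ℂ) := nL_J a₀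
  have hcardΩ : (Fintype.card Ω : ℂ) ≠ 0 := by
    rw [hyp.hcard]
    have : (2 * p : ℕ) ≠ 0 := by have := hp.pos; omega
    exact_mod_cast this
  have haJ : aL x a₀ (Jm : Matrix Ω Ω ℂ) = 0 := aL_J hyp a₀
  have hwJ : ∀ h : ZMod p, h ≠ 0 → wL x a₀ b₀ p h (Jm : Matrix Ω Ω ℂ) = 0 :=
    fun h hh => wch_J hyp a₀ b₀ h hh
  have hRn_ne_Ra : Rn ≠ Ra := by
    intro h
    have h1 := congrArg (fun φ => φ ⟨Jm, hJmem⟩) h
    simp only [hRn, hRa, LinearMap.domRestrict_apply] at h1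
    rw [hnJ, haJ] at h1
    exact hcardΩ h1
  have hRn_notin : Rn ∉ (T : Set (centSub G →ₗ[ℂ] ℂ)) := by
    intro h
    rw [Finset.mem_coe, hT, Finset.mem_image] at h
    obtain ⟨k, hk, hk2⟩ := h
    have hk0 : k ≠ 0 := (Finset.mem_erase.mp hk).1
    have h1 := congrArg (fun φ => φ ⟨Jm, hJmem⟩) hk2
    simp only [hRn, hRw, LinearMap.domRestrict_apply] at h1
    rw [hnJ, hwJ k hk0] at h1
    exact hcardΩ h1.symm
  have hRa_notin : Ra ∉ (T : Set (centSub G →ₗ[ℂ] ℂ)) := by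
    intro h
    rw [Finset.mem_coe, hT, Finset.mem_image] at h
    obtain ⟨k, hk, hk2⟩ := h
    have hk0 : k ≠ 0 := (Finset.mem_erase.mp hk).1
    have hag : ∀ A, CentC G A → wch x a₀ b₀ p A k = aL x a₀ A := by
      intro A hA
      have h1 := congrArg (fun φ => φ ⟨A, hA⟩) hk2
      simp only [hRa, hRw, LinearMap.domRestrict_apply] at h1
      exact h1
    exact a_ne_w hyp a₀ b₀ core hspan k hk0 hag
  have hncard : (Set.range (fun i => (L i).domRestrict (centSub G))).ncard = T.card + 2 := by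
    have h1 : Rn ∉ insert Ra (T : Set (centSub G →ₗ[ℂ] ℂ)) := by
      rw [Set.mem_insert_iff]
      push Not
      exact ⟨hRn_ne_Ra, hRn_notin⟩
    rw [hrange, Set.ncard_insert_of_notMem h1, Set.ncard_insert_of_notMem hRa_notin,
      Set.ncard_coe_finset]
  have hfiber : ∀ φ ∈ T, (X.filter (fun h => Rw h = φ)).card = (Eset G x a₀ b₀ p).ncard := by
    intro φ hφ
    rw [hT, Finset.mem_image] at hφ
    obtain ⟨h₀, hh₀, rfl⟩ := hφ
    have hh₀0 : h₀ ≠ 0 := (Finset.mem_erase.mp hh₀).1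
    rw [← Set.ncard_coe_finset]
    have hset : ((X.filter (fun h => Rw h = Rw h₀) : Finset (ZMod p)) : Set (ZMod p)) =
        (fun k => h₀ * k) '' (Eset G x a₀ b₀ p) := by
      ext h
      simp only [Finset.coe_filter, Set.mem_ofPred_eq, hX, Finset.mem_erase, Finset.mem_univ,
        and_true, Set.mem_image]
      constructor
      · rintro ⟨hh0, heq⟩
        refine ⟨h₀⁻¹ * h, ?_, by rw [mul_inv_cancel_left₀ hh₀0]⟩
        exact (wL_eq_iff a₀ b₀ htr hspan hh₀0 hh0).mp (fun A hA => by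
          have h1 := congrArg (fun φ => φ ⟨A, hA⟩) heq
          simp only [hRw, LinearMap.domRestrict_apply] at h1
          exact h1)
      · rintro ⟨k, hk, rfl⟩
        have hk0 : k ≠ 0 := hk.1
        refine ⟨mul_ne_zero hh₀0 hk0, ?_⟩
        have h1 := (wL_eq_iff a₀ b₀ htr hspan hh₀0 (mul_ne_zero hh₀0 hk0)).mpr
          (by rwa [inv_mul_cancel_left₀ hh₀0])
        apply LinearMap.ext
        rintro ⟨A, hA⟩
        exact h1 A hA
    rw [hset, Set.ncard_image_of_injective _ (mul_right_injective₀ hh₀0)]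
  have hXcard : X.card = p - 1 := by
    rw [hX, Finset.card_erase_of_mem (Finset.mem_univ _), Finset.card_univ, ZMod.card]
  have hcount : T.card * (Eset G x a₀ b₀ p).ncard = p - 1 := by
    rw [← hXcard, Finset.card_eq_sum_card_image Rw X, Finset.sum_congr rfl hfiber,
      Finset.sum_const, smul_eq_mul]
  refine ⟨T.card, ?_, hcount, ?_⟩
  · have h1 : (1 : ZMod p) ∈ X := by
      rw [hX]; exact Finset.mem_erase.mpr ⟨one_ne_zero, Finset.mem_univ _⟩
    exact Finset.card_pos.mpr ⟨Rw 1, Finset.mem_image_of_mem _ h1⟩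
  · rw [← hfr, hdim, hncard]

end Cfsg.Agent.H70.W2P
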